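import Mathlib
import Cfsg.Agent.Helper15.B42Defs
import Cfsg.Agent.Helper77.D1MainA

/-!
# S4504 (Brauer, degree `(p - 1) / 2`): Gaussian periods (helper77)

`s4504_periods`: for two characters of shapes `(1, l₀)` and `(1, v l₀)` (`v ∉ F`, `F` of
index two in `(ZMod p)ˣ`), the values on `⟨x⟩` are the two Gaussian periods: the fields
`hconj`, `hsum`, `hdiff`, `hhalf`, `hswap`, `hkeep` of `Helper8.S4504Tab`.
-/

set_option autoImplicit false
open Cfsg Cfsg.Agent.Helper77 Cfsg.Agent.Helper15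
open scoped ComplexConjugate

namespace Cfsg.Agent.Helper77

universe u

section periods

variable (p : ℕ) [Fact p.Prime]

/-- The additive character `a ↦ ζ ^ (j a)` of `ZMod p`. -/
noncomputable def s4504Psi (j : ZMod p) : AddChar (ZMod p) ℂ :=
  (AddChar.zmodChar p ((IsPrimitiveRoot.iff_def (d1zeta p) p).mp (d1zeta_prim p)).left).mulShift j

theorem s4504Psi_apply (j a : ZMod p) : s4504Psi p j a = d1zeta p ^ (j * a).val := by
  unfold s4504Psi
  rw [AddChar.mulShift_apply, AddChar.zmodChar_apply]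

theorem s4504Psi_prim (j : ZMod p) (hj : j ≠ 0) : (s4504Psi p j).IsPrimitive := by
  intro a ha
  unfold s4504Psi
  rw [AddChar.mulShift_mulShift]
  exact (AddChar.zmodChar_primitive_of_primitive_root p (d1zeta_prim p)) (mul_ne_zero hj ha)

theorem s4504Psi_ne_one (j : ZMod p) (hj : j ≠ 0) : s4504Psi p j ≠ 1 :=
  (AddChar.zmodChar_primitive_of_primitive_root p (d1zeta_prim p)) hj

/-- A sum over `ZMod p` splits into the value at `0` and the sum over the units. -/
theorem s4504_sum_units (f : ZMod p → ℂ) :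
    ∑ a : ZMod p, f a = f 0 + ∑ u : (ZMod p)ˣ, f (u : ZMod p) := by
  classical
  rw [← Finset.add_sum_erase Finset.univ f (Finset.mem_univ (0 : ZMod p))]
  congr 1
  symm
  refine Finset.sum_bij (fun u _ => ((u : (ZMod p)ˣ) : ZMod p)) ?_ ?_ ?_ ?_
  · intro u _
    rw [Finset.mem_erase]
    exact ⟨u.ne_zero, Finset.mem_univ _⟩
  · intro u _ w _ h
    exact Units.ext h
  · intro a ha
    rw [Finset.mem_erase] at ha
    exact ⟨Units.mk0 a ha.1, Finset.mem_univ _, rfl⟩
  · intro u _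
    rfl

/-- The sum of `ζ ^ (j u)` over the units is `-1`. -/
theorem s4504_sum_units_zeta (j : ZMod p) (hj : j ≠ 0) :
    ∑ u : (ZMod p)ˣ, d1zeta p ^ (j * (u : ZMod p)).val = -1 := by
  have h1 := AddChar.sum_eq_zero_of_ne_one (s4504Psi_ne_one p j hj)
  rw [s4504_sum_units p (fun a => s4504Psi p j a)] at h1
  simp only [s4504Psi_apply] at h1
  rw [mul_zero, ZMod.val_zero, pow_zero] at h1
  linear_combination h1

end periods

section main

open Classical in
/-- The Gaussian period `∑_{s ∈ F} ζ ^ (j s)`. -/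
noncomputable def s4504E (p : ℕ) [Fact p.Prime] (F : Subgroup (ZMod p)ˣ) (j : ZMod p) : ℂ :=
  ∑ s ∈ Finset.univ.filter (fun s : (ZMod p)ˣ => s ∈ F),
    d1zeta p ^ (j * ((s : (ZMod p)ˣ) : ZMod p)).val

variable {p : ℕ} [Fact p.Prime]

theorem s4504_shape_eq {H : Type u} [Group H] (x : H) (F : Subgroup (ZMod p)ˣ)
    (hF : (F : Set (ZMod p)ˣ) = normUnits p x) (b : ℕ) (l : ZMod p) :
    ∑ᶠ s ∈ normUnits p x, d1zeta p ^ ((b : ZMod p) * ((s : (ZMod p)ˣ) : ZMod p) * l).val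
      = s4504E p F ((b : ZMod p) * l) := by
  classical
  rw [← hF]
  have h1 : (F : Set (ZMod p)ˣ)
      = ((Finset.univ.filter (fun s : (ZMod p)ˣ => s ∈ F) : Finset (ZMod p)ˣ) : Set (ZMod p)ˣ) := by
    ext s; simp
  rw [h1, finsum_mem_coe_finset]
  unfold s4504E
  refine Finset.sum_congr rfl (fun s _ => ?_)
  congr 2
  ring

theorem s4504_index_two (F : Subgroup (ZMod p)ˣ) (d : ℕ) (hp : p = 2 * d + 1)
    (hFd : Nat.card F = d) : F.index = 2 := by
  have hpr : p.Prime := Fact.out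
  have h1 := Subgroup.index_mul_card F
  rw [hFd, Nat.card_eq_fintype_card, ZMod.card_units p] at h1
  have hd : 0 < d := by
    rcases Nat.eq_zero_or_pos d with h0 | h0
    · exfalso; rw [h0] at hp; rw [hp] at hpr; exact Nat.not_prime_one hpr
    · exact h0
  have h2 : p - 1 = 2 * d := by omega
  rw [h2] at h1
  exact Nat.eq_of_mul_eq_mul_right hd h1

theorem s4504_mem_iff_qc (F : Subgroup (ZMod p)ˣ) (hidx : F.index = 2) (v : (ZMod p)ˣ)
    (hv : v ∉ F) (u : (ZMod p)ˣ) :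
    u ∈ F ↔ quadraticChar (ZMod p) (u : ZMod p) = 1 := by
  have hsq : ∀ w : (ZMod p)ˣ, quadraticChar (ZMod p) (w : ZMod p) = 1 → w ∈ F := by
    intro w hw
    rw [quadraticChar_one_iff_isSquare w.ne_zero] at hw
    obtain ⟨r, hr⟩ := hw
    have hr0 : r ≠ 0 := by
      rintro rfl
      rw [mul_zero] at hr
      exact w.ne_zero hr
    have h1 : w = Units.mk0 r hr0 ^ 2 := by
      apply Units.ext
      rw [Units.val_pow_eq_pow_val, Units.val_mk0, hr, sq]
    rw [h1]
    exact Subgroup.sq_mem_of_index_two hidx _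
  constructor
  · intro hu
    by_contra hne
    have h1 : quadraticChar (ZMod p) (u : ZMod p) = -1 :=
      (quadraticChar_eq_neg_one_iff_not_one u.ne_zero).mpr hne
    have h2 : quadraticChar (ZMod p) (v : ZMod p) = -1 :=
      (quadraticChar_eq_neg_one_iff_not_one v.ne_zero).mpr (fun h => hv (hsq v h))
    have h3 : quadraticChar (ZMod p) ((u * v : (ZMod p)ˣ) : ZMod p) = 1 := by
      rw [Units.val_mul, map_mul, h1, h2]; norm_num
    have h4 := (Subgroup.mul_mem_iff_of_index_two hidx).mp (hsq _ h3)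
    exact hv (h4.mp hu)
  · exact hsq u

theorem s4504_E_mul (F : Subgroup (ZMod p)ˣ) (u : (ZMod p)ˣ) (hu : u ∈ F) (j : ZMod p) :
    s4504E p F ((u : ZMod p) * j) = s4504E p F j := by
  classical
  unfold s4504E
  refine Finset.sum_nbij' (fun s => u * s) (fun s => u⁻¹ * s) ?_ ?_ ?_ ?_ ?_
  · intro s hs
    rw [Finset.mem_filter] at hs ⊢
    exact ⟨Finset.mem_univ _, F.mul_mem hu hs.2⟩
  · intro s hs
    rw [Finset.mem_filter] at hs ⊢
    exact ⟨Finset.mem_univ _, F.mul_mem (F.inv_mem hu) hs.2⟩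
  · intro s _
    simp
  · intro s _
    simp
  · intro s _
    congr 2
    rw [Units.val_mul]
    ring

theorem s4504_E_sub (F : Subgroup (ZMod p)ˣ) (hidx : F.index = 2) (v : (ZMod p)ˣ)
    (hv : v ∉ F) (j : ZMod p) :
    s4504E p F j - s4504E p F ((v : ZMod p) * j)
      = gaussSum ((quadraticChar (ZMod p)).ringHomComp (Int.castRingHom ℂ)) (s4504Psi p j) := by
  classical
  unfold gaussSum
  rw [s4504_sum_units p (fun a => ((quadraticChar (ZMod p)).ringHomComp (Int.castRingHom ℂ)) a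
    * s4504Psi p j a)]
  have h0 : ((quadraticChar (ZMod p)).ringHomComp (Int.castRingHom ℂ)) (0 : ZMod p) = 0 := by
    rw [MulChar.ringHomComp_apply, MulChar.map_zero, map_zero]
  rw [h0, zero_mul, zero_add,
    ← Finset.sum_filter_add_sum_filter_not Finset.univ (fun s : (ZMod p)ˣ => s ∈ F)]
  have h1 : ∑ s ∈ Finset.univ.filter (fun s : (ZMod p)ˣ => s ∈ F),
      ((quadraticChar (ZMod p)).ringHomComp (Int.castRingHom ℂ)) (s : ZMod p)
        * s4504Psi p j (s : ZMod p) = s4504E p F j := by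
    unfold s4504E
    refine Finset.sum_congr rfl (fun s hs => ?_)
    rw [Finset.mem_filter] at hs
    rw [MulChar.ringHomComp_apply, (s4504_mem_iff_qc F hidx v hv s).mp hs.2, s4504Psi_apply]
    simp
  have h2 : ∑ s ∈ Finset.univ.filter (fun s : (ZMod p)ˣ => ¬ s ∈ F),
      ((quadraticChar (ZMod p)).ringHomComp (Int.castRingHom ℂ)) (s : ZMod p)
        * s4504Psi p j (s : ZMod p) = - s4504E p F ((v : ZMod p) * j) := by
    unfold s4504E
    rw [← Finset.sum_neg_distrib]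
    symm
    refine Finset.sum_nbij' (fun s => v * s) (fun s => v⁻¹ * s) ?_ ?_ ?_ ?_ ?_
    · intro s hs
      rw [Finset.mem_filter] at hs ⊢
      refine ⟨Finset.mem_univ _, fun hmem => ?_⟩
      have h4 := (Subgroup.mul_mem_iff_of_index_two hidx).mp hmem
      exact hv (h4.mpr hs.2)
    · intro s hs
      rw [Finset.mem_filter] at hs ⊢
      refine ⟨Finset.mem_univ _, ?_⟩
      by_contra hmem
      apply hs.2
      have h4 : v * (v⁻¹ * s) ∈ F ↔ (v ∈ F ↔ v⁻¹ * s ∈ F) :=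
        Subgroup.mul_mem_iff_of_index_two hidx
      rw [mul_inv_cancel_left] at h4
      exact h4.mpr ⟨fun h => absurd h hv, fun h => absurd h hmem⟩
    · intro s _
      simp
    · intro s _
      simp
    · intro s hs
      rw [Finset.mem_filter] at hs
      have hvs : v * s ∉ F := by
        intro hmem
        have h4 := (Subgroup.mul_mem_iff_of_index_two hidx).mp hmem
        exact hv (h4.mpr hs.2)
      have hqc : quadraticChar (ZMod p) ((v * s : (ZMod p)ˣ) : ZMod p) = -1 :=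
        (quadraticChar_eq_neg_one_iff_not_one (v * s).ne_zero).mpr
          (fun h => hvs ((s4504_mem_iff_qc F hidx v hv (v * s)).mpr h))
      rw [MulChar.ringHomComp_apply, hqc, s4504Psi_apply]
      have h5 : (v : ZMod p) * j * (s : ZMod p) = j * ((v * s : (ZMod p)ˣ) : ZMod p) := by
        rw [Units.val_mul]; ring
      rw [h5]
      simp
  rw [h1, h2]
  ring

theorem s4504_E_sq (F : Subgroup (ZMod p)ˣ) (d : ℕ) (hp : p = 2 * d + 1)
    (hidx : F.index = 2) (v : (ZMod p)ˣ) (hv : v ∉ F) (j : ZMod p) (hj : j ≠ 0) :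
    (s4504E p F j - s4504E p F ((v : ZMod p) * j)) ^ 2 = (-1) ^ d * (p : ℂ) := by
  classical
  have hpr : p.Prime := Fact.out
  have hch : ringChar (ZMod p) ≠ 2 := by
    rw [ZMod.ringChar_zmod_n]; omega
  rw [s4504_E_sub F hidx v hv j,
    gaussSum_sq ((MulChar.ringHomComp_ne_one_iff (RingHom.injective_int _)).mpr
      (quadraticChar_ne_one hch)) ((quadraticChar_isQuadratic (ZMod p)).comp _)
      (s4504Psi_prim p j hj)]
  rw [MulChar.ringHomComp_apply, quadraticChar_neg_one hch, ZMod.card p,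
    ZMod.χ₄_eq_neg_one_pow (by omega)]
  have h2 : p / 2 = d := by omega
  rw [h2]
  simp

theorem s4504_E_add (F : Subgroup (ZMod p)ˣ) (hidx : F.index = 2) (v : (ZMod p)ˣ)
    (hv : v ∉ F) (j : ZMod p) (hj : j ≠ 0) :
    s4504E p F j + s4504E p F ((v : ZMod p) * j) = -1 := by
  classical
  rw [← s4504_sum_units_zeta p j hj,
    ← Finset.sum_filter_add_sum_filter_not Finset.univ (fun s : (ZMod p)ˣ => s ∈ F)]
  congr 1
  unfold s4504E
  refine Finset.sum_nbij' (fun s => v * s) (fun s => v⁻¹ * s) ?_ ?_ ?_ ?_ ?_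
  · intro s hs
    rw [Finset.mem_filter] at hs ⊢
    refine ⟨Finset.mem_univ _, fun hmem => ?_⟩
    have h4 := (Subgroup.mul_mem_iff_of_index_two hidx).mp hmem
    exact hv (h4.mpr hs.2)
  · intro s hs
    rw [Finset.mem_filter] at hs ⊢
    refine ⟨Finset.mem_univ _, ?_⟩
    by_contra hmem
    apply hs.2
    have h4 : v * (v⁻¹ * s) ∈ F ↔ (v ∈ F ↔ v⁻¹ * s ∈ F) :=
      Subgroup.mul_mem_iff_of_index_two hidx
    rw [mul_inv_cancel_left] at h4
    exact h4.mpr ⟨fun h => absurd h hv, fun h => absurd h hmem⟩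
  · intro s _
    simp
  · intro s _
    simp
  · intro s _
    congr 2
    rw [Units.val_mul]
    ring

/-- The Gaussian periods: the fields `hconj`, `hsum`, `hdiff`, `hhalf`, `hswap`, `hkeep`
of `Helper8.S4504Tab` from the shapes of `χ` and `χ₂`. -/
theorem s4504_periods {H : Type u} [Group H] (x : H) (hx : orderOf x = p) (d : ℕ)
    (hp : p = 2 * d + 1) (F : Subgroup (ZMod p)ˣ) (hF : (F : Set (ZMod p)ˣ) = normUnits p x)
    (hFd : Nat.card F = d) (l₀ : ZMod p) (hl₀ : l₀ ≠ 0) (v : (ZMod p)ˣ) (hv : v ∉ F)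
    (χ χ₂ : H → ℂ) (h1 : B42Shape p x χ 1 l₀) (h2 : B42Shape p x χ₂ 1 ((v : ZMod p) * l₀))
    [DecidablePred (fun b : ℕ => b ≠ 0 ∧ χ (x ^ b) = χ x)] :
    (∀ b : ℕ, ¬ p ∣ b → (χ (x ^ b) = χ x ↔ ∃ n : H, n * x * n⁻¹ = x ^ b)) ∧
    (∀ b : ℕ, ¬ p ∣ b → χ (x ^ b) + χ₂ (x ^ b) = -1) ∧
    (∀ b : ℕ, ¬ p ∣ b → (χ (x ^ b) - χ₂ (x ^ b)) ^ 2 = (-1) ^ d * (p : ℂ)) ∧
    ((Finset.range p).filter (fun b => b ≠ 0 ∧ χ (x ^ b) = χ x)).card = d ∧
    (∀ b : ℕ, ¬ p ∣ b → χ (x ^ b) ≠ χ x → χ (x ^ b) = χ₂ x ∧ χ₂ (x ^ b) = χ x) ∧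
    (∀ b : ℕ, ¬ p ∣ b → χ (x ^ b) = χ x → χ₂ (x ^ b) = χ₂ x) := by
  classical
  have hpr : p.Prime := Fact.out
  have hidx : F.index = 2 := s4504_index_two F d hp hFd
  -- the values in terms of the periods
  have hv1 : ∀ b : ℕ, χ (x ^ b) = s4504E p F ((b : ZMod p) * l₀) := by
    intro b
    rw [h1 b, Nat.cast_one, one_mul, s4504_shape_eq x F hF b l₀]
  have hv2 : ∀ b : ℕ, χ₂ (x ^ b) = s4504E p F ((v : ZMod p) * ((b : ZMod p) * l₀)) := by
    intro b
    rw [h2 b, Nat.cast_one, one_mul, s4504_shape_eq x F hF b ((v : ZMod p) * l₀)]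
    congr 1
    ring
  have hx1 : χ x = s4504E p F l₀ := by
    have h := hv1 1
    rwa [pow_one, Nat.cast_one, one_mul] at h
  have hx2 : χ₂ x = s4504E p F ((v : ZMod p) * l₀) := by
    have h := hv2 1
    rwa [pow_one, Nat.cast_one, one_mul] at h
  have hne : s4504E p F l₀ ≠ s4504E p F ((v : ZMod p) * l₀) := by
    intro heq
    have h3 := s4504_E_sq F d hp hidx v hv l₀ hl₀
    rw [heq, sub_self] at h3
    have h4 : ((-1 : ℂ) ^ d * (p : ℂ)) ≠ 0 :=
      mul_ne_zero (pow_ne_zero _ (by norm_num)) (by exact_mod_cast hpr.ne_zero)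
    exact h4 (by rw [← h3]; ring)
  have hb0 : ∀ b : ℕ, ¬ p ∣ b → ((b : ℕ) : ZMod p) ≠ 0 := by
    intro b hb h0
    exact hb ((ZMod.natCast_eq_zero_iff b p).mp h0)
  -- the two cases
  have hin : ∀ b : ℕ, ∀ hb : ¬ p ∣ b, Units.mk0 ((b : ℕ) : ZMod p) (hb0 b hb) ∈ F →
      χ (x ^ b) = χ x ∧ χ₂ (x ^ b) = χ₂ x := by
    intro b hb hmem
    have h3 := s4504_E_mul F _ hmem
    rw [Units.val_mk0] at h3
    refine ⟨?_, ?_⟩
    · rw [hv1 b, hx1, h3 l₀]
    · rw [hv2 b, hx2]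
      have h4 : (v : ZMod p) * ((b : ZMod p) * l₀) = (b : ZMod p) * ((v : ZMod p) * l₀) := by ring
      rw [h4, h3]
  have hout : ∀ b : ℕ, ∀ hb : ¬ p ∣ b, Units.mk0 ((b : ℕ) : ZMod p) (hb0 b hb) ∉ F →
      χ (x ^ b) = χ₂ x ∧ χ₂ (x ^ b) = χ x := by
    intro b hb hmem
    set u := Units.mk0 ((b : ℕ) : ZMod p) (hb0 b hb) with hu
    have hvu : v * u ∈ F :=
      (Subgroup.mul_mem_iff_of_index_two hidx).mpr ⟨fun h => absurd h hv, fun h => absurd h hmem⟩
    have hvu' : v⁻¹ * u ∈ F := by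
      have h5 : v⁻¹ * u = (v⁻¹) ^ 2 * (v * u) := by
        rw [sq, mul_assoc, inv_mul_cancel_left]
      rw [h5]
      exact F.mul_mem (Subgroup.sq_mem_of_index_two hidx _) hvu
    have hub : (u : ZMod p) = (b : ZMod p) := Units.val_mk0 _
    refine ⟨?_, ?_⟩
    · rw [hv1 b, hx2]
      have h3 := s4504_E_mul F _ hvu' ((v : ZMod p) * l₀)
      rw [← h3]
      congr 1
      rw [Units.val_mul, hub]
      have h7 : ((v⁻¹ : (ZMod p)ˣ) : ZMod p) * (v : ZMod p) = 1 := Units.inv_mul v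
      linear_combination (-(b : ZMod p) * l₀) * h7
    · rw [hv2 b, hx1]
      have h3 := s4504_E_mul F _ hvu l₀
      rw [← h3]
      congr 1
      rw [Units.val_mul, hub]
      ring
  have hiff : ∀ b : ℕ, ∀ hb : ¬ p ∣ b,
      (χ (x ^ b) = χ x ↔ Units.mk0 ((b : ℕ) : ZMod p) (hb0 b hb) ∈ F) := by
    intro b hb
    constructor
    · intro heq
      by_contra hmem
      rw [(hout b hb hmem).1, hx1, hx2] at heq
      exact hne heq.symm
    · intro hmem
      exact (hin b hb hmem).1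
  refine ⟨?_, ?_, ?_, ?_, ?_, ?_⟩
  · intro b hb
    rw [hiff b hb]
    have h3 : Units.mk0 ((b : ℕ) : ZMod p) (hb0 b hb) ∈ F
        ↔ Units.mk0 ((b : ℕ) : ZMod p) (hb0 b hb) ∈ normUnits p x := by
      rw [← hF]; rfl
    rw [h3]
    have h4 : x ^ (((Units.mk0 ((b : ℕ) : ZMod p) (hb0 b hb) : (ZMod p)ˣ) : ZMod p)).val
        = x ^ b := by
      rw [Units.val_mk0, ZMod.val_natCast, ← hx, pow_mod_orderOf]
    constructor
    · rintro ⟨n, hn⟩
      exact ⟨n, by rw [hn, h4]⟩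
    · rintro ⟨n, hn⟩
      exact ⟨n, by rw [hn, h4]⟩
  · intro b hb
    rw [hv1 b, hv2 b]
    exact s4504_E_add F hidx v hv _ (mul_ne_zero (hb0 b hb) hl₀)
  · intro b hb
    rw [hv1 b, hv2 b]
    exact s4504_E_sq F d hp hidx v hv _ (mul_ne_zero (hb0 b hb) hl₀)
  · rw [← hFd, Nat.card_eq_fintype_card, ← Finset.card_univ]
    symm
    refine Finset.card_bij (fun (u : F) _ => (((u : (ZMod p)ˣ) : ZMod p)).val) ?_ ?_ ?_
    · intro u _
      have hu0 : (((u : (ZMod p)ˣ) : ZMod p)).val ≠ 0 := by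
        intro h0
        exact (u : (ZMod p)ˣ).ne_zero ((ZMod.val_eq_zero _).mp h0)
      have hlt : (((u : (ZMod p)ˣ) : ZMod p)).val < p := ZMod.val_lt _
      have hnd : ¬ p ∣ (((u : (ZMod p)ˣ) : ZMod p)).val := by
        intro hd
        have := Nat.le_of_dvd (Nat.pos_of_ne_zero hu0) hd
        omega
      rw [Finset.mem_filter, Finset.mem_range]
      refine ⟨hlt, hu0, ?_⟩
      rw [hiff _ hnd]
      have h5 : Units.mk0 (((((u : (ZMod p)ˣ) : ZMod p)).val : ℕ) : ZMod p) (hb0 _ hnd)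
          = (u : (ZMod p)ˣ) := by
        apply Units.ext
        rw [Units.val_mk0, ZMod.natCast_zmod_val]
      rw [h5]
      exact u.2
    · intro u _ w _ huw
      apply Subtype.ext
      apply Units.ext
      exact ZMod.val_injective p huw
    · intro b hb
      rw [Finset.mem_filter, Finset.mem_range] at hb
      obtain ⟨hlt, hb0', hbx⟩ := hb
      have hnd : ¬ p ∣ b := by
        intro hd
        have := Nat.le_of_dvd (Nat.pos_of_ne_zero hb0') hd
        omega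
      refine ⟨⟨Units.mk0 ((b : ℕ) : ZMod p) (hb0 b hnd), (hiff b hnd).mp hbx⟩,
        Finset.mem_univ _, ?_⟩
      show ((Units.mk0 ((b : ℕ) : ZMod p) (hb0 b hnd) : (ZMod p)ˣ) : ZMod p).val = b
      rw [Units.val_mk0, ZMod.val_natCast, Nat.mod_eq_of_lt hlt]
  · intro b hb hbne
    have hmem : Units.mk0 ((b : ℕ) : ZMod p) (hb0 b hb) ∉ F :=
      fun hmem => hbne ((hiff b hb).mpr hmem)
    exact hout b hb hmem
  · intro b hb hbeq
    exact (hin b hb ((hiff b hb).mp hbeq)).2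

end main

end Cfsg.Agent.Helper77
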