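import Mathlib
import Cfsg.Agent.Helper15.B42Defs
import Cfsg.Agent.Helper77.S4504PER
import Cfsg.Agent.Helper88.B42SHAPE

/-!
# S4504, sub-CALL S4504S (helper15): piece PVA (`s4504s_conj`) (helper77)

A character of shape `(1, l₀)` detects conjugacy inside `⟨x⟩` (any `F`): linear independence
of the nontrivial `p`-th roots of unity (`Helper88.coeff_const88`).
-/

universe u
set_option autoImplicit false
open Cfsg Cfsg.Agent.Helper77 Cfsg.Agent.Helper15
open scoped ComplexConjugate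

namespace Cfsg.Agent.Helper77

/-- Equal periods: the unit lies in `F`. -/
theorem s4504_E_inj {p : ℕ} [Fact p.Prime] (F : Subgroup (ZMod p)ˣ) (u : (ZMod p)ˣ)
    (j : ZMod p) (hj : j ≠ 0) (h : s4504E p F ((u : ZMod p) * j) = s4504E p F j) : u ∈ F := by
  classical
  set Fs : Finset (ZMod p)ˣ := Finset.univ.filter (fun s : (ZMod p)ˣ => s ∈ F) with hFs
  set A : Finset (ZMod p) := Fs.image (fun s : (ZMod p)ˣ => (u : ZMod p) * j * (s : ZMod p))
    with hA
  set B : Finset (ZMod p) := Fs.image (fun s : (ZMod p)ˣ => j * (s : ZMod p)) with hB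
  have huj : (u : ZMod p) * j ≠ 0 := mul_ne_zero u.ne_zero hj
  have hsA : ∑ a ∈ A, d1zeta p ^ a.val = s4504E p F ((u : ZMod p) * j) := by
    rw [hA, Finset.sum_image]
    · rfl
    · intro s _ t _ hst
      exact Units.ext (mul_left_cancel₀ huj hst)
  have hsB : ∑ a ∈ B, d1zeta p ^ a.val = s4504E p F j := by
    rw [hB, Finset.sum_image]
    · rfl
    · intro s _ t _ hst
      exact Units.ext (mul_left_cancel₀ hj hst)
  obtain ⟨c, hc⟩ : ∃ c : ZMod p → ℤ,
      c = fun a => (if a ∈ A then 1 else 0) - (if a ∈ B then 1 else 0) := ⟨_, rfl⟩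
  have hsum : ∑ a : ZMod p, (c a : ℂ) * d1zeta p ^ a.val = 0 := by
    have h1 : ∀ a : ZMod p, (c a : ℂ) * d1zeta p ^ a.val
        = (if a ∈ A then d1zeta p ^ a.val else 0) - (if a ∈ B then d1zeta p ^ a.val else 0) := by
      intro a
      rw [hc]
      by_cases h1 : a ∈ A <;> by_cases h2 : a ∈ B <;> simp [h1, h2]
    rw [Finset.sum_congr rfl (fun a _ => h1 a), Finset.sum_sub_distrib,
      Finset.sum_ite_mem, Finset.sum_ite_mem, Finset.univ_inter, Finset.univ_inter, hsA, hsB, h,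
      sub_self]
  have hconst := Helper88.coeff_const88 p (d1zeta p) (d1zeta_prim p) c hsum
  have h0A : (0 : ZMod p) ∉ A := by
    intro h0
    rw [hA, Finset.mem_image] at h0
    obtain ⟨s, -, hs⟩ := h0
    exact (mul_ne_zero huj s.ne_zero) hs
  have h0B : (0 : ZMod p) ∉ B := by
    intro h0
    rw [hB, Finset.mem_image] at h0
    obtain ⟨s, -, hs⟩ := h0
    exact (mul_ne_zero hj s.ne_zero) hs
  have hc0 : c 0 = 0 := by
    rw [hc]; simp [h0A, h0B]
  have hjB : j ∈ B := by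
    rw [hB, Finset.mem_image]
    refine ⟨1, ?_, ?_⟩
    · rw [hFs, Finset.mem_filter]
      exact ⟨Finset.mem_univ _, F.one_mem⟩
    · rw [Units.val_one, mul_one]
  have hjA : j ∈ A := by
    by_contra hjA
    have h2 := hconst j
    rw [hc0, hc] at h2
    simp [hjA, hjB] at h2
  rw [hA, Finset.mem_image] at hjA
  obtain ⟨s, hs, hsj⟩ := hjA
  rw [hFs, Finset.mem_filter] at hs
  have h3 : (u : ZMod p) * (s : ZMod p) = 1 := by
    have h4 : j * ((u : ZMod p) * (s : ZMod p)) = j * 1 := by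
      rw [mul_one]
      linear_combination hsj
    exact mul_left_cancel₀ hj h4
  have h5 : u = s⁻¹ := by
    rw [eq_inv_iff_mul_eq_one]
    exact Units.ext (by rw [Units.val_mul, h3, Units.val_one])
  rw [h5]
  exact F.inv_mem hs.2

variable {G : Type u} [Group G] [Finite G]

/-- PVA: `χ` of shape `(1, l₀)` detects conjugacy inside `⟨x⟩`. -/
theorem s4504s_conj (p : ℕ) [Fact p.Prime] (x : G) (hx : orderOf x = p)
    (F : Subgroup (ZMod p)ˣ) (hF : (F : Set (ZMod p)ˣ) = normUnits p x)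
    (χ : G → ℂ) (l₀ : ZMod p) (hl₀ : l₀ ≠ 0) (h1 : B42Shape p x χ 1 l₀) :
    (∀ b : ℕ, ¬ p ∣ b → (χ (x ^ b) = χ x ↔ ∃ n : G, n * x * n⁻¹ = x ^ b)) ∧
    ((Finset.range p).filter (fun b => b ≠ 0 ∧ χ (x ^ b) = χ x)).card = Nat.card F := by
  classical
  have hpr : p.Prime := Fact.out
  have hv1 : ∀ b : ℕ, χ (x ^ b) = s4504E p F ((b : ZMod p) * l₀) := by
    intro b
    rw [h1 b, Nat.cast_one, one_mul, s4504_shape_eq x F hF b l₀]
  have hx1 : χ x = s4504E p F l₀ := by
    have h := hv1 1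
    rwa [pow_one, Nat.cast_one, one_mul] at h
  have hb0 : ∀ b : ℕ, ¬ p ∣ b → ((b : ℕ) : ZMod p) ≠ 0 := by
    intro b hb h0
    exact hb ((ZMod.natCast_eq_zero_iff b p).mp h0)
  have hiff : ∀ b : ℕ, ∀ hb : ¬ p ∣ b,
      (χ (x ^ b) = χ x ↔ Units.mk0 ((b : ℕ) : ZMod p) (hb0 b hb) ∈ F) := by
    intro b hb
    rw [hv1 b, hx1]
    constructor
    · intro heq
      refine s4504_E_inj F _ l₀ hl₀ ?_
      rw [Units.val_mk0]
      exact heq
    · intro hmem
      have h3 := s4504_E_mul F _ hmem l₀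
      rw [Units.val_mk0] at h3
      exact h3
  refine ⟨?_, ?_⟩
  · intro b hb
    rw [hiff b hb]
    have h3 : Units.mk0 ((b : ℕ) : ZMod p) (hb0 b hb) ∈ F
        ↔ Units.mk0 ((b : ℕ) : ZMod p) (hb0 b hb) ∈ normUnits p x := by
      rw [← hF]; rfl
    rw [h3]
    have h4 : x ^ (((Units.mk0 ((b : ℕ) : ZMod p) (hb0 b hb) : (ZMod p)ˣ) : ZMod p)).val
        = x ^ b := by
      rw [Units.val_mk0, ZMod.val_natCast, ← hx, pow_mod_orderOf]
    constructor
    · rintro ⟨n, hn⟩
      exact ⟨n, by rw [hn, h4]⟩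
    · rintro ⟨n, hn⟩
      exact ⟨n, by rw [hn, h4]⟩
  · rw [Nat.card_eq_fintype_card, ← Finset.card_univ]
    symm
    refine Finset.card_bij (fun (u : F) _ => (((u : (ZMod p)ˣ) : ZMod p)).val) ?_ ?_ ?_
    · intro u _
      have hu0 : (((u : (ZMod p)ˣ) : ZMod p)).val ≠ 0 := by
        intro h0
        exact (u : (ZMod p)ˣ).ne_zero ((ZMod.val_eq_zero _).mp h0)
      have hlt : (((u : (ZMod p)ˣ) : ZMod p)).val < p := ZMod.val_lt _
      have hnd : ¬ p ∣ (((u : (ZMod p)ˣ) : ZMod p)).val := by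
        intro hd
        have := Nat.le_of_dvd (Nat.pos_of_ne_zero hu0) hd
        omega
      rw [Finset.mem_filter, Finset.mem_range]
      refine ⟨hlt, hu0, ?_⟩
      rw [hiff _ hnd]
      have h5 : Units.mk0 (((((u : (ZMod p)ˣ) : ZMod p)).val : ℕ) : ZMod p) (hb0 _ hnd)
          = (u : (ZMod p)ˣ) := by
        apply Units.ext
        rw [Units.val_mk0, ZMod.natCast_zmod_val]
      rw [h5]
      exact u.2
    · intro u _ w _ huw
      apply Subtype.ext
      apply Units.ext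
      exact ZMod.val_injective p huw
    · intro b hb
      rw [Finset.mem_filter, Finset.mem_range] at hb
      obtain ⟨hlt, hb0', hbx⟩ := hb
      have hnd : ¬ p ∣ b := by
        intro hd
        have := Nat.le_of_dvd (Nat.pos_of_ne_zero hb0') hd
        omega
      refine ⟨⟨Units.mk0 ((b : ℕ) : ZMod p) (hb0 b hnd), (hiff b hnd).mp hbx⟩,
        Finset.mem_univ _, ?_⟩
      show ((Units.mk0 ((b : ℕ) : ZMod p) (hb0 b hnd) : (ZMod p)ˣ) : ZMod p).val = b
      rw [Units.val_mk0, ZMod.val_natCast, Nat.mod_eq_of_lt hlt]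

end Cfsg.Agent.Helper77
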