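import Mathlib
import Cfsg.Agent.Helper15.B42Defs
import Cfsg.Agent.Helper77.S4504PER

/-!
# S4504, sub-CALL S4504S (helper15): pieces PVB (`s4504s_swap`) and PVD (`s4504s_diff`)
(helper77), corollaries of `s4504_periods`.
-/

universe u
set_option autoImplicit false
open Cfsg Cfsg.Agent.Helper77 Cfsg.Agent.Helper15
open scoped ComplexConjugate

namespace Cfsg.Agent.Helper77

variable {G : Type u} [Group G] [Finite G]

/-- PVB: the two periods. -/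
theorem s4504s_swap (p : ℕ) [Fact p.Prime] (x : G) (hx : orderOf x = p)
    (F : Subgroup (ZMod p)ˣ) (hF : (F : Set (ZMod p)ˣ) = normUnits p x)
    (hcard : 2 * Nat.card F + 1 = p) (v : (ZMod p)ˣ) (hv : v ∉ F)
    (χ χ₂ : G → ℂ) (l₀ : ZMod p) (hl₀ : l₀ ≠ 0) (h1 : B42Shape p x χ 1 l₀)
    (h2 : B42Shape p x χ₂ 1 ((v : ZMod p) * l₀)) :
    (∀ b : ℕ, ¬ p ∣ b → χ (x ^ b) + χ₂ (x ^ b) = -1) ∧
    (∀ b : ℕ, ¬ p ∣ b → χ (x ^ b) ≠ χ x → χ (x ^ b) = χ₂ x ∧ χ₂ (x ^ b) = χ x) ∧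
    (∀ b : ℕ, ¬ p ∣ b → χ (x ^ b) = χ x → χ₂ (x ^ b) = χ₂ x) ∧
    χ (x ^ (v : ZMod p).val) = χ₂ x := by
  classical
  obtain ⟨hconj, hsum, -, -, hswap, hkeep⟩ :=
    s4504_periods x hx (Nat.card F) hcard.symm F hF rfl l₀ hl₀ v hv χ χ₂ h1 h2
  refine ⟨hsum, hswap, hkeep, ?_⟩
  have hvnd : ¬ p ∣ (v : ZMod p).val := by
    intro hd
    have h0 : (v : ZMod p).val ≠ 0 := fun h0 => v.ne_zero ((ZMod.val_eq_zero _).mp h0)
    have h3 := Nat.le_of_dvd (Nat.pos_of_ne_zero h0) hd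
    have h4 := ZMod.val_lt (v : ZMod p)
    omega
  refine (hswap _ hvnd ?_).1
  intro heq
  obtain ⟨n, hn⟩ := (hconj _ hvnd).mp heq
  apply hv
  have h5 : v ∈ normUnits p x := ⟨n, hn⟩
  rw [← hF] at h5
  exact h5

/-- PVD: the square of the difference of the two periods (Gauss). -/
theorem s4504s_diff (p : ℕ) [Fact p.Prime] (x : G) (hx : orderOf x = p)
    (F : Subgroup (ZMod p)ˣ) (hF : (F : Set (ZMod p)ˣ) = normUnits p x)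
    (hcard : 2 * Nat.card F + 1 = p) (v : (ZMod p)ˣ) (hv : v ∉ F)
    (χ χ₂ : G → ℂ) (l₀ : ZMod p) (hl₀ : l₀ ≠ 0) (h1 : B42Shape p x χ 1 l₀)
    (h2 : B42Shape p x χ₂ 1 ((v : ZMod p) * l₀)) :
    ∀ b : ℕ, ¬ p ∣ b → (χ (x ^ b) - χ₂ (x ^ b)) ^ 2 = (-1) ^ Nat.card F * (p : ℂ) := by
  classical
  exact (s4504_periods x hx (Nat.card F) hcard.symm F hF rfl l₀ hl₀ v hv χ χ₂ h1 h2).2.2.1

end Cfsg.Agent.Helper77
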