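import Cfsg.Agent.Helper77.GaloisNonneg
import Cfsg.Agent.Helper82.SubsectionFormula
import Cfsg.Agent.Helper82.DefectOne
import Cfsg.Agent.Helper73.BrauerFeit
import Cfsg.Agent.Helper75.DefClass

/-!
# Counting the subsections of a block against a character of height zero

For a block `B` of defect `d`, a character `χ₀ ∈ B` of height zero with
`n₀ = p^d |G|⁻¹ Σ_{g p-regular} |χ₀(g)|²`, a set `X` of representatives of the classes of
`p`-elements containing `1`, and the set `S` of the subsections `(x, b)`, `x ∈ X ∖ {1}`, `b` a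
block of `C_G(x)` inducing `B`:

* `card_block_le`: `k(B) ≤ p^d n₀`;
* `rank_add_card_le_card_block`: `l(B) + |S| ≤ k(B)`;
* `card_subsections_le`: `|S| ≤ p^d - n₀`.
-/

set_option autoImplicit false
open Cfsg
open scoped ComplexConjugate

namespace Cfsg.Agent.Helper77

universe u

variable {G : Type u} [Group G] [Fintype G]

/-- The blocks of `C_G(x)` inducing `B`, as a finite set. -/
noncomputable def indBlocks (M : Ideal Cfsg.AlgInt) (B : Set (Cfsg.IrrCharacter G)) (x : G) :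
    Finset (Set (Cfsg.IrrCharacter ↥(Subgroup.centralizer ({x} : Set G)))) :=
  (Set.toFinite {b : Set (Cfsg.IrrCharacter ↥(Subgroup.centralizer ({x} : Set G))) |
    Cfsg.IsInducedBlock M (Subgroup.centralizer ({x} : Set G)) b B}).toFinset

theorem mem_indBlocks {M : Ideal Cfsg.AlgInt} {B : Set (Cfsg.IrrCharacter G)} {x : G}
    {b : Set (Cfsg.IrrCharacter ↥(Subgroup.centralizer ({x} : Set G)))} :
    b ∈ indBlocks M B x ↔ Cfsg.IsInducedBlock M (Subgroup.centralizer ({x} : Set G)) b B := by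
  unfold indBlocks
  rw [Set.Finite.mem_toFinset]
  exact Iff.rfl

/-- `k(B) ≤ p^d n₀`. -/
theorem card_block_le {p : ℕ} {B : Set (Cfsg.IrrCharacter G)} {χ₀ : Cfsg.IrrCharacter G}
    (m : Cfsg.IrrCharacter G → ℤ)
    (hm : ∀ ψ : Cfsg.IrrCharacter G, Cfsg.classInner
        (Helper73.pregScal p ((p ^ Cfsg.blockDefect p B : ℕ) : ℂ) (χ₀ : G → ℂ)) (ψ : G → ℂ)
          = (m ψ : ℂ))
    (hmB : ∀ ψ : Cfsg.IrrCharacter G, ψ ∈ B → m ψ ≠ 0) :
    (Nat.card B : ℤ) ≤ (p ^ Cfsg.blockDefect p B : ℕ) * m χ₀ := by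
  classical
  have := Fintype.ofFinite (Cfsg.IrrCharacter G)
  have h1 := Helper73.sum_sq_classInner_pregScal p (p ^ Cfsg.blockDefect p B) χ₀ m hm
  rw [← h1]
  have h2 : Nat.card B = (Finset.univ.filter (fun ζ : Cfsg.IrrCharacter G => ζ ∈ B)).card := by
    rw [← Fintype.card_subtype]
    exact Nat.card_eq_fintype_card
  rw [h2, Finset.card_eq_sum_ones, Nat.cast_sum, Finset.sum_filter]
  refine Finset.sum_le_sum fun ψ _ => ?_
  split_ifs with hψ
  · have h3 := hmB ψ hψ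
    have h4 : 0 < (m ψ) ^ 2 := by positivity
    push_cast
    linarith
  · positivity

/-- Sums over the centralizer of the identity. -/
theorem finsum_centralizer_one (f : G → ℂ) :
    ∑ᶠ y : ↥(Subgroup.centralizer ({1} : Set G)), f (y : G) = ∑ g : G, f g := by
  classical
  have hmem : ∀ g : G, g ∈ Subgroup.centralizer ({1} : Set G) := by
    intro g
    rw [Subgroup.mem_centralizer_iff]
    intro s hs
    rw [Set.mem_singleton_iff] at hs
    subst hs
    rw [mul_one, one_mul]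
  have := Fintype.ofFinite ↥(Subgroup.centralizer ({1} : Set G))
  rw [finsum_eq_sum_of_fintype]
  exact Fintype.sum_equiv (⟨fun y => (y : G), fun g => ⟨g, hmem g⟩, fun _ => rfl, fun _ => rfl⟩ :
    ↥(Subgroup.centralizer ({1} : Set G)) ≃ G) _ _ (fun _ => rfl)

theorem card_centralizer_one : Nat.card ↥(Subgroup.centralizer ({1} : Set G)) = Nat.card G := by
  have hmem : ∀ g : G, g ∈ Subgroup.centralizer ({1} : Set G) := by
    intro g
    rw [Subgroup.mem_centralizer_iff]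
    intro s hs
    rw [Set.mem_singleton_iff] at hs
    subst hs
    rw [mul_one, one_mul]
  exact Nat.card_congr (⟨fun y => (y : G), fun g => ⟨g, hmem g⟩, fun _ => rfl, fun _ => rfl⟩ :
    ↥(Subgroup.centralizer ({1} : Set G)) ≃ G)

/-- `l(B) + |S| ≤ k(B)`. -/
theorem rank_add_card_le_card_block [DecidableEq G] {p : ℕ} [Fact p.Prime] {M : Ideal Cfsg.AlgInt}
    (hM : Cfsg.IsPModular p M) {B : Set (Cfsg.IrrCharacter G)} (hB : Cfsg.IsPBlock M B)
    (X : Finset G) (hX : ∀ x ∈ X, ∃ k : ℕ, orderOf x = p ^ k)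
    (hXrep : ∀ g : G, (∃ k : ℕ, orderOf g = p ^ k) → ∃! x, x ∈ X ∧ IsConj g x)
    (h1 : (1 : G) ∈ X) :
    Cfsg.blockRank p B + ∑ x ∈ X.erase 1, (indBlocks M B x).card ≤ Nat.card B := by
  classical
  have hp : p.Prime := Fact.out
  have := Fintype.ofFinite (Cfsg.IrrCharacter G)
  rw [Helper82.card_block_eq_sum_ranks p M hM B hB X hX hXrep, ← Finset.add_sum_erase X _ h1]
  refine add_le_add (le_of_eq ?_) (Finset.sum_le_sum fun x hx => ?_)
  · -- the term of `x = 1`
    apply Nat.cast_injective (R := ℂ)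
    have hcard : (Nat.card G : ℂ) ≠ 0 := by
      have : 0 < Nat.card G := Nat.card_pos
      exact_mod_cast this.ne'
    rw [Helper82.section_rank hM 1 ⟨0, by simp⟩ hB, card_centralizer_one]
    have h3 : ∀ y : ↥(Subgroup.centralizer ({1} : Set G)),
        (if ¬ p ∣ orderOf y then (∑ᶠ ζ ∈ B, (ζ : G → ℂ) (1 * (y : G))
          * conj ((ζ : G → ℂ) (1 * (y : G)))) else 0)
        = (fun g : G => if ¬ p ∣ orderOf g then (∑ᶠ ζ ∈ B, (ζ : G → ℂ) (1 * g)
          * conj ((ζ : G → ℂ) (1 * g))) else 0) (y : G) := by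
      intro y
      simp only [Subgroup.orderOf_coe]
    rw [finsum_congr h3, finsum_centralizer_one (fun g : G => if ¬ p ∣ orderOf g then
      (∑ᶠ ζ ∈ B, (ζ : G → ℂ) (1 * g) * conj ((ζ : G → ℂ) (1 * g))) else 0)]
    have h4 := card_mul_blockRank (p := p) hM hB
    have h5 : (Cfsg.blockRank p B : ℂ) = (Nat.card G : ℂ)⁻¹ *
        ∑ χ ∈ Finset.univ.filter (fun ψ : Cfsg.IrrCharacter G => ψ ∈ B),
          pregInner p (χ : G → ℂ) (χ : G → ℂ) := by
      rw [← h4, ← mul_assoc, inv_mul_cancel₀ hcard, one_mul]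
    rw [h5]
    congr 1
    unfold pregInner
    rw [Finset.sum_comm]
    refine Finset.sum_congr rfl fun g _ => ?_
    by_cases hg : p ∣ orderOf g
    · simp only [hg, not_true, if_false, Finset.sum_const_zero]
    · simp only [hg, not_false_iff, if_true, one_mul]
      rw [finsum_mem_eq_finite_toFinset_sum _ (Set.toFinite B)]
      refine Finset.sum_congr ?_ (fun _ _ => rfl)
      ext ζ
      simp
  · -- the other terms
    rw [finsum_mem_eq_finite_toFinset_sum _ (Set.toFinite _), Finset.card_eq_sum_ones]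
    refine Finset.sum_le_sum fun b hb => ?_
    have hb' : Cfsg.IsInducedBlock M (Subgroup.centralizer ({x} : Set G)) b B :=
      mem_indBlocks.mp hb
    obtain ⟨ξ, hξ⟩ := block_nonempty hM.2.1 hb'.1
    exact Helper82.blockRank_pos hp hξ

/-- The weight `|C(x)|⁻¹ Σ_{y ∈ C(x) p-regular} |χ(x y)|²` of the `p`-section of `x`. -/
noncomputable def secWeight (p : ℕ) (χ : G → ℂ) (x : G) : ℂ :=
  (Nat.card ↥(Subgroup.centralizer ({x} : Set G)) : ℂ)⁻¹ *
    ∑ᶠ y : ↥(Subgroup.centralizer ({x} : Set G)),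
      if ¬ p ∣ orderOf y then χ (x * (y : G)) * conj (χ (x * (y : G))) else 0

/-- The weights of the sections add up to `1`. -/
theorem sum_secWeight {p : ℕ} [Fact p.Prime] (χ₀ : Cfsg.IrrCharacter G)
    (X : Finset G) (hX : ∀ x ∈ X, ∃ k : ℕ, orderOf x = p ^ k)
    (hXrep : ∀ g : G, (∃ k : ℕ, orderOf g = p ^ k) → ∃! x, x ∈ X ∧ IsConj g x) :
    ∑ x ∈ X, secWeight p (χ₀ : G → ℂ) x = 1 := by
  classical
  have hcard : (Nat.card G : ℂ) ≠ 0 := by
    have : 0 < Nat.card G := Nat.card_pos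
    exact_mod_cast this.ne'
  have hF : ∀ g c : G, (fun g : G => (χ₀ : G → ℂ) g * conj ((χ₀ : G → ℂ) g)) (c * g * c⁻¹)
      = (fun g : G => (χ₀ : G → ℂ) g * conj ((χ₀ : G → ℂ) g)) g := by
    intro g c
    simp only [Helper81.irr_conj]
  have h := Helper82.sum_eq_sum_sections (p := p) X hX hXrep
    (F := fun g : G => (χ₀ : G → ℂ) g * conj ((χ₀ : G → ℂ) g)) hF
  rw [Helper80.irr_orthogonality_conj, if_pos rfl, ← Nat.card_eq_fintype_card] at h
  have h2 : (Nat.card G : ℂ) * ∑ x ∈ X, secWeight p (χ₀ : G → ℂ) x = (Nat.card G : ℂ) * 1 := by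
    rw [mul_one]
    exact h.symm
  exact mul_left_cancel₀ hcard h2

/-- The weight of the section of `1`. -/
theorem pow_mul_secWeight_one (p k : ℕ) (χ₀ : G → ℂ) :
    (k : ℂ) * secWeight p χ₀ 1 = Cfsg.classInner (Helper73.pregScal p (k : ℂ) χ₀) χ₀ := by
  classical
  unfold secWeight
  rw [card_centralizer_one]
  have h3 : ∀ y : ↥(Subgroup.centralizer ({1} : Set G)),
      (if ¬ p ∣ orderOf y then χ₀ (1 * (y : G)) * conj (χ₀ (1 * (y : G))) else 0)
      = (fun g : G => if ¬ p ∣ orderOf g then χ₀ (1 * g) * conj (χ₀ (1 * g)) else 0) (y : G) := by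
    intro y
    simp only [Subgroup.orderOf_coe]
  rw [finsum_congr h3, finsum_centralizer_one (fun g : G => if ¬ p ∣ orderOf g then
    χ₀ (1 * g) * conj (χ₀ (1 * g)) else 0)]
  unfold Cfsg.classInner Helper73.pregScal
  rw [mul_left_comm, Finset.mul_sum]
  congr 1
  refine Finset.sum_congr rfl fun g _ => ?_
  by_cases hg : p ∣ orderOf g
  · simp [hg]
  · simp only [hg, not_false_iff, if_true, if_false, one_mul]
    ring

/-- The contribution of the subsection `σ = (x, b)` to `⟨χ, χ⟩`, scaled by the order of a defect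
group of `b`. -/
noncomputable def secContrib (p : ℕ) (χ : G → ℂ)
    (σ : Σ x : G, Set (Cfsg.IrrCharacter ↥(Subgroup.centralizer ({x} : Set G)))) : ℂ :=
  letI : Fintype ↥(Subgroup.centralizer ({σ.1} : Set G)) := Fintype.ofFinite _
  Helper75.contrib (Subgroup.centralizer ({σ.1} : Set G)) σ.1 σ.2 p (Cfsg.blockDefect p σ.2) χ χ

omit [Fintype G] in
theorem self_mem_centralizer_singleton (x : G) : x ∈ Subgroup.centralizer ({x} : Set G) := by
  rw [Subgroup.mem_centralizer_iff]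
  intro s hs
  rw [Set.mem_singleton_iff] at hs
  subst hs
  rfl

omit [Fintype G] in
theorem centralizer_singleton_comm (x : G) (h : ↥(Subgroup.centralizer ({x} : Set G))) :
    x * (h : G) = (h : G) * x :=
  (Subgroup.mem_centralizer_iff.mp h.2) x rfl

theorem secContrib_isIntegral {p : ℕ} {M : Ideal Cfsg.AlgInt} (hM : Cfsg.IsPModular p M)
    (χ₀ : Cfsg.IrrCharacter G) (x : G) (hx : ∃ k : ℕ, orderOf x = p ^ k)
    {b : Set (Cfsg.IrrCharacter ↥(Subgroup.centralizer ({x} : Set G)))}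
    (hb : Cfsg.IsPBlock M b) : IsIntegral ℤ (secContrib p (χ₀ : G → ℂ) ⟨x, b⟩) := by
  letI : Fintype ↥(Subgroup.centralizer ({x} : Set G)) := Fintype.ofFinite _
  exact Helper75.contrib_isIntegral (Subgroup.centralizer ({x} : Set G)) hM x
    (self_mem_centralizer_singleton x) (centralizer_singleton_comm x) hx hb rfl χ₀ χ₀

theorem secContrib_mem_cycField (p : ℕ) (χ₀ : Cfsg.IrrCharacter G)
    (σ : Σ x : G, Set (Cfsg.IrrCharacter ↥(Subgroup.centralizer ({x} : Set G)))) :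
    secContrib p (χ₀ : G → ℂ) σ ∈ Helper75.cycField (Nat.card G) := by
  letI : Fintype ↥(Subgroup.centralizer ({σ.1} : Set G)) := Fintype.ofFinite _
  exact Helper75.contrib_mem_cycField (Subgroup.centralizer ({σ.1} : Set G)) σ.1 σ.2 p _ χ₀ χ₀

theorem secContrib_ne_zero {p : ℕ} {M : Ideal Cfsg.AlgInt} (hM : Cfsg.IsPModular p M)
    {B : Set (Cfsg.IrrCharacter G)} {χ₀ : Cfsg.IrrCharacter G} (hχ₀ : χ₀ ∈ B)
    (h0 : Cfsg.blockHeight p B (χ₀ : G → ℂ) = 0) (x : G) (hx : ∃ k : ℕ, orderOf x = p ^ k)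
    {b : Set (Cfsg.IrrCharacter ↥(Subgroup.centralizer ({x} : Set G)))}
    (hind : Cfsg.IsInducedBlock M (Subgroup.centralizer ({x} : Set G)) b B) :
    secContrib p (χ₀ : G → ℂ) ⟨x, b⟩ ≠ 0 := by
  letI : Fintype ↥(Subgroup.centralizer ({x} : Set G)) := Fintype.ofFinite _
  intro h
  have h1 := Helper75.contrib_not_memLocalIdeal (Subgroup.centralizer ({x} : Set G)) hM x
    (self_mem_centralizer_singleton x) (centralizer_singleton_comm x) hx hind rfl hχ₀ h0 hχ₀ h0
  apply h1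
  have h2 : Helper75.contrib (Subgroup.centralizer ({x} : Set G)) x b p (Cfsg.blockDefect p b)
      (χ₀ : G → ℂ) (χ₀ : G → ℂ) = 0 := h
  rw [h2]
  exact memLocalIdeal_zero hM.2.1

/-- The values of the part in a block of a section of an irreducible character are cyclotomic. -/
theorem blockPart_section_mem_cycField (χ₀ : Cfsg.IrrCharacter G) (x : G)
    [Fintype ↥(Subgroup.centralizer ({x} : Set G))]
    (b : Set (Cfsg.IrrCharacter ↥(Subgroup.centralizer ({x} : Set G))))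
    (c : ↥(Subgroup.centralizer ({x} : Set G))) :
    Cfsg.blockPart b (fun c : ↥(Subgroup.centralizer ({x} : Set G)) => (χ₀ : G → ℂ) (x * c)) c
      ∈ Helper75.cycField (Nat.card G) := by
  classical
  have := Fintype.ofFinite (Cfsg.IrrCharacter ↥(Subgroup.centralizer ({x} : Set G)))
  rw [Helper75.blockPart_filter_apply]
  refine sum_mem fun θ _ => mul_mem ?_ (Helper75.irr_subgroup_mem_cycField _ θ c)
  unfold Cfsg.classInner
  exact mul_mem (inv_mem (natCast_mem _ _)) (sum_mem fun c _ =>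
    mul_mem (Helper75.irr_mem_cycField χ₀ _)
      (Helper75.conj_mem_cycField _ (Helper75.irr_subgroup_mem_cycField _ θ c)))

theorem totNonneg_secContrib (p : ℕ) (χ₀ : Cfsg.IrrCharacter G)
    (σ : Σ x : G, Set (Cfsg.IrrCharacter ↥(Subgroup.centralizer ({x} : Set G)))) :
    TotNonneg (secContrib p (χ₀ : G → ℂ) σ) := by
  letI : Fintype ↥(Subgroup.centralizer ({σ.1} : Set G)) := Fintype.ofFinite _
  have h1 : secContrib p (χ₀ : G → ℂ) σ
      = ((p ^ Cfsg.blockDefect p σ.2 : ℕ) : ℂ)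
          / ((Nat.card ↥(Subgroup.centralizer ({σ.1} : Set G)) : ℕ) : ℂ)
        * pregInner p
          (Cfsg.blockPart σ.2 (fun c : ↥(Subgroup.centralizer ({σ.1} : Set G)) =>
            (χ₀ : G → ℂ) (σ.1 * c)))
          (Cfsg.blockPart σ.2 (fun c : ↥(Subgroup.centralizer ({σ.1} : Set G)) =>
            (χ₀ : G → ℂ) (σ.1 * c))) := by
    unfold secContrib Helper75.contrib
    push_cast
    rfl
  rw [h1]
  exact totNonneg_nat_div_mul _ _ (totNonneg_pregInner p _ Nat.card_pos.ne' _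
    (blockPart_section_mem_cycField χ₀ σ.1 σ.2))

/-- Bessel's inequality for the subsections of one section, with the denominators cleared by the
order of a defect group of `B`. -/
theorem totNonneg_secWeight_sub {p : ℕ} [Fact p.Prime] {M : Ideal Cfsg.AlgInt}
    (hM : Cfsg.IsPModular p M) (B : Set (Cfsg.IrrCharacter G)) (χ₀ : Cfsg.IrrCharacter G)
    (x : G) :
    TotNonneg (((p ^ Cfsg.blockDefect p B : ℕ) : ℂ) * secWeight p (χ₀ : G → ℂ) x
      - ∑ b ∈ indBlocks M B x, secContrib p (χ₀ : G → ℂ) ⟨x, b⟩) := by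
  classical
  letI : Fintype ↥(Subgroup.centralizer ({x} : Set G)) := Fintype.ofFinite _
  have hn : Nat.card G ≠ 0 := Nat.card_pos.ne'
  obtain ⟨F, hF⟩ : ∃ F : ↥(Subgroup.centralizer ({x} : Set G)) → ℂ,
      F = fun c : ↥(Subgroup.centralizer ({x} : Set G)) => (χ₀ : G → ℂ) (x * (c : G)) :=
    ⟨_, rfl⟩
  have hFcl : Cfsg.IsClassFunction ↥(Subgroup.centralizer ({x} : Set G)) F := by
    intro g h
    rw [hF]
    show (χ₀ : G → ℂ) (x * ((h : G) * (g : G) * (h : G)⁻¹)) = (χ₀ : G → ℂ) (x * (g : G))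
    have e1 : x * ((h : G) * (g : G) * (h : G)⁻¹) = (h : G) * (x * (g : G)) * (h : G)⁻¹ := by
      rw [← mul_assoc, ← mul_assoc, centralizer_singleton_comm x h]
      group
    rw [e1, Helper81.irr_conj]
  have hFcyc : ∀ c, F c ∈ Helper75.cycField (Nat.card G) := by
    intro c
    rw [hF]
    exact Helper75.irr_mem_cycField χ₀ _
  have hbpcyc : ∀ (b : Set (Cfsg.IrrCharacter ↥(Subgroup.centralizer ({x} : Set G))))
      (c : ↥(Subgroup.centralizer ({x} : Set G))),
      Cfsg.blockPart b F c ∈ Helper75.cycField (Nat.card G) := by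
    intro b c
    rw [hF]
    exact blockPart_section_mem_cycField χ₀ x b c
  have hW : secWeight p (χ₀ : G → ℂ) x
      = (Nat.card ↥(Subgroup.centralizer ({x} : Set G)) : ℂ)⁻¹ * pregInner p F F := by
    unfold secWeight pregInner
    rw [finsum_eq_sum_of_fintype, hF]
  have hbessel := pregInner_sub_blockParts hM (indBlocks M B x)
    (fun b hb => (mem_indBlocks.mp hb).1) F hFcl
  have hD : TotNonneg (pregInner p (fun c => F c - ∑ b ∈ indBlocks M B x, Cfsg.blockPart b F c)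
      (fun c => F c - ∑ b ∈ indBlocks M B x, Cfsg.blockPart b F c)) :=
    totNonneg_pregInner p _ hn _ (fun c => sub_mem (hFcyc c) (sum_mem fun b _ => hbpcyc b c))
  have hS : ∀ b ∈ indBlocks M B x, secContrib p (χ₀ : G → ℂ) ⟨x, b⟩
      = ((p ^ Cfsg.blockDefect p B : ℕ) : ℂ)
          / ((Nat.card ↥(Subgroup.centralizer ({x} : Set G)) : ℕ) : ℂ)
          * pregInner p (Cfsg.blockPart b F) (Cfsg.blockPart b F)
        - ((p ^ Cfsg.blockDefect p B - p ^ Cfsg.blockDefect p b : ℕ) : ℂ)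
          / ((Nat.card ↥(Subgroup.centralizer ({x} : Set G)) : ℕ) : ℂ)
          * pregInner p (Cfsg.blockPart b F) (Cfsg.blockPart b F) := by
    intro b hb
    have hle : p ^ Cfsg.blockDefect p b ≤ p ^ Cfsg.blockDefect p B :=
      Nat.pow_le_pow_right (Fact.out : p.Prime).pos
        (Helper75.blockDefect_le_of_isInducedBlock hM _ (mem_indBlocks.mp hb))
    have h1 : secContrib p (χ₀ : G → ℂ) ⟨x, b⟩
        = (p : ℂ) ^ Cfsg.blockDefect p b
            / (Nat.card ↥(Subgroup.centralizer ({x} : Set G)) : ℂ)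
          * pregInner p (Cfsg.blockPart b F) (Cfsg.blockPart b F) := by
      rw [hF]
      rfl
    rw [h1, Nat.cast_sub hle]
    push_cast
    ring
  have hkey : ((p ^ Cfsg.blockDefect p B : ℕ) : ℂ) * secWeight p (χ₀ : G → ℂ) x
      - ∑ b ∈ indBlocks M B x, secContrib p (χ₀ : G → ℂ) ⟨x, b⟩
      = ((p ^ Cfsg.blockDefect p B : ℕ) : ℂ)
          / ((Nat.card ↥(Subgroup.centralizer ({x} : Set G)) : ℕ) : ℂ)
          * pregInner p (fun c => F c - ∑ b ∈ indBlocks M B x, Cfsg.blockPart b F c)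
            (fun c => F c - ∑ b ∈ indBlocks M B x, Cfsg.blockPart b F c)
        + ∑ b ∈ indBlocks M B x,
          ((p ^ Cfsg.blockDefect p B - p ^ Cfsg.blockDefect p b : ℕ) : ℂ)
          / ((Nat.card ↥(Subgroup.centralizer ({x} : Set G)) : ℕ) : ℂ)
          * pregInner p (Cfsg.blockPart b F) (Cfsg.blockPart b F) := by
    rw [Finset.sum_congr rfl hS, Finset.sum_sub_distrib, hbessel, hW, mul_sub, ← Finset.mul_sum]
    ring
  rw [hkey]
  exact totNonneg_add (totNonneg_nat_div_mul _ _ hD) (totNonneg_sum _ _ fun b _ =>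
    totNonneg_nat_div_mul _ _ (totNonneg_pregInner p _ hn _ (hbpcyc b)))

/-- `|S| + n₀ ≤ p^d`. -/
theorem card_subsections_le [DecidableEq G] {p : ℕ} [Fact p.Prime] {M : Ideal Cfsg.AlgInt}
    (hM : Cfsg.IsPModular p M) {B : Set (Cfsg.IrrCharacter G)}
    {χ₀ : Cfsg.IrrCharacter G} (hχ₀ : χ₀ ∈ B) (h0 : Cfsg.blockHeight p B (χ₀ : G → ℂ) = 0)
    (m₀ : ℤ)
    (hm₀ : Cfsg.classInner (Helper73.pregScal p ((p ^ Cfsg.blockDefect p B : ℕ) : ℂ)
      (χ₀ : G → ℂ)) (χ₀ : G → ℂ) = (m₀ : ℂ))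
    (X : Finset G) (hX : ∀ x ∈ X, ∃ k : ℕ, orderOf x = p ^ k)
    (hXrep : ∀ g : G, (∃ k : ℕ, orderOf g = p ^ k) → ∃! x, x ∈ X ∧ IsConj g x)
    (h1 : (1 : G) ∈ X) :
    ((∑ x ∈ X.erase 1, (indBlocks M B x).card : ℕ) : ℤ) + m₀
      ≤ ((p ^ Cfsg.blockDefect p B : ℕ) : ℤ) := by
  classical
  obtain ⟨S, hS⟩ : ∃ S : Finset (Σ x : G,
      Set (Cfsg.IrrCharacter ↥(Subgroup.centralizer ({x} : Set G)))),
      S = (X.erase 1).sigma (indBlocks M B) := ⟨_, rfl⟩
  have hcard : S.card = ∑ x ∈ X.erase 1, (indBlocks M B x).card := by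
    rw [hS, Finset.card_sigma]
  have hmemS : ∀ σ ∈ S, (∃ k : ℕ, orderOf σ.1 = p ^ k) ∧
      Cfsg.IsInducedBlock M (Subgroup.centralizer ({σ.1} : Set G)) σ.2 B := by
    intro σ hσ
    rw [hS, Finset.mem_sigma] at hσ
    exact ⟨hX _ (Finset.mem_of_mem_erase hσ.1), mem_indBlocks.mp hσ.2⟩
  -- the total nonnegativity of the defect
  have htot : TotNonneg (((p ^ Cfsg.blockDefect p B : ℕ) : ℂ) - (m₀ : ℂ)
      - ∑ σ ∈ S, secContrib p (χ₀ : G → ℂ) σ) := by
    have h2 := totNonneg_sum (X.erase 1) _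
      (fun x _ => totNonneg_secWeight_sub hM B χ₀ x)
    have h3 : ∑ x ∈ X.erase 1, (((p ^ Cfsg.blockDefect p B : ℕ) : ℂ) * secWeight p (χ₀ : G → ℂ) x
        - ∑ b ∈ indBlocks M B x, secContrib p (χ₀ : G → ℂ) ⟨x, b⟩)
        = ((p ^ Cfsg.blockDefect p B : ℕ) : ℂ) - (m₀ : ℂ)
          - ∑ σ ∈ S, secContrib p (χ₀ : G → ℂ) σ := by
      rw [Finset.sum_sub_distrib, ← Finset.mul_sum, hS, Finset.sum_sigma]
      have h4 := sum_secWeight (p := p) χ₀ X hX hXrep
      rw [← Finset.add_sum_erase X _ h1] at h4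
      have h5 := pow_mul_secWeight_one p (p ^ Cfsg.blockDefect p B) (χ₀ : G → ℂ)
      rw [hm₀] at h5
      have h6 : ∑ x ∈ X.erase 1, secWeight p (χ₀ : G → ℂ) x
          = 1 - secWeight p (χ₀ : G → ℂ) 1 := by
        rw [← h4]; ring
      rw [h6, mul_sub, mul_one, h5]
    rwa [h3] at h2
  have hmain := card_le_of_galois_nonneg (Nat.card G) Nat.card_pos.ne' S
    (secContrib p (χ₀ : G → ℂ))
    (fun σ _ => secContrib_mem_cycField p χ₀ σ)
    (fun σ hσ => secContrib_isIntegral hM χ₀ σ.1 (hmemS σ hσ).1 (hmemS σ hσ).2.1)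
    (fun σ hσ => secContrib_ne_zero hM hχ₀ h0 σ.1 (hmemS σ hσ).1 (hmemS σ hσ).2)
    (fun σ _ => totNonneg_secContrib p χ₀ σ)
    (((p ^ Cfsg.blockDefect p B : ℕ) : ℝ) - (m₀ : ℝ))
    (by
      intro τ
      have h2 := (htot τ).1
      rw [map_sub, map_sub, map_natCast, map_intCast, map_sum, Complex.sub_re, Complex.sub_re,
        Complex.natCast_re, Complex.intCast_re, Complex.re_sum] at h2
      linarith)
  rw [hcard] at hmain
  have h7 : (((∑ x ∈ X.erase 1, (indBlocks M B x).card : ℕ) : ℤ) : ℝ) + ((m₀ : ℤ) : ℝ)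
      ≤ (((p ^ Cfsg.blockDefect p B : ℕ) : ℤ) : ℝ) := by
    push_cast
    push_cast at hmain
    linarith
  exact_mod_cast h7

end Cfsg.Agent.Helper77
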