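import Cfsg.Agent.Helper77.AbelianPair
import Cfsg.Agent.S4687
import Cfsg.Agent.Helper78.GenDecomp

/-!
# Abelian defect groups: free inertial action and nilpotent local blocks (S4650)

* `isBrauerPairOf_of_isInducedBlock`: a block of `C_G(P)` (with `P ≤ C_G(P)`) inducing `B`
  gives a Brauer pair of `B`.
* `isInducedBlock_subBlock_iff`: induction computed inside a subgroup `H`, read in the group `H`.
* `isInducedBlockIn_iff_subpairLE`: for `P` abelian and `Q ≤ P`, the block of `C_G(P)` induces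
  the block `f` of `C_G(Q)` inside `C_G(Q)` iff `(Q, f) ≤ (P, c)`.
* `free_action_iff_local_nilpotent`: S4650.
-/

set_option autoImplicit false
set_option linter.style.haveILetI false
set_option maxHeartbeats 1000000
open Cfsg

namespace Cfsg.Agent.Helper77

universe u

variable {G : Type u} [Group G] [Fintype G]

/-- A block of `C_G(P)` (with `P ≤ C_G(P)`) inducing `B` gives a Brauer pair of `B`. -/
theorem isBrauerPairOf_of_isInducedBlock {p : ℕ} [Fact p.Prime] {M : Ideal Cfsg.AlgInt}
    (hM : Cfsg.IsPModular p M) {B : Set (Cfsg.IrrCharacter G)} (P : Subgroup G)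
    (hP : IsPGroup p P) (hPC : P ≤ (Subgroup.centralizer (P : Set G)))
    (e : Set (Cfsg.IrrCharacter (Subgroup.centralizer (P : Set G))))
    (hind : Cfsg.IsInducedBlock M (Subgroup.centralizer (P : Set G)) e B) : Cfsg.IsBrauerPairOf p M B P e := by
  classical
  letI : Fintype (Subgroup.centralizer (P : Set G)) := Fintype.ofFinite _
  have hMm := hM.2.1
  have he := hind.1
  have hB := hind.2.1
  refine ⟨⟨hP, he⟩, hB, fun ξ hξ => ?_⟩
  obtain ⟨χ, hχ⟩ := Helper16.exists_mem_of_isPBlock hMm hB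
  rw [brauerOmega_eq_omega]
  have h2 := Helper16.omega_brRes_sub_memLocalIdeal_of_induced hM P (Subgroup.centralizer (P : Set G)) hP hPC
    (Subgroup.centralizer_le_normalizer _) hind hξ hχ
    (blockCoeff_isClassFunction B) (blockCoeff_memLocalRing hMm hB)
  rw [omega_blockCoeff_of_mem hχ] at h2
  exact h2

omit [Fintype G] in
theorem inducedCentralChar_centEquiv {H : Subgroup G} {R' : Subgroup H} {R : Subgroup G}
    (h : CentCompat H R' R) (ξ : Cfsg.IrrCharacter (Subgroup.centralizer (R : Set G))) (x : H) :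
    Cfsg.inducedCentralChar (Subgroup.centralizer (R' : Set H)) (Helper75.irrComp (centEquiv h) ξ : (Subgroup.centralizer (R' : Set H)) → ℂ) x
      = Cfsg.inducedCentralCharIn H (Subgroup.centralizer (R : Set G)) (ξ : (Subgroup.centralizer (R : Set G)) → ℂ) (x : G) := by
  unfold Cfsg.inducedCentralChar Cfsg.inducedCentralCharIn
  refine finsum_mem_eq_of_bijOn (centEquiv h) ⟨?_, (centEquiv h).injective.injOn, ?_⟩ ?_
  · intro k' hk'
    obtain ⟨c, hc⟩ := isConj_iff.mp hk'
    refine ⟨c⁻¹, ?_⟩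
    rw [centEquiv_apply]
    have h1 : ((c * x * c⁻¹ : H) : G) = ((k' : H) : G) := congrArg (fun z : H => (z : G)) hc
    rw [← h1]
    push_cast
    group
  · rintro k ⟨y, hy⟩
    refine ⟨(centEquiv h).symm k, ?_, (centEquiv h).apply_symm_apply k⟩
    show IsConj x (((centEquiv h).symm k : (Subgroup.centralizer (R' : Set H))) : H)
    rw [isConj_iff]
    refine ⟨y⁻¹, ?_⟩
    apply Subtype.ext
    push_cast
    rw [centEquiv_symm_apply, ← hy]
    group
  · intro k' _
    rw [Helper75.irrComp_apply, Helper75.irrComp_apply, map_one]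

omit [Fintype G] in
/-- Induction computed inside the subgroup `H`, read in the group `H`. -/
theorem isInducedBlock_subBlock_iff {M : Ideal Cfsg.AlgInt} {H : Subgroup G} {R' : Subgroup H}
    {R : Subgroup G} (h : CentCompat H R' R) (e : Set (Cfsg.IrrCharacter (Subgroup.centralizer (R : Set G))))
    (f : Set (Cfsg.IrrCharacter H)) :
    Cfsg.IsInducedBlock M (Subgroup.centralizer (R' : Set H)) (subBlock h e) f ↔ Cfsg.IsInducedBlockIn M H (Subgroup.centralizer (R : Set G)) e f := by
  constructor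
  · rintro ⟨he', hf, hall⟩
    refine ⟨(isPBlock_subBlock_iff h e).mp he', hf, fun ξ hξ χ hχ x => ?_⟩
    have h1 := hall (Helper75.irrComp (centEquiv h) ξ) ((mem_subBlock_iff h e ξ).mpr hξ) χ hχ x
    rwa [inducedCentralChar_centEquiv] at h1
  · rintro ⟨he, hf, hall⟩
    refine ⟨(isPBlock_subBlock_iff h e).mpr he, hf, fun ξ' hξ' χ hχ x => ?_⟩
    obtain ⟨ξ, rfl⟩ := exists_eq_irrComp_centEquiv h ξ'
    rw [inducedCentralChar_centEquiv]
    exact hall ξ ((mem_subBlock_iff h e ξ).mp hξ') χ hχ x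

omit [Fintype G] in
theorem le_centralizer_of_le_of_comm {P Q : Subgroup G}
    (hPab : ∀ x ∈ P, ∀ y ∈ P, x * y = y * x) (hQP : Q ≤ P) : P ≤ (Subgroup.centralizer (Q : Set G)) := fun x hx =>
  Subgroup.mem_centralizer_iff.mpr (fun y hy => hPab y (hQP hy) x hx)

/-- For `P` abelian and `(Q, f) ≤ (P, c)`: `(P, c)`, read in `C_G(Q)`, is a Brauer pair of `f`. -/
theorem isBrauerPairOf_subBlock_of_subpairLE {p : ℕ} [Fact p.Prime] {M : Ideal Cfsg.AlgInt}
    (hM : Cfsg.IsPModular p M) {P : Subgroup G} {c : Set (Cfsg.IrrCharacter (Subgroup.centralizer (P : Set G)))}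
    (hPc : Cfsg.IsBrauerPair p M P c) (hPab : ∀ x ∈ P, ∀ y ∈ P, x * y = y * x)
    {Q : Subgroup G} (hQP : Q ≤ P) {f : Set (Cfsg.IrrCharacter (Subgroup.centralizer (Q : Set G)))}
    (hle : Cfsg.SubpairLE p M Q f P c) :
    Cfsg.IsBrauerPairOf p M f (P.subgroupOf (Subgroup.centralizer (Q : Set G)))
      (subBlock (centCompat_centralizer Q P hQP (le_centralizer_of_le_of_comm hPab hQP)) c) := by
  classical
  have hPCQ := le_centralizer_of_le_of_comm hPab hQP
  obtain ⟨g', hns, hle'⟩ := isNormalSubpair_of_subpairLE_of_le hM hPc hle hQP le_rfl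
    (hPCQ.trans (Subgroup.centralizer_le_normalizer _))
  have hg' : g' = c := subpairLE_unique hM _ P c rfl hPc P g' c hle' Relation.ReflTransGen.refl
  subst hg'
  exact (isBrauerPairOf_subBlock_iff _ (β := Cfsg.subgroupBlockCoeff (Subgroup.centralizer (Q : Set G)) f)
    (fun x => (sbc_of_mem _ _ x.2).symm) g').mpr
      ⟨⟨hPc.1.comap_subtype, hns.2.1.2⟩, hns.1.2, hns.2.2.2.2.2⟩

/-- For `P` abelian and `Q ≤ P`: the block `c` of `C_G(P)` induces the block `f` of `C_G(Q)`
inside `C_G(Q)` iff `(Q, f) ≤ (P, c)`. -/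
theorem isInducedBlockIn_iff_subpairLE {p : ℕ} [Fact p.Prime] {M : Ideal Cfsg.AlgInt}
    (hM : Cfsg.IsPModular p M) {P : Subgroup G} {c : Set (Cfsg.IrrCharacter (Subgroup.centralizer (P : Set G)))}
    (hPc : Cfsg.IsBrauerPair p M P c) (hPab : ∀ x ∈ P, ∀ y ∈ P, x * y = y * x)
    {Q : Subgroup G} (hQP : Q ≤ P) (f : Set (Cfsg.IrrCharacter (Subgroup.centralizer (Q : Set G)))) :
    Cfsg.IsInducedBlockIn M (Subgroup.centralizer (Q : Set G)) (Subgroup.centralizer (P : Set G)) c f ↔ Cfsg.SubpairLE p M Q f P c := by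
  classical
  letI : Fintype (Subgroup.centralizer (Q : Set G)) := Fintype.ofFinite _
  have hPCQ := le_centralizer_of_le_of_comm hPab hQP
  have hP'C : (P.subgroupOf (Subgroup.centralizer (Q : Set G))) ≤ Subgroup.centralizer (((P.subgroupOf (Subgroup.centralizer (Q : Set G))) : Subgroup (Subgroup.centralizer (Q : Set G))) : Set (Subgroup.centralizer (Q : Set G))) := by
    intro x hx
    rw [Subgroup.mem_centralizer_iff]
    intro y hy
    apply Subtype.ext
    exact hPab y (Subgroup.mem_subgroupOf.mp hy) x (Subgroup.mem_subgroupOf.mp hx)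
  constructor
  · intro hind
    have h1 := (isInducedBlock_subBlock_iff (centCompat_centralizer Q P hQP hPCQ) c f).mpr hind
    have h2 := isBrauerPairOf_of_isInducedBlock hM (P.subgroupOf (Subgroup.centralizer (Q : Set G))) hPc.1.comap_subtype hP'C _ h1
    have h3 := (isBrauerPairOf_subBlock_iff _ (β := Cfsg.subgroupBlockCoeff (Subgroup.centralizer (Q : Set G)) f)
      (fun x => (sbc_of_mem _ _ x.2).symm) c).mp h2
    have hns : Cfsg.IsNormalSubpair p M Q f P c :=
      ⟨⟨hPc.1.to_le hQP, h3.2.1⟩, hPc, hQP, hPCQ.trans (Subgroup.centralizer_le_normalizer _),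
        fun x hx => stabilizesBlock_of_mem_centralizer Q f (hPCQ hx), h3.2.2⟩
    exact Relation.ReflTransGen.single hns
  · intro hle
    have h2 := isBrauerPairOf_subBlock_of_subpairLE hM hPc hPab hQP hle
    have h1 := Helper78.isInducedBlock_of_isBrauerPairOf hM (P.subgroupOf (Subgroup.centralizer (Q : Set G))) hP'C _ h2
    exact (isInducedBlock_subBlock_iff _ c f).mp h1

/-- For `P` abelian, `(P, c)` maximal and `(Q, f) ≤ (P, c)`: `f` is nilpotent iff every element
of `C_G(Q)` normalizing `P` and stabilizing `c` centralizes `P`. -/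
theorem nilpotent_local_iff {p : ℕ} [Fact p.Prime] {M : Ideal Cfsg.AlgInt}
    (hM : Cfsg.IsPModular p M) {B : Set (Cfsg.IrrCharacter G)} {P : Subgroup G}
    {c : Set (Cfsg.IrrCharacter (Subgroup.centralizer (P : Set G)))} (hmax : Cfsg.IsMaximalBrauerPair p M B P c)
    (hPab : ∀ x ∈ P, ∀ y ∈ P, x * y = y * x)
    {Q : Subgroup G} (hQP : Q ≤ P) {f : Set (Cfsg.IrrCharacter (Subgroup.centralizer (Q : Set G)))}
    (hle : Cfsg.SubpairLE p M Q f P c) :
    Cfsg.IsNilpotentBlock p M f ↔ ∀ y ∈ (Subgroup.centralizer (Q : Set G)), y ∈ Subgroup.normalizer (P : Set G) →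
      Cfsg.StabilizesBlock (Subgroup.centralizer (P : Set G)) c y → y ∈ (Subgroup.centralizer (P : Set G)) := by
  classical
  letI : Fintype (Subgroup.centralizer (Q : Set G)) := Fintype.ofFinite _
  have hPCQ := le_centralizer_of_le_of_comm hPab hQP
  have hcc := centCompat_centralizer Q P hQP hPCQ
  have h2 := isBrauerPairOf_subBlock_of_subpairLE hM hmax.1.1 hPab hQP hle
  have hDf : Cfsg.IsDefectGroup p M f (P.subgroupOf (Subgroup.centralizer (Q : Set G))) :=
    isDefectGroup_centralizer_of_le_centralizer hM hmax hle hPCQ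
  have hmax' := isMaximalBrauerPair_of_card_eq hM h2 hDf rfl
  have hab' : ∀ x ∈ (P.subgroupOf (Subgroup.centralizer (Q : Set G))), ∀ y ∈ (P.subgroupOf (Subgroup.centralizer (Q : Set G))), x * y = y * x := fun x hx y hy =>
    Subtype.ext (hPab x (Subgroup.mem_subgroupOf.mp hx) y (Subgroup.mem_subgroupOf.mp hy))
  rw [Cfsg.Agent.S4687.result p M hM f _ _ hmax' hab']
  have hnorm : ∀ y : (Subgroup.centralizer (Q : Set G)), y ∈ Subgroup.normalizer (((P.subgroupOf (Subgroup.centralizer (Q : Set G))) : Subgroup (Subgroup.centralizer (Q : Set G))) : Set (Subgroup.centralizer (Q : Set G))) ↔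
      (y : G) ∈ Subgroup.normalizer (P : Set G) := by
    intro y
    rw [Subgroup.mem_normalizer_iff, Subgroup.mem_normalizer_iff]
    constructor
    · intro hy x
      constructor
      · intro hx
        exact Subgroup.mem_subgroupOf.mp ((hy ⟨x, hPCQ hx⟩).mp (Subgroup.mem_subgroupOf.mpr hx))
      · intro hx
        have hxC : x ∈ (Subgroup.centralizer (Q : Set G)) := by
          have h3 := ((Subgroup.centralizer (Q : Set G))).mul_mem (((Subgroup.centralizer (Q : Set G))).mul_mem (((Subgroup.centralizer (Q : Set G))).inv_mem y.2) (hPCQ hx)) y.2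
          rwa [show (y : G)⁻¹ * ((y : G) * x * (y : G)⁻¹) * (y : G) = x by group] at h3
        exact Subgroup.mem_subgroupOf.mp ((hy ⟨x, hxC⟩).mpr (Subgroup.mem_subgroupOf.mpr hx))
    · intro hy z
      constructor
      · intro hz
        exact Subgroup.mem_subgroupOf.mpr ((hy z).mp (Subgroup.mem_subgroupOf.mp hz))
      · intro hz
        exact Subgroup.mem_subgroupOf.mpr ((hy z).mpr (Subgroup.mem_subgroupOf.mp hz))
  constructor
  · intro h y hyC hyN hyst
    have h3 := h ⟨y, hyC⟩ ((hnorm _).mpr hyN) ((stabilizesBlock_subBlock_iff hcc c _).mpr hyst)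
    exact (hcc y).mpr ⟨hyC, h3⟩
  · intro h y hyN hyst
    have h3 := h y y.2 ((hnorm y).mp hyN) ((stabilizesBlock_subBlock_iff hcc c y).mp hyst)
    obtain ⟨_, hmem⟩ := (hcc (y : G)).mp h3
    exact hmem

/-- **Abelian defect groups: free inertial action iff nilpotent local blocks.** -/
theorem free_action_iff_local_nilpotent {p : ℕ} [Fact p.Prime] {M : Ideal Cfsg.AlgInt}
    (hM : Cfsg.IsPModular p M) {B : Set (Cfsg.IrrCharacter G)} {P : Subgroup G}
    (hPD : Cfsg.IsDefectGroup p M B P) (hPab : ∀ x ∈ P, ∀ y ∈ P, x * y = y * x)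
    (c : Set (Cfsg.IrrCharacter (Subgroup.centralizer (P : Set G)))) (hc : Cfsg.IsInducedBlock M (Subgroup.centralizer (P : Set G)) c B) (T : Subgroup G)
    (hT : ∀ g : G, g ∈ T ↔ (g ∈ Subgroup.normalizer (P : Set G) ∧
      Cfsg.StabilizesBlock (Subgroup.centralizer (P : Set G)) c g)) :
    (∀ g ∈ T, ∀ x ∈ P, x ≠ 1 → g * x * g⁻¹ = x → g ∈ (Subgroup.centralizer (P : Set G))) ↔
      ∀ Q : Subgroup G, Q ≤ P → Q ≠ ⊥ → ∀ f : Set (Cfsg.IrrCharacter (Subgroup.centralizer (Q : Set G))),
        Cfsg.IsInducedBlockIn M (Subgroup.centralizer (Q : Set G)) (Subgroup.centralizer (P : Set G)) c f → Cfsg.IsNilpotentBlock p M f := by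
  classical
  obtain ⟨-, -, -, -, hPp⟩ := Helper16.isDefectGroup_exists_data hPD
  have hPC : P ≤ (Subgroup.centralizer (P : Set G)) := le_centralizer_of_le_of_comm hPab le_rfl
  have hpair : Cfsg.IsBrauerPairOf p M B P c := isBrauerPairOf_of_isInducedBlock hM P hPp hPC c hc
  have hmax : Cfsg.IsMaximalBrauerPair p M B P c := isMaximalBrauerPair_of_card_eq hM hpair hPD rfl
  constructor
  · intro hfree Q hQP hQne f hind
    have hle := (isInducedBlockIn_iff_subpairLE hM hpair.1 hPab hQP f).mp hind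
    rw [nilpotent_local_iff hM hmax hPab hQP hle]
    intro y hyC hyN hyst
    obtain ⟨x, hx1⟩ := Subgroup.ne_bot_iff_exists_ne_one.mp hQne
    have hx1' : (x : G) ≠ 1 := fun h => hx1 (Subtype.ext h)
    have hcomm := Subgroup.mem_centralizer_iff.mp hyC (x : G) x.2
    have hfix : y * (x : G) * y⁻¹ = (x : G) := by
      rw [← hcomm]
      group
    exact hfree y ((hT y).2 ⟨hyN, hyst⟩) (x : G) (hQP x.2) hx1' hfix
  · intro hnil g hgT x hxP hx1 hgx
    have hQP : Subgroup.zpowers x ≤ P := (Subgroup.zpowers_le).mpr hxP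
    have hQne : Subgroup.zpowers x ≠ ⊥ := by
      rw [Ne, Subgroup.zpowers_eq_bot]
      exact hx1
    obtain ⟨f, -, hle⟩ := exists_subpairLE hM P c hpair.1 (Subgroup.zpowers x) hQP
    have hind := (isInducedBlockIn_iff_subpairLE hM hpair.1 hPab hQP f).mpr hle
    have hfnil := hnil _ hQP hQne f hind
    have h4 := (nilpotent_local_iff hM hmax hPab hQP hle).mp hfnil
    have hgC : g ∈ Subgroup.centralizer ((Subgroup.zpowers x : Subgroup G) : Set G) := by
      have h5 : Subgroup.zpowers x ≤ Subgroup.centralizer ({g} : Set G) := by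
        rw [Subgroup.zpowers_le, Subgroup.mem_centralizer_iff]
        intro z hz
        rw [Set.mem_singleton_iff] at hz
        subst hz
        calc z * x = z * x * z⁻¹ * z := by group
          _ = x * z := by rw [hgx]
      rw [Subgroup.mem_centralizer_iff]
      intro y hy
      exact (Subgroup.mem_centralizer_iff.mp (h5 hy) g (Set.mem_singleton g)).symm
    exact h4 g hgC ((hT g).1 hgT).1 ((hT g).1 hgT).2

end Cfsg.Agent.Helper77
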