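import Cfsg.Agent.Helper77.NilFusion

/-!
# Nilpotent blocks and the inner fusion system

* `nil_fusion`: in a nilpotent block, fusion of Brauer pairs below `(P, e)` is induced by `P`.
* `nilpotent_iff_inner`: S4686.
* `nilpotent_centralizer_block`, `isDefectGroup_centralizer_of_nilpotent`: S4688.
-/

set_option autoImplicit false
set_option linter.style.haveILetI false
open Cfsg

namespace Cfsg.Agent.Helper77

universe u

variable {G : Type u} [Group G] [Fintype G]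

/-- In a nilpotent block, every `g` carrying `(Q, f) ≤ (P, e)` to a pair below `(P, e)` acts on
`Q` as an element of `P`. -/
theorem nil_fusion {p : ℕ} [Fact p.Prime] {M : Ideal Cfsg.AlgInt}
    (hM : Cfsg.IsPModular p M) {B : Set (Cfsg.IrrCharacter G)}
    (hnil : Cfsg.IsNilpotentBlock p M B) {P : Subgroup G}
    {e : Set (Cfsg.IrrCharacter (Subgroup.centralizer (P : Set G)))} (hmax : Cfsg.IsMaximalBrauerPair p M B P e)
    {Q : Subgroup G} {f : Set (Cfsg.IrrCharacter (Subgroup.centralizer (Q : Set G)))} (hle : Cfsg.SubpairLE p M Q f P e)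
    {g : G} (hg : Cfsg.SubpairLE p M (Q.map (MulAut.conj g).toMonoidHom)
      (Cfsg.conjBlock Q g f) P e) :
    ∃ u ∈ P, ∀ q ∈ Q, g * q * g⁻¹ = u * q * u⁻¹ := by
  classical
  have hle' : Relation.ReflTransGen (Cfsg.NormalSubpairRel p M)
      (⟨Q, f⟩ : Cfsg.BrauerPairIdx G) (conjPair g⁻¹ ⟨P, e⟩) := by
    have h := subpairLE_conjPair g⁻¹ hg
    have e1 : conjPair g⁻¹ (⟨Q.map (MulAut.conj g).toMonoidHom, Cfsg.conjBlock Q g f⟩ :
        Cfsg.BrauerPairIdx G) = ⟨Q, f⟩ := conjPair_inv_conjPair g ⟨Q, f⟩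
    rw [e1] at h
    exact h
  have hmax' := isMaximalBrauerPair_conj hM hmax g⁻¹
  obtain ⟨z, hz, hzz⟩ := nil_conj_aux hM hnil _ ⟨Q, f⟩ ⟨P, e⟩ (conjPair g⁻¹ ⟨P, e⟩) rfl hmax
    hmax' hle hle'
  rw [← conjPair_mul] at hzz
  obtain ⟨hyN, hyst⟩ := (conjPair_eq_self_iff P e (z * g⁻¹)).1 hzz
  have hT : ∀ y : G, y ∈ (Subgroup.normalizer (P : Set G) ⊓ stabSubgroup (Subgroup.centralizer (P : Set G)) e) ↔ y ∈ (Subgroup.normalizer (P : Set G)) ∧ Cfsg.StabilizesBlock (Subgroup.centralizer (P : Set G)) e y := fun y => Iff.rfl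
  obtain ⟨F, hF, hFc⟩ := exists_block_of_isStabilizer hM hmax.1.1 _ hT
  have hD := isDefectGroup_stabilizer_of_isMaximalBrauerPair hM hmax _ hT hF hFc
  have hnil' : ∀ x ∈ (Subgroup.normalizer (P : Set G) ⊓ stabSubgroup (Subgroup.centralizer (P : Set G)) e), Cfsg.IsPRegular p x → x ∈ (Subgroup.centralizer (P : Set G)) := fun x hx hreg =>
    hnil.2 P e hmax.1 x ((hT x).1 hx).1 ((hT x).1 hx).2 hreg
  obtain ⟨c, hc, d, hd, hxcd⟩ := stabilizer_eq_centralizer_mul_defect hM hmax.1.1.2 _ hT hnil'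
    hF hFc hD ⟨z * g⁻¹, (hT _).2 ⟨hyN, hyst⟩⟩
  have hdP : (d : G) ∈ P := Subgroup.mem_subgroupOf.mp hd
  have e1 : z * g⁻¹ = (c : G) * (d : G) := congrArg Subtype.val hxcd
  have hgeq : g = (d : G)⁻¹ * (c : G)⁻¹ * z := by
    have h2 : g⁻¹ = z⁻¹ * ((c : G) * (d : G)) := by
      rw [← e1]
      group
    calc g = (g⁻¹)⁻¹ := (inv_inv g).symm
      _ = (d : G)⁻¹ * (c : G)⁻¹ * z := by
        rw [h2]
        group
  have hQP : Q ≤ P := Helper75.subpairLE_fst_le (a := ⟨Q, f⟩) (b := ⟨P, e⟩) hle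
  refine ⟨(d : G)⁻¹, P.inv_mem hdP, fun q hq => ?_⟩
  have hzq : z * q * z⁻¹ = q := by
    have h3 := Subgroup.mem_centralizer_iff.mp hz q hq
    rw [← h3]
    group
  have hcq : (c : G)⁻¹ * q * (c : G) = q := by
    have h3 := Subgroup.mem_centralizer_iff.mp hc q (hQP hq)
    rw [mul_assoc, h3]
    group
  calc g * q * g⁻¹ = (d : G)⁻¹ * ((c : G)⁻¹ * (z * q * z⁻¹) * (c : G)) * (d : G) := by
        rw [hgeq]
        group
    _ = (d : G)⁻¹ * q * (d : G) := by rw [hzq, hcq]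
    _ = (d : G)⁻¹ * q * ((d : G)⁻¹)⁻¹ := by rw [inv_inv]

/-- **S4686.** A block is nilpotent iff its fusion system is the inner fusion system. -/
theorem nilpotent_iff_inner {p : ℕ} [Fact p.Prime] {M : Ideal Cfsg.AlgInt}
    (hM : Cfsg.IsPModular p M) {B : Set (Cfsg.IrrCharacter G)} {P : Subgroup G}
    {e : Set (Cfsg.IrrCharacter (Subgroup.centralizer (P : Set G)))} (hmax : Cfsg.IsMaximalBrauerPair p M B P e)
    {F : Cfsg.FusionSystem P} (hF : Cfsg.IsBlockFusionSystemOn p M B P e F) :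
    Cfsg.IsNilpotentBlock p M B ↔
      ∀ Q : Subgroup G, F.Hom Q = (Cfsg.innerFusionSystem P).Hom Q := by
  classical
  constructor
  · intro hnil Q
    ext φ
    constructor
    · intro hφ
      obtain ⟨hQP, g, hφg, -, f, hle, hleg⟩ := (hF.2 Q φ).1 hφ
      obtain ⟨u, hu, huq⟩ := nil_fusion hM hnil hmax hle hleg
      exact ⟨hQP, u, hu, fun x => by rw [hφg, huq x x.2]⟩
    · rintro ⟨hQP, g, hg, hφ⟩
      have e1 : φ = Cfsg.conjHom Q g := MonoidHom.ext fun x => hφ x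
      rw [e1]
      exact F.conj_mem hQP hg
  · intro hinner
    refine ⟨hmax.1.2.1, fun Q₀ f₀ hQf x₀ hx₀N hx₀st hreg => ?_⟩
    obtain ⟨g, hg⟩ := exists_subpairLE_conj_of_isMaximalBrauerPair hM B P Q₀ e f₀ hmax hQf
    have e0 : g⁻¹ * (g * x₀ * g⁻¹) * g = x₀ := by group
    have hxN : g * x₀ * g⁻¹ ∈ Subgroup.normalizer (((Q₀.map (MulAut.conj g).toMonoidHom) : Subgroup G) : Set G) :=
      (mem_normalizer_map_conj_iff Q₀ g _).2 (by rwa [e0])
    have hxst : Cfsg.StabilizesBlock (Subgroup.centralizer (((Q₀.map (MulAut.conj g).toMonoidHom) : Subgroup G) : Set G))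
        (Cfsg.conjBlock Q₀ g f₀) (g * x₀ * g⁻¹) :=
      (stabilizesBlock_conjBlock_iff Q₀ g f₀ _ hxN).2 (by rwa [e0])
    have hQP : (Q₀.map (MulAut.conj g).toMonoidHom) ≤ P := Helper75.subpairLE_fst_le (a := ⟨_, _⟩) (b := ⟨P, e⟩) hg
    have hfix := (conjPair_eq_self_iff (Q₀.map (MulAut.conj g).toMonoidHom) (Cfsg.conjBlock Q₀ g f₀) (g * x₀ * g⁻¹)).2
      ⟨hxN, hxst⟩
    have hmapQ := (map_conj_eq_self_iff (Q₀.map (MulAut.conj g).toMonoidHom) (g * x₀ * g⁻¹)).2 hxN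
    have hmem : Cfsg.conjHom (Q₀.map (MulAut.conj g).toMonoidHom) (g * x₀ * g⁻¹) ∈ F.Hom (Q₀.map (MulAut.conj g).toMonoidHom) := by
      refine (hF.2 _ _).2 ⟨hQP, g * x₀ * g⁻¹, fun u => rfl, ?_, Cfsg.conjBlock Q₀ g f₀, hg, ?_⟩
      · rw [hmapQ]
        exact hQP
      · show Relation.ReflTransGen (Cfsg.NormalSubpairRel p M)
          (⟨_, _⟩ : Cfsg.BrauerPairIdx G) ⟨P, e⟩
        rw [hfix]
        exact hg
    rw [hinner] at hmem
    obtain ⟨-, u, hu, huq⟩ := hmem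
    obtain ⟨k, hk⟩ := hmax.1.1.1 ⟨u, hu⟩
    have hxC : g * x₀ * g⁻¹ ∈ Subgroup.centralizer (((Q₀.map (MulAut.conj g).toMonoidHom) : Subgroup G) : Set G) := by
      refine mem_centralizer_of_pRegular _ (g * x₀ * g⁻¹) u
        ⟨k, by simpa using congrArg Subtype.val hk⟩ ?_ ?_ ?_
      · have h5 : orderOf (g * x₀ * g⁻¹) = orderOf x₀ := by
          have h6 := MulEquiv.orderOf_eq (MulAut.conj g) x₀
          simpa [MulAut.conj_apply] using h6
        rw [h5]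
        exact hreg
      · intro w hw
        have h7 := huq ⟨w, hw⟩
        rw [← h7]
        exact (Subgroup.mem_normalizer_iff.mp hxN w).1 hw
      · intro w hw
        exact huq ⟨w, hw⟩
    exact (conj_mem_centralizer_map_iff Q₀ g x₀).1 hxC

end Cfsg.Agent.Helper77
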