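import Cfsg.Agent.Helper77.AbelNilRank1
import Cfsg.Agent.Helper77.NilFusion2
import Cfsg.Agent.Helper77.LocalNil
import Cfsg.Agent.Helper78.GenDecomp

/-!
# Nilpotent blocks with abelian defect groups have one irreducible Brauer character

* `card_defect_le_card_subsections`: for a nilpotent block with abelian defect group `P`, the
  nontrivial elements of `P` give pairwise distinct subsections.
* `blockRank_eq_one_of_nilpotent_abelian`: `l(B) = 1` for a nilpotent block with abelian defect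
  groups.
-/

set_option autoImplicit false
set_option linter.style.haveILetI false
open Cfsg
open scoped ComplexConjugate

namespace Cfsg.Agent.Helper77

universe u

section cast

variable {G : Type u} [Group G]

/-- Transport of a set of characters along an equality of subgroups. -/
def castBlock {H K : Subgroup G} (h : H = K) (b : Set (Cfsg.IrrCharacter ↥H)) :
    Set (Cfsg.IrrCharacter ↥K) := h ▸ b

theorem isInducedBlock_castBlock {M : Ideal Cfsg.AlgInt} {H K : Subgroup G} (h : H = K)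
    (b : Set (Cfsg.IrrCharacter ↥H)) (B : Set (Cfsg.IrrCharacter G)) :
    Cfsg.IsInducedBlock M K (castBlock h b) B ↔ Cfsg.IsInducedBlock M H b B := by
  subst h
  exact Iff.rfl

theorem castBlock_injective {H K : Subgroup G} (h : H = K) :
    Function.Injective (castBlock h : Set (Cfsg.IrrCharacter ↥H) → Set (Cfsg.IrrCharacter ↥K)) := by
  subst h
  exact fun _ _ h => h

theorem centralizer_zpowers_eq (x : G) :
    Subgroup.centralizer ((Subgroup.zpowers x : Subgroup G) : Set G)
      = Subgroup.centralizer ({x} : Set G) := by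
  ext g
  rw [Subgroup.mem_centralizer_iff, Subgroup.mem_centralizer_iff]
  constructor
  · intro h s hs
    rw [Set.mem_singleton_iff] at hs
    subst hs
    exact h s (Subgroup.mem_zpowers s)
  · intro h s hs
    obtain ⟨n, rfl⟩ := Subgroup.mem_zpowers_iff.mp hs
    have h1 : Commute x g := h x rfl
    exact (h1.zpow_left n)

/-- Two Brauer pair indices with the same subgroup and the same transported block agree. -/
theorem pair_eq_of_castBlock_eq (a a' : Cfsg.BrauerPairIdx G) (K : Subgroup G)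
    (hc : Subgroup.centralizer ((a.1 : Subgroup G) : Set G) = K)
    (hc' : Subgroup.centralizer ((a'.1 : Subgroup G) : Set G) = K) (h1 : a.1 = a'.1)
    (h2 : castBlock hc a.2 = castBlock hc' a'.2) : a = a' := by
  obtain ⟨Q, f⟩ := a
  obtain ⟨Q', f'⟩ := a'
  have h1' : Q = Q' := h1
  subst h1'
  have h3 : f = f' := castBlock_injective hc h2
  rw [h3]

end cast

variable {G : Type u} [Group G] [Fintype G]

/-- The subsection `σ` is attached to the element `u` of the defect group `P`. -/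
def SubsecRel (p : ℕ) (M : Ideal Cfsg.AlgInt) (P : Subgroup G)
    (e : Set (Cfsg.IrrCharacter (Subgroup.centralizer (P : Set G)))) (u : G)
    (σ : Σ x : G, Set (Cfsg.IrrCharacter ↥(Subgroup.centralizer ({x} : Set G)))) : Prop :=
  ∃ (g : G) (f : Set (Cfsg.IrrCharacter
      ↥(Subgroup.centralizer ((Subgroup.zpowers u : Subgroup G) : Set G)))),
    Cfsg.SubpairLE p M (Subgroup.zpowers u) f P e ∧ g * u * g⁻¹ = σ.1 ∧
    ∃ hc : Subgroup.centralizer (((conjPair g ⟨Subgroup.zpowers u, f⟩).1 : Subgroup G) : Set G)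
        = Subgroup.centralizer ({σ.1} : Set G),
      σ.2 = castBlock hc (conjPair g ⟨Subgroup.zpowers u, f⟩).2

omit [Fintype G] in
theorem map_conj_zpowers (g u : G) :
    (Subgroup.zpowers u).map (MulAut.conj g).toMonoidHom = Subgroup.zpowers (g * u * g⁻¹) := by
  rw [MonoidHom.map_zpowers]
  rfl

/-- Every nontrivial element of `P` is attached to some subsection. -/
theorem exists_subsecRel [DecidableEq G] {p : ℕ} [Fact p.Prime] {M : Ideal Cfsg.AlgInt}
    (hM : Cfsg.IsPModular p M) {B : Set (Cfsg.IrrCharacter G)} {P : Subgroup G}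
    {e : Set (Cfsg.IrrCharacter (Subgroup.centralizer (P : Set G)))}
    (hmax : Cfsg.IsMaximalBrauerPair p M B P e)
    (X : Finset G)
    (hXrep : ∀ g : G, (∃ k : ℕ, orderOf g = p ^ k) → ∃! x, x ∈ X ∧ IsConj g x)
    (u : G) (hu : u ∈ P) (hu1 : u ≠ 1) :
    ∃ σ, σ ∈ (X.erase 1).sigma (indBlocks M B) ∧ SubsecRel p M P e u σ := by
  classical
  have hB : Cfsg.IsPBlock M B := hmax.1.2.1
  have hP : IsPGroup p P := hmax.1.1.1
  have hup : ∃ k : ℕ, orderOf u = p ^ k := by
    rw [exists_orderOf_eq_prime_pow_iff]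
    obtain ⟨k, hk⟩ := hP ⟨u, hu⟩
    exact ⟨k, by simpa using congrArg Subtype.val hk⟩
  obtain ⟨x, ⟨hxX, hconj⟩, -⟩ := hXrep u hup
  obtain ⟨g, hg⟩ := isConj_iff.mp hconj
  have hx1 : x ≠ 1 := by
    intro h
    apply hu1
    rw [h] at hg
    have h2 : u = g⁻¹ * (g * u * g⁻¹) * g := by group
    rw [h2, hg]; group
  obtain ⟨f, -, hle⟩ := exists_subpairLE hM P e hmax.1.1 (Subgroup.zpowers u)
    (Subgroup.zpowers_le.mpr hu)
  have hpair : Cfsg.IsBrauerPairOf p M B (Subgroup.zpowers u) f :=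
    (isBrauerPairOf_iff_of_reflTransGen hM hle B hB).mp hmax.1
  have hpair' := isBrauerPairOf_conj g hpair
  have hQ : (Subgroup.zpowers u).map (MulAut.conj g).toMonoidHom = Subgroup.zpowers x := by
    rw [map_conj_zpowers, hg]
  have hc : Subgroup.centralizer
      ((((Subgroup.zpowers u).map (MulAut.conj g).toMonoidHom : Subgroup G)) : Set G)
      = Subgroup.centralizer ({x} : Set G) := by
    rw [hQ]
    exact centralizer_zpowers_eq x
  have hPC : (Subgroup.zpowers u).map (MulAut.conj g).toMonoidHom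
      ≤ Subgroup.centralizer
        ((((Subgroup.zpowers u).map (MulAut.conj g).toMonoidHom : Subgroup G)) : Set G) := by
    rw [hc, hQ]
    exact Subgroup.zpowers_le.mpr (self_mem_centralizer_singleton x)
  have hind := Helper78.isInducedBlock_of_isBrauerPairOf hM _ hPC _ hpair'
  refine ⟨⟨x, castBlock hc (Cfsg.conjBlock (Subgroup.zpowers u) g f)⟩, ?_, ?_⟩
  · rw [Finset.mem_sigma]
    exact ⟨Finset.mem_erase.mpr ⟨hx1, hxX⟩,
      mem_indBlocks.mpr ((isInducedBlock_castBlock hc _ B).mpr hind)⟩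
  · exact ⟨g, f, hle, hg, hc, rfl⟩

/-- In a nilpotent block with abelian defect group `P`, a subsection is attached to at most one
element of `P`. -/
theorem subsecRel_unique {p : ℕ} [Fact p.Prime] {M : Ideal Cfsg.AlgInt}
    (hM : Cfsg.IsPModular p M) {B : Set (Cfsg.IrrCharacter G)}
    (hnil : Cfsg.IsNilpotentBlock p M B) {P : Subgroup G}
    {e : Set (Cfsg.IrrCharacter (Subgroup.centralizer (P : Set G)))}
    (hmax : Cfsg.IsMaximalBrauerPair p M B P e)
    (hPab : ∀ x ∈ P, ∀ y ∈ P, x * y = y * x)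
    {u v : G} (hu : u ∈ P)
    {σ : Σ x : G, Set (Cfsg.IrrCharacter ↥(Subgroup.centralizer ({x} : Set G)))}
    (h1 : SubsecRel p M P e u σ) (h2 : SubsecRel p M P e v σ) : u = v := by
  classical
  obtain ⟨g, f, hle, hg, hc, hb⟩ := h1
  obtain ⟨g', f', hle', hg', hc', hb'⟩ := h2
  have ha : conjPair g ⟨Subgroup.zpowers u, f⟩ = conjPair g' ⟨Subgroup.zpowers v, f'⟩ := by
    refine pair_eq_of_castBlock_eq _ _ _ hc hc' ?_ (hb.symm.trans hb')
    show (Subgroup.zpowers u).map (MulAut.conj g).toMonoidHom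
      = (Subgroup.zpowers v).map (MulAut.conj g').toMonoidHom
    rw [map_conj_zpowers, map_conj_zpowers, hg, hg']
  have hk : conjPair (g'⁻¹ * g) ⟨Subgroup.zpowers u, f⟩ = ⟨Subgroup.zpowers v, f'⟩ := by
    rw [conjPair_mul, ha, conjPair_inv_conjPair]
  have hg2 : Cfsg.SubpairLE p M ((Subgroup.zpowers u).map (MulAut.conj (g'⁻¹ * g)).toMonoidHom)
      (Cfsg.conjBlock (Subgroup.zpowers u) (g'⁻¹ * g) f) P e := by
    have h3 : Relation.ReflTransGen (Cfsg.NormalSubpairRel p M)
        (conjPair (g'⁻¹ * g) ⟨Subgroup.zpowers u, f⟩) ⟨P, e⟩ := by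
      rw [hk]
      exact hle'
    exact h3
  obtain ⟨y, hyP, hy⟩ := nil_fusion hM hnil hmax hle hg2
  have h4 := hy u (Subgroup.mem_zpowers u)
  have h5 : y * u * y⁻¹ = u := by
    rw [hPab y hyP u hu]; group
  rw [h5] at h4
  -- `g u g⁻¹ = g' u g'⁻¹`
  have h6 : g * u * g⁻¹ = g' * u * g'⁻¹ := by
    have h7 : g * u * g⁻¹ = g' * (g'⁻¹ * g * u * (g'⁻¹ * g)⁻¹) * g'⁻¹ := by group
    rw [h7, h4]
  rw [hg, ← hg'] at h6
  have h8 : v = g'⁻¹ * (g' * v * g'⁻¹) * g' := by group
  have h9 : u = g'⁻¹ * (g' * u * g'⁻¹) * g' := by group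
  rw [h8, h9, h6]

/-- **Counting subsections from below**: `|P| ≤ 1 + |S|` for a nilpotent block with abelian
defect group `P`. -/
theorem card_defect_le_card_subsections [DecidableEq G] {p : ℕ} [Fact p.Prime]
    {M : Ideal Cfsg.AlgInt} (hM : Cfsg.IsPModular p M) {B : Set (Cfsg.IrrCharacter G)}
    (hnil : Cfsg.IsNilpotentBlock p M B) {P : Subgroup G}
    {e : Set (Cfsg.IrrCharacter (Subgroup.centralizer (P : Set G)))}
    (hmax : Cfsg.IsMaximalBrauerPair p M B P e)
    (hPab : ∀ x ∈ P, ∀ y ∈ P, x * y = y * x)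
    (X : Finset G)
    (hXrep : ∀ g : G, (∃ k : ℕ, orderOf g = p ^ k) → ∃! x, x ∈ X ∧ IsConj g x) :
    Nat.card P ≤ 1 + ∑ x ∈ X.erase 1, (indBlocks M B x).card := by
  classical
  have hPF : Nat.card P = (Finset.univ.filter (fun u : G => u ∈ P)).card := by
    rw [← Fintype.card_subtype]
    exact Nat.card_eq_fintype_card
  have h := Finset.card_le_card_of_forall_subsingleton (SubsecRel p M P e)
    (s := (Finset.univ.filter (fun u : G => u ∈ P)).erase 1)
    (t := (X.erase 1).sigma (indBlocks M B))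
    (fun u hu => by
      rw [Finset.mem_erase, Finset.mem_filter] at hu
      exact exists_subsecRel hM hmax X hXrep u hu.2.2 hu.1)
    (fun σ _ u hu v hv => by
      have hu' := hu.1
      rw [Finset.mem_erase, Finset.mem_filter] at hu'
      exact subsecRel_unique hM hnil hmax hPab hu'.2.2 hu.2 hv.2)
  rw [Finset.card_sigma] at h
  have h2 := Finset.pred_card_le_card_erase (s := Finset.univ.filter (fun u : G => u ∈ P))
    (a := (1 : G))
  omega

/-- **Nilpotent blocks with abelian defect groups have exactly one irreducible Brauer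
character.** -/
theorem blockRank_eq_one_of_nilpotent_abelian {p : ℕ} [Fact p.Prime] {M : Ideal Cfsg.AlgInt}
    (hM : Cfsg.IsPModular p M) {B : Set (Cfsg.IrrCharacter G)}
    (hnil : Cfsg.IsNilpotentBlock p M B) {P : Subgroup G}
    {e : Set (Cfsg.IrrCharacter (Subgroup.centralizer (P : Set G)))}
    (hmax : Cfsg.IsMaximalBrauerPair p M B P e)
    (hPab : ∀ x ∈ P, ∀ y ∈ P, x * y = y * x) : Cfsg.blockRank p B = 1 := by
  classical
  have hp : p.Prime := Fact.out
  have hB : Cfsg.IsPBlock M B := hnil.1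
  obtain ⟨X, h1X, hX, hXrep⟩ := Helper82.exists_pElement_reps (G := G) p 1 ⟨0, by simp⟩
  obtain ⟨χ₀, hχ₀, h0⟩ := Helper16.exists_height_zero (p := p) hM.2.1 hB
  obtain ⟨m, hm, -, hmB⟩ := Helper73.exists_mult_of_height_zero hM hB hχ₀ h0
  have hA := rank_add_card_le_card_block hM hB X hX hXrep h1X
  have hBc := card_defect_le_card_subsections hM hnil hmax hPab X hXrep
  have hcardP : Nat.card P = p ^ Cfsg.blockDefect p B :=
    card_of_isDefectGroup hM hB (isDefectGroup_of_isMaximalBrauerPair hM B P e hmax)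
  have hC := card_block_le m hm (fun ψ hψ => (hmB ψ hψ).1)
  have hD := card_subsections_le hM hχ₀ h0 (m χ₀) (hm χ₀) X hX hXrep h1X
  have hpos := Helper82.blockRank_pos hp hχ₀
  rw [hcardP] at hBc
  obtain ⟨s, hs⟩ : ∃ s : ℕ, s = ∑ x ∈ X.erase 1, (indBlocks M B x).card := ⟨_, rfl⟩
  obtain ⟨q, hq⟩ : ∃ q : ℕ, q = p ^ Cfsg.blockDefect p B := ⟨_, rfl⟩
  rw [← hs] at hA hBc hD
  rw [← hq] at hBc hC hD
  have hn1 : m χ₀ ≤ 1 := by
    have : (q : ℤ) ≤ 1 + s := by exact_mod_cast hBc
    linarith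
  have hq0 : (0 : ℤ) ≤ q := Int.natCast_nonneg q
  have hC2 : (Nat.card B : ℤ) ≤ q := by
    have := mul_le_mul_of_nonneg_left hn1 hq0
    linarith
  have hA2 : (Cfsg.blockRank p B : ℤ) + s ≤ Nat.card B := by exact_mod_cast hA
  have hB2 : (q : ℤ) ≤ 1 + s := by exact_mod_cast hBc
  have : (Cfsg.blockRank p B : ℤ) ≤ 1 := by linarith
  have h3 : Cfsg.blockRank p B ≤ 1 := by exact_mod_cast this
  omega

end Cfsg.Agent.Helper77
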