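import Cfsg.Agent.Helper77.DefectTransfer

/-!
# Blocks of a subgroup `C` and of a normal subgroup `D` of `C` containing all `p`-regular elements

`D ≤ C` are subgroups of the finite group `G`, `C` normalizes `D`.

* `omega_eq_of_constituent`: if the irreducible character `ψ` of `D` occurs in the restriction of
  the irreducible character `ξ` of `C`, then `Ω_ξ` and `Ω_ψ` agree on `C`-invariant functions
  supported on `D`.
* `exists_constituent`, `exists_irr_over_sub`: constituents and characters above exist.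
* `sbc_blockOf_eq_sbc_orbitUnion`: if all `p`-regular elements of `C` lie in `D`, a block of `C`
  on which the orbit idempotent of a block `f` of `D` does not vanish has that idempotent.
* `exists_block_below`: a block of `C` has the orbit idempotent of some block of `D`.
-/

set_option autoImplicit false
set_option linter.style.haveILetI false
open Cfsg
open scoped ComplexConjugate

namespace Cfsg.Agent.Helper77

universe u

variable {G : Type u} [Group G]

/-- A sum over a subgroup `C` of a function vanishing off the smaller subgroup `D`. -/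
theorem sum_subgroup_eq_sum_of_le {C D : Subgroup G} [Fintype C] [Fintype D] (hDC : D ≤ C)
    (F : C → ℂ) (hF : ∀ c : C, (c : G) ∉ D → F c = 0) :
    ∑ c : C, F c = ∑ y : D, F (Subgroup.inclusion hDC y) := by
  classical
  letI : Fintype (D.subgroupOf C) := Fintype.ofFinite _
  rw [sum_eq_sum_subgroup_of_suppIn (D.subgroupOf C) F
    (fun c hc => hF c (fun h => hc (Subgroup.mem_subgroupOf.mpr h)))]
  exact Fintype.sum_equiv (Subgroup.subgroupOfEquivOfLe hDC).toEquiv _ _ (fun x => rfl)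

/-- The finite sum defining a central character value is `Ω`. -/
theorem finsum_eq_omega (K : Subgroup G) [Fintype K] (β : G → ℂ) (ψ : K → ℂ) :
    ∑ᶠ d : K, β d * ψ d / ψ 1 = Helper81.omega ψ (fun d : K => β d) := by
  rw [finsum_eq_sum_of_fintype]
  unfold Helper81.omega
  rw [Finset.sum_div]

variable [Fintype G]

/-- If `ψ` occurs in the restriction of `ξ` to `D`, then `Ω_ξ` and `Ω_ψ` agree on `C`-invariant
functions supported on `D`. -/
theorem omega_eq_of_constituent {C D : Subgroup G} [Fintype C] [Fintype D] (hDC : D ≤ C)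
    (ξ : Cfsg.IrrCharacter C) (ψ : Cfsg.IrrCharacter D) {a : G → ℂ}
    (haD : ∀ c ∈ C, c ∉ D → a c = 0) (haC : InvUnder C a)
    (hne : ∑ y : D, (ξ : C → ℂ) (Subgroup.inclusion hDC y) * conj ((ψ : D → ℂ) y) ≠ 0) :
    Helper81.omega (ξ : C → ℂ) (fun c : C => a c)
      = Helper81.omega (ψ : D → ℂ) (fun d : D => a d) := by
  classical
  have h1 : ∀ l : C, ∑ g : C, a g * (ξ : C → ℂ) (g * l)
      = Helper81.omega (ξ : C → ℂ) (fun c : C => a c) * (ξ : C → ℂ) l :=
    fun l => sum_mul_irr_mul ξ (isClassFunction_restrict haC) l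
  have h2 : ∀ l : D, ∑ g : D, a g * (ψ : D → ℂ) (g * l)
      = Helper81.omega (ψ : D → ℂ) (fun d : D => a d) * (ψ : D → ℂ) l :=
    fun l => sum_mul_irr_mul ψ (isClassFunction_restrict (haC.mono hDC)) l
  have h3 : ∀ l : D, ∑ y : D, a y * (ξ : C → ℂ) (Subgroup.inclusion hDC (y * l))
      = Helper81.omega (ξ : C → ℂ) (fun c : C => a c)
        * (ξ : C → ℂ) (Subgroup.inclusion hDC l) := by
    intro l
    rw [← h1 (Subgroup.inclusion hDC l)]
    symm
    refine (sum_subgroup_eq_sum_of_le hDC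
      (fun g : C => a g * (ξ : C → ℂ) (g * Subgroup.inclusion hDC l))
      (fun c hc => by rw [haD c c.2 hc, zero_mul])).trans ?_
    refine Finset.sum_congr rfl fun y _ => ?_
    rw [map_mul]
    rfl
  obtain ⟨I, hI⟩ : ∃ I : ℂ,
      I = ∑ y : D, (ξ : C → ℂ) (Subgroup.inclusion hDC y) * conj ((ψ : D → ℂ) y) := ⟨_, rfl⟩
  have hS1 : ∑ l : D, (∑ y : D, a y * (ξ : C → ℂ) (Subgroup.inclusion hDC (y * l)))
        * conj ((ψ : D → ℂ) l)
      = Helper81.omega (ξ : C → ℂ) (fun c : C => a c) * I := by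
    rw [hI, Finset.mul_sum]
    refine Finset.sum_congr rfl fun l _ => ?_
    rw [h3 l, mul_assoc]
  have hS2 : ∑ l : D, (∑ y : D, a y * (ξ : C → ℂ) (Subgroup.inclusion hDC (y * l)))
        * conj ((ψ : D → ℂ) l)
      = Helper81.omega (ψ : D → ℂ) (fun d : D => a d) * I := by
    simp only [Finset.sum_mul]
    rw [Finset.sum_comm]
    have h4 : ∀ y : D, ∑ l : D, a y * (ξ : C → ℂ) (Subgroup.inclusion hDC (y * l))
          * conj ((ψ : D → ℂ) l)
        = ∑ l' : D, a y * (ξ : C → ℂ) (Subgroup.inclusion hDC l')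
          * (ψ : D → ℂ) (y * l'⁻¹) := by
      intro y
      refine Fintype.sum_equiv (Equiv.mulLeft y) _ _ (fun l => ?_)
      show _ = a y * (ξ : C → ℂ) (Subgroup.inclusion hDC (y * l))
        * (ψ : D → ℂ) (y * (y * l)⁻¹)
      have e1 : y * (y * l)⁻¹ = y * l⁻¹ * y⁻¹ := by group
      rw [e1, Helper81.irr_conj, irr_inv]
    simp only [h4]
    rw [Finset.sum_comm, hI, Finset.mul_sum]
    refine Finset.sum_congr rfl fun l' _ => ?_
    have h5 : ∑ y : D, a y * (ξ : C → ℂ) (Subgroup.inclusion hDC l')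
          * (ψ : D → ℂ) (y * l'⁻¹)
        = (ξ : C → ℂ) (Subgroup.inclusion hDC l')
          * ∑ y : D, a y * (ψ : D → ℂ) (y * l'⁻¹) := by
      rw [Finset.mul_sum]
      refine Finset.sum_congr rfl fun y _ => ?_
      ring
    rw [h5, h2 l'⁻¹, irr_inv]
    ring
  have h6 : (Helper81.omega (ξ : C → ℂ) (fun c : C => a c)
      - Helper81.omega (ψ : D → ℂ) (fun d : D => a d)) * I = 0 := by
    rw [sub_mul, ← hS1, ← hS2, sub_self]
  rcases mul_eq_zero.mp h6 with h | h
  · exact sub_eq_zero.mp h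
  · rw [hI] at h
    exact absurd h hne

/-- The restriction of an irreducible character has an irreducible constituent. -/
theorem exists_constituent {C D : Subgroup G} [Fintype C] [Fintype D] (hDC : D ≤ C)
    (ξ : Cfsg.IrrCharacter C) :
    ∃ ψ : Cfsg.IrrCharacter D,
      ∑ y : D, (ξ : C → ℂ) (Subgroup.inclusion hDC y) * conj ((ψ : D → ℂ) y) ≠ 0 := by
  classical
  by_contra hcon
  push_neg at hcon
  letI : Fintype (Cfsg.IrrCharacter D) := Fintype.ofFinite _
  have h1 : ∀ y : D, Cfsg.blockCoeff (Set.univ : Set (Cfsg.IrrCharacter D)) y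
      = Helper81.deltaOne 1 y := fun y => congrFun blockCoeff_univ y
  have h2 : ∑ y : D, (ξ : C → ℂ) (Subgroup.inclusion hDC y) * Helper81.deltaOne 1 y
      = (ξ : C → ℂ) 1 := by
    rw [Finset.sum_eq_single (1 : D)]
    · have : Helper81.deltaOne 1 (1 : D) = 1 := by
        delta Helper81.deltaOne; exact if_pos rfl
      rw [this, mul_one, map_one]
    · intro y _ hy
      have : Helper81.deltaOne 1 y = 0 := by
        delta Helper81.deltaOne; exact if_neg hy
      rw [this, mul_zero]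
    · intro h; exact absurd (Finset.mem_univ _) h
  have h3 : ∑ y : D, (ξ : C → ℂ) (Subgroup.inclusion hDC y) * Helper81.deltaOne 1 y = 0 := by
    have h4 : ∀ y : D, (ξ : C → ℂ) (Subgroup.inclusion hDC y) * Helper81.deltaOne 1 y
        = (Nat.card D : ℂ)⁻¹ * ∑ χ : Cfsg.IrrCharacter D, (χ : D → ℂ) 1 *
          ((ξ : C → ℂ) (Subgroup.inclusion hDC y) * conj ((χ : D → ℂ) y)) := by
      intro y
      rw [← h1 y, blockCoeff_eq_sum]
      simp only [Set.mem_univ, if_true]
      rw [mul_left_comm, Finset.mul_sum]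
      congr 1
      refine Finset.sum_congr rfl fun χ _ => ?_
      rw [irr_inv]
      ring
    simp only [h4]
    rw [← Finset.mul_sum, Finset.sum_comm]
    simp only [← Finset.mul_sum, hcon, mul_zero, Finset.sum_const_zero]
  rw [h2] at h3
  exact Helper81.irr_one_ne_zero ξ h3

/-- Every irreducible character of `D` occurs in the restriction of an irreducible character of
`C`. -/
theorem exists_irr_over_sub {C D : Subgroup G} [Fintype C] [Fintype D] (hDC : D ≤ C)
    (ψ : Cfsg.IrrCharacter D) :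
    ∃ ξ : Cfsg.IrrCharacter C,
      ∑ y : D, (ξ : C → ℂ) (Subgroup.inclusion hDC y) * conj ((ψ : D → ℂ) y) ≠ 0 := by
  classical
  by_contra hcon
  push_neg at hcon
  letI : Fintype (Cfsg.IrrCharacter C) := Fintype.ofFinite _
  have h1 : ∀ c : C, Cfsg.blockCoeff (Set.univ : Set (Cfsg.IrrCharacter C)) c
      = Helper81.deltaOne 1 c := fun c => congrFun blockCoeff_univ c
  have h2 : ∑ y : D, Helper81.deltaOne 1 (Subgroup.inclusion hDC y) * (ψ : D → ℂ) y
      = (ψ : D → ℂ) 1 := by
    rw [Finset.sum_eq_single (1 : D)]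
    · have : Helper81.deltaOne 1 (Subgroup.inclusion hDC (1 : D)) = 1 := by
        rw [map_one]; delta Helper81.deltaOne; exact if_pos rfl
      rw [this, one_mul]
    · intro y _ hy
      have : Helper81.deltaOne 1 (Subgroup.inclusion hDC y) = 0 := by
        delta Helper81.deltaOne
        refine if_neg fun h => hy ?_
        have h' := congrArg (fun c : C => (c : G)) h
        exact Subtype.ext h'
      rw [this, zero_mul]
    · intro h; exact absurd (Finset.mem_univ _) h
  have h3 : ∑ y : D, Helper81.deltaOne 1 (Subgroup.inclusion hDC y) * (ψ : D → ℂ) y = 0 := by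
    have h4 : ∀ y : D, Helper81.deltaOne 1 (Subgroup.inclusion hDC y) * (ψ : D → ℂ) y
        = (Nat.card C : ℂ)⁻¹ * ∑ χ : Cfsg.IrrCharacter C, (χ : C → ℂ) 1 *
          conj ((χ : C → ℂ) (Subgroup.inclusion hDC y) * conj ((ψ : D → ℂ) y)) := by
      intro y
      rw [← h1 (Subgroup.inclusion hDC y), blockCoeff_eq_sum]
      simp only [Set.mem_univ, if_true]
      rw [mul_assoc, Finset.sum_mul]
      congr 1
      refine Finset.sum_congr rfl fun χ _ => ?_
      rw [irr_inv, map_mul, Complex.conj_conj]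
      ring
    simp only [h4]
    rw [← Finset.mul_sum, Finset.sum_comm]
    simp only [← Finset.mul_sum, ← map_sum, hcon, map_zero, mul_zero, Finset.sum_const_zero]
  rw [h2] at h3
  exact Helper81.irr_one_ne_zero ψ h3

/-- If all `p`-regular elements of `C` lie in the normal subgroup `D`, a block of `C` on which
the orbit idempotent of the block `f` of `D` does not vanish has that idempotent. -/
theorem sbc_blockOf_eq_sbc_orbitUnion {p : ℕ} [Fact p.Prime] {M : Ideal Cfsg.AlgInt}
    (hM : Cfsg.IsPModular p M) {C D : Subgroup G} [Fintype C] (hDC : D ≤ C)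
    (hCD : C ≤ Subgroup.normalizer (D : Set G))
    (hreg : ∀ c ∈ C, ¬ p ∣ orderOf c → c ∈ D)
    {f : Set (Cfsg.IrrCharacter D)} (hf : Cfsg.IsPBlock M f) (ξ : Cfsg.IrrCharacter C)
    (hξ : Helper81.omega (ξ : C → ℂ)
      (fun c : C => Cfsg.subgroupBlockCoeff D (orbitUnion hCD f) (c : G)) = 1) :
    Cfsg.subgroupBlockCoeff C (Cfsg.blockOf M (ξ : C → ℂ))
      = Cfsg.subgroupBlockCoeff D (orbitUnion hCD f) := by
  classical
  have hMm := hM.2.1
  haveI := hMm.isPrime
  have he : Cfsg.IsPBlock M (Cfsg.blockOf M (ξ : C → ℂ)) := ⟨ξ, rfl⟩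
  obtain ⟨U, hU⟩ : ∃ U : G → ℂ, U = Cfsg.subgroupBlockCoeff D (orbitUnion hCD f) := ⟨_, rfl⟩
  rw [← hU] at hξ ⊢
  have hUD : SuppIn D U := by rw [hU]; exact suppIn_sbc D _
  have hUC : SuppIn C U := fun x hx => hUD x (fun h => hx (hDC h))
  have hUinv : InvUnder C U := by
    rw [hU]
    exact invUnder_sbc_of_stabilizes D _ (fun x hx => stabilizesBlock_orbitUnion hCD f hx)
  have hUS : ∀ g, Cfsg.MemLocalRing M (U g) := by
    rw [hU]; exact sbc_orbitUnion_memLocalRing hMm hCD hf
  have hUid : Helper81.conv U U = U := by rw [hU]; exact conv_sbc_self D _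
  have hucl : Cfsg.IsClassFunction C (fun c : C => U c) := isClassFunction_restrict hUinv
  have huid : Helper81.conv (fun c : C => U c) (fun c : C => U c) = fun c : C => U c := by
    funext c
    rw [← conv_restrict C hUC U c, hUid]
  have h2 := conv_blockCoeff_blockOf_of_omega hMm hucl huid (fun c => hUS c) ξ hξ
  have hwC : SuppIn D (Cfsg.subgroupBlockCoeff C (Cfsg.blockOf M (ξ : C → ℂ))) := by
    intro x hx
    by_cases hxC : x ∈ C
    · rw [sbc_of_mem C _ hxC]
      apply blockCoeff_eq_zero_of_dvd_orderOf hM he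
      rw [Subgroup.orderOf_mk]
      by_contra h
      exact hx (hreg x hxC h)
    · exact sbc_of_not_mem C _ hxC
  have hle : Helper81.conv (Cfsg.subgroupBlockCoeff C (Cfsg.blockOf M (ξ : C → ℂ))) U
      = Cfsg.subgroupBlockCoeff C (Cfsg.blockOf M (ξ : C → ℂ)) := by
    funext x
    by_cases hx : x ∈ C
    · have h1 := conv_restrict C (suppIn_sbc C (Cfsg.blockOf M (ξ : C → ℂ))) U ⟨x, hx⟩
      rw [sbc_restrict, h2] at h1
      rw [sbc_of_mem C _ hx]
      exact h1
    · rw [sbc_of_not_mem C _ hx]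
      exact suppIn_conv (suppIn_sbc C _) hUC x hx
  have hne : Cfsg.subgroupBlockCoeff C (Cfsg.blockOf M (ξ : C → ℂ)) ≠ 0 := by
    intro h0
    have h3 := omega_blockCoeff_of_mem (Helper81.mem_blockOf_self (M := M) ξ)
    rw [← sbc_restrict C (Cfsg.blockOf M (ξ : C → ℂ)), h0] at h3
    have hz : (fun k : C => (0 : G → ℂ) (k : G)) = (0 : C → ℂ) := rfl
    rw [hz, Helper16.omega_zero] at h3
    exact zero_ne_one h3
  have key := eq_sbc_orbitUnion hMm hCD hf hwC
    ((invUnder_sbc_self C (Cfsg.blockOf M (ξ : C → ℂ))).mono hDC)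
    (invUnder_sbc_self C (Cfsg.blockOf M (ξ : C → ℂ)))
    (sbc_memLocalRing hMm C he) (conv_sbc_self C _) (by rw [← hU]; exact hle) hne
  rw [hU]
  exact key

/-- A block `e` of `C` with `Ω_e(β) ≡ 1` has the orbit idempotent of a block `f` of `D` with
`Ω_f(β) ≡ 1`. -/
theorem exists_block_below {p : ℕ} [Fact p.Prime] {M : Ideal Cfsg.AlgInt}
    (hM : Cfsg.IsPModular p M) {C D : Subgroup G} (hDC : D ≤ C)
    (hCD : C ≤ Subgroup.normalizer (D : Set G))
    (hreg : ∀ c ∈ C, ¬ p ∣ orderOf c → c ∈ D)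
    {e : Set (Cfsg.IrrCharacter C)} (he : Cfsg.IsPBlock M e) {β : G → ℂ}
    (hβD : ∀ c ∈ C, c ∉ D → β c = 0) (hβinv : InvUnder C β)
    (hβS : ∀ g, Cfsg.MemLocalRing M (β g))
    (hβe : ∀ ξ ∈ e, Cfsg.MemLocalIdeal M
      (∑ᶠ c : C, β c * (ξ : C → ℂ) c / (ξ : C → ℂ) 1 - 1)) :
    ∃ f : Set (Cfsg.IrrCharacter D), Cfsg.IsPBlock M f ∧
      (∀ ψ ∈ f, Cfsg.MemLocalIdeal M
        (∑ᶠ d : D, β d * (ψ : D → ℂ) d / (ψ : D → ℂ) 1 - 1)) ∧
      Cfsg.subgroupBlockCoeff C e = Cfsg.subgroupBlockCoeff D (orbitUnion hCD f) := by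
  classical
  have hMm := hM.2.1
  haveI := hMm.isPrime
  letI : Fintype C := Fintype.ofFinite _
  letI : Fintype D := Fintype.ofFinite _
  obtain ⟨ξ₀, hξ₀⟩ := Helper16.exists_mem_of_isPBlock hMm he
  obtain ⟨ψ₀, hψ₀⟩ := exists_constituent hDC ξ₀
  have hf : Cfsg.IsPBlock M (Cfsg.blockOf M (ψ₀ : D → ℂ)) := ⟨ψ₀, rfl⟩
  refine ⟨Cfsg.blockOf M (ψ₀ : D → ℂ), hf, fun ψ hψ => ?_, ?_⟩
  · rw [finsum_eq_omega]
    have h1 := Helper16.omega_sub_memLocalIdeal hMm ψ ψ₀ (Helper16.sameBlock_symm hψ)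
      (isClassFunction_restrict (hβinv.mono hDC)) (fun d => hβS d)
    have h2 := hβe ξ₀ hξ₀
    rw [finsum_eq_omega, omega_eq_of_constituent hDC ξ₀ ψ₀ hβD hβinv hψ₀] at h2
    have h3 := memLocalIdeal_add hMm h1 h2
    rwa [sub_add_sub_cancel] at h3
  · have hU1 : Helper81.omega (ξ₀ : C → ℂ) (fun c : C =>
        Cfsg.subgroupBlockCoeff D (orbitUnion hCD (Cfsg.blockOf M (ψ₀ : D → ℂ))) (c : G)) = 1 := by
      rw [omega_eq_of_constituent hDC ξ₀ ψ₀
        (fun c _ hc => sbc_of_not_mem D _ hc)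
        (invUnder_sbc_of_stabilizes D _ (fun x hx => stabilizesBlock_orbitUnion hCD _ hx)) hψ₀,
        sbc_restrict]
      exact omega_blockCoeff_of_mem (subset_orbitUnion hCD _ (Helper81.mem_blockOf_self ψ₀))
    have h4 := sbc_blockOf_eq_sbc_orbitUnion hM hDC hCD hreg hf ξ₀ hU1
    rw [← Helper16.eq_blockOf_of_mem hMm he hξ₀] at h4
    exact h4

end Cfsg.Agent.Helper77
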