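import Cfsg.Agent.Helper77.Cabanes1

/-!
# Nilpotency of a block of a subgroup `N`, stated inside the ambient group

For a block `c` of the subgroup `N` of `G`, the Brauer pairs of `c` live in the group `N`.
`NilIn p M N β` states the nilpotency condition with subgroups of `G`: for a `p`-subgroup `R ≤ N`
and a block `f` of `N ∩ C_G(R)` on which `β` (the idempotent of `c`) is `≡ 1`, the `p`-regular
elements of `N ∩ N_G(R)` stabilizing `f` centralize `R`.

* `isNilpotentBlock_iff_nilIn`: `c` is nilpotent iff `NilIn p M N (subgroupBlockCoeff N c)`.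
-/

set_option autoImplicit false
set_option linter.style.haveILetI false
open Cfsg

namespace Cfsg.Agent.Helper77

universe u

variable {G : Type u} [Group G]

/-- The nilpotency condition for the idempotent `β` of a block of `N`, inside `G`. -/
def NilIn (p : ℕ) (M : Ideal Cfsg.AlgInt) (N : Subgroup G) (β : G → ℂ) : Prop :=
  ∀ R : Subgroup G, R ≤ N → IsPGroup p R →
    ∀ f : Set (Cfsg.IrrCharacter ↥(N ⊓ Subgroup.centralizer (R : Set G))), Cfsg.IsPBlock M f →
      (∀ ψ ∈ f, Cfsg.MemLocalIdeal M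
        (∑ᶠ d : ↥(N ⊓ Subgroup.centralizer (R : Set G)),
          β d * (ψ : ↥(N ⊓ Subgroup.centralizer (R : Set G)) → ℂ) d /
            (ψ : ↥(N ⊓ Subgroup.centralizer (R : Set G)) → ℂ) 1 - 1)) →
      ∀ x ∈ N, x ∈ Subgroup.normalizer (R : Set G) →
        Cfsg.StabilizesBlock (N ⊓ Subgroup.centralizer (R : Set G)) f x → Cfsg.IsPRegular p x →
          x ∈ Subgroup.centralizer (R : Set G)

/-- The centralizer in `N` of the subgroup `Q'` of `N`, as the subgroup `N ∩ C_G(R)` of `G`. -/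
def centInEquiv (N : Subgroup G) (Q' : Subgroup N) (R : Subgroup G) (hRN : R ≤ N)
    (hQR : ∀ n : N, n ∈ Q' ↔ (n : G) ∈ R) :
    ↥(N ⊓ Subgroup.centralizer (R : Set G)) ≃* ↥(Subgroup.centralizer (Q' : Set N)) where
  toFun d := ⟨⟨(d : G), d.2.1⟩, by
    rw [Subgroup.mem_centralizer_iff]
    intro q hq
    apply Subtype.ext
    exact (Subgroup.mem_centralizer_iff.mp d.2.2) (q : G) ((hQR q).mp hq)⟩
  invFun c := ⟨((c : N) : G), ⟨(c : N).2, by
    show ((c : N) : G) ∈ Subgroup.centralizer (R : Set G)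
    rw [Subgroup.mem_centralizer_iff]
    intro r hr
    have h1 := (Subgroup.mem_centralizer_iff.mp c.2) ⟨r, hRN hr⟩ ((hQR ⟨r, hRN hr⟩).mpr hr)
    exact congrArg Subtype.val h1⟩⟩
  left_inv d := rfl
  right_inv c := rfl
  map_mul' a b := rfl

theorem centInEquiv_coe (N : Subgroup G) (Q' : Subgroup N) (R : Subgroup G) (hRN : R ≤ N)
    (hQR : ∀ n : N, n ∈ Q' ↔ (n : G) ∈ R) (d : ↥(N ⊓ Subgroup.centralizer (R : Set G))) :
    (((centInEquiv N Q' R hRN hQR d : ↥(Subgroup.centralizer (Q' : Set N))) : N) : G) = (d : G) :=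
  rfl

theorem centInEquiv_symm_coe (N : Subgroup G) (Q' : Subgroup N) (R : Subgroup G) (hRN : R ≤ N)
    (hQR : ∀ n : N, n ∈ Q' ↔ (n : G) ∈ R) (c : ↥(Subgroup.centralizer (Q' : Set N))) :
    (((centInEquiv N Q' R hRN hQR).symm c : ↥(N ⊓ Subgroup.centralizer (R : Set G))) : G)
      = ((c : N) : G) := rfl

/-- The Brauer-pair sum of a block of `N`, computed in `G`. -/
theorem finsum_centInEquiv (N : Subgroup G) (c : Set (Cfsg.IrrCharacter N)) (Q' : Subgroup N)
    (R : Subgroup G) (hRN : R ≤ N) (hQR : ∀ n : N, n ∈ Q' ↔ (n : G) ∈ R)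
    (ξ : ↥(Subgroup.centralizer (Q' : Set N)) → ℂ) :
    ∑ᶠ d : ↥(N ⊓ Subgroup.centralizer (R : Set G)),
        Cfsg.subgroupBlockCoeff N c (d : G) * ξ (centInEquiv N Q' R hRN hQR d) / ξ 1
      = Cfsg.brauerOmega Q' (Cfsg.blockCoeff c) ξ := by
  unfold Cfsg.brauerOmega
  rw [← finsum_comp_equiv (centInEquiv N Q' R hRN hQR).toEquiv]
  refine finsum_congr fun d => ?_
  rw [sbc_of_mem N c d.2.1]
  rfl

theorem mem_normalizer_sub_iff (N : Subgroup G) (Q' : Subgroup N) (R : Subgroup G) (hRN : R ≤ N)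
    (hQR : ∀ n : N, n ∈ Q' ↔ (n : G) ∈ R) (x : N) :
    x ∈ Subgroup.normalizer (Q' : Set N) ↔ (x : G) ∈ Subgroup.normalizer (R : Set G) := by
  rw [Subgroup.mem_normalizer_iff, Subgroup.mem_normalizer_iff]
  constructor
  · intro h g
    constructor
    · intro hg
      have h1 := (h ⟨g, hRN hg⟩).mp ((hQR _).mpr hg)
      exact (hQR _).mp h1
    · intro hg
      have hgN : g ∈ N := by
        have h2 := N.mul_mem (N.mul_mem (N.inv_mem x.2) (hRN hg)) x.2
        have e : (x : G)⁻¹ * ((x : G) * g * (x : G)⁻¹) * (x : G) = g := by group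
        rwa [e] at h2
      have h1 := (h ⟨g, hgN⟩).mpr ((hQR _).mpr hg)
      exact (hQR _).mp h1
  · intro h n
    rw [hQR, hQR]
    exact h (n : G)

theorem mem_centralizer_sub_iff (N : Subgroup G) (Q' : Subgroup N) (R : Subgroup G) (hRN : R ≤ N)
    (hQR : ∀ n : N, n ∈ Q' ↔ (n : G) ∈ R) (x : N) :
    x ∈ Subgroup.centralizer (Q' : Set N) ↔ (x : G) ∈ Subgroup.centralizer (R : Set G) := by
  rw [Subgroup.mem_centralizer_iff, Subgroup.mem_centralizer_iff]
  constructor
  · intro h r hr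
    exact congrArg Subtype.val (h ⟨r, hRN hr⟩ ((hQR _).mpr hr))
  · intro h q hq
    exact Subtype.ext (h (q : G) ((hQR q).mp hq))

theorem isPRegular_coe_iff (p : ℕ) (N : Subgroup G) (x : N) :
    Cfsg.IsPRegular p x ↔ Cfsg.IsPRegular p (x : G) := by
  unfold Cfsg.IsPRegular
  rw [Subgroup.orderOf_coe]

/-- Stabilization of a block of `C_N(Q')` by an element of `N`, inside `G`. -/
theorem stabilizesBlock_centInEquiv (N : Subgroup G) (Q' : Subgroup N) (R : Subgroup G)
    (hRN : R ≤ N) (hQR : ∀ n : N, n ∈ Q' ↔ (n : G) ∈ R)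
    (e' : Set (Cfsg.IrrCharacter ↥(Subgroup.centralizer (Q' : Set N)))) (x : N)
    (hx : x ∈ Subgroup.normalizer (Q' : Set N)) :
    Cfsg.StabilizesBlock (Subgroup.centralizer (Q' : Set N)) e' x ↔
      Cfsg.StabilizesBlock (N ⊓ Subgroup.centralizer (R : Set G))
        (Helper75.irrComp (centInEquiv N Q' R hRN hQR) '' e') (x : G) := by
  have hxR : (x : G) ∈ Subgroup.normalizer (R : Set G) :=
    (mem_normalizer_sub_iff N Q' R hRN hQR x).mp hx
  constructor
  · intro h
    refine ⟨?_, ?_⟩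
    · have hxC := Helper75.normalizer_le_normalizer_centralizer' R hxR
      rw [Subgroup.mem_normalizer_iff] at hxC ⊢
      intro g
      rw [Subgroup.mem_inf, Subgroup.mem_inf, ← hxC g]
      have hN : g ∈ N ↔ (x : G) * g * (x : G)⁻¹ ∈ N := by
        constructor
        · intro hg
          exact N.mul_mem (N.mul_mem x.2 hg) (N.inv_mem x.2)
        · intro hg
          have h2 := N.mul_mem (N.mul_mem (N.inv_mem x.2) hg) x.2
          have e : (x : G)⁻¹ * ((x : G) * g * (x : G)⁻¹) * (x : G) = g := by group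
          rwa [e] at h2
      rw [hN]
    · rintro ψ ⟨ξ, hξ, rfl⟩
      obtain ⟨ξ', hξ', hconj⟩ := h.2 ξ hξ
      refine ⟨Helper75.irrComp (centInEquiv N Q' R hRN hQR) ξ', ⟨ξ', hξ', rfl⟩, ?_⟩
      intro k k' hk
      exact hconj (centInEquiv N Q' R hRN hQR k) (centInEquiv N Q' R hRN hQR k')
        (Subtype.ext hk)
  · intro h
    refine ⟨Helper75.normalizer_le_normalizer_centralizer' Q' hx, ?_⟩
    intro ξ hξ
    obtain ⟨ψ', ⟨ξ', hξ', rfl⟩, hconj⟩ :=
      h.2 (Helper75.irrComp (centInEquiv N Q' R hRN hQR) ξ) ⟨ξ, hξ, rfl⟩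
    refine ⟨ξ', hξ', ?_⟩
    intro k k' hk
    have h1 := hconj ((centInEquiv N Q' R hRN hQR).symm k) ((centInEquiv N Q' R hRN hQR).symm k')
      (congrArg Subtype.val hk)
    rw [Helper75.irrComp_apply, Helper75.irrComp_apply, MulEquiv.apply_symm_apply,
      MulEquiv.apply_symm_apply] at h1
    exact h1

/-- **Nilpotency of a block of `N`, inside `G`.** -/
theorem isNilpotentBlock_iff_nilIn {p : ℕ} {M : Ideal Cfsg.AlgInt} (N : Subgroup G)
    (c : Set (Cfsg.IrrCharacter N)) (hc : Cfsg.IsPBlock M c) :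
    Cfsg.IsNilpotentBlock p M c ↔ NilIn p M N (Cfsg.subgroupBlockCoeff N c) := by
  constructor
  · intro hnil
    unfold NilIn
    intro R hRN hRp f hf hfc x hxN hxR hxf hxreg
    obtain ⟨Q', hQ'⟩ : ∃ Q' : Subgroup N, Q' = R.subgroupOf N := ⟨_, rfl⟩
    have hQR : ∀ n : N, n ∈ Q' ↔ (n : G) ∈ R := fun n => by
      rw [hQ']; exact Subgroup.mem_subgroupOf
    have hxQ : (⟨x, hxN⟩ : N) ∈ Subgroup.normalizer (Q' : Set N) :=
      (mem_normalizer_sub_iff N Q' R hRN hQR ⟨x, hxN⟩).mpr hxR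
    have himg := Helper75.image_irrComp_image_symm (centInEquiv N Q' R hRN hQR) f
    have hpair : Cfsg.IsBrauerPairOf p M c Q'
        (Helper75.irrComp (centInEquiv N Q' R hRN hQR).symm '' f) := by
      refine ⟨⟨?_, Helper75.isPBlock_image_irrComp _ hf⟩, hc, ?_⟩
      · rw [hQ']; exact hRp.comap_subtype
      · rintro ξ ⟨ψ, hψ, rfl⟩
        rw [← finsum_centInEquiv N c Q' R hRN hQR]
        have h1 := hfc ψ hψ
        have e : ∑ᶠ d : ↥(N ⊓ Subgroup.centralizer (R : Set G)),
            Cfsg.subgroupBlockCoeff N c (d : G) *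
              (Helper75.irrComp (centInEquiv N Q' R hRN hQR).symm ψ :
                ↥(Subgroup.centralizer (Q' : Set N)) → ℂ)
                (centInEquiv N Q' R hRN hQR d) /
              (Helper75.irrComp (centInEquiv N Q' R hRN hQR).symm ψ :
                ↥(Subgroup.centralizer (Q' : Set N)) → ℂ) 1
            = ∑ᶠ d : ↥(N ⊓ Subgroup.centralizer (R : Set G)),
              Cfsg.subgroupBlockCoeff N c (d : G) * (ψ : ↥(N ⊓ Subgroup.centralizer (R : Set G)) → ℂ) d /
                (ψ : ↥(N ⊓ Subgroup.centralizer (R : Set G)) → ℂ) 1 := by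
          refine finsum_congr fun d => ?_
          rw [Helper75.irrComp_apply, Helper75.irrComp_apply, MulEquiv.symm_apply_apply, map_one]
        rw [e]
        exact h1
    have hst : Cfsg.StabilizesBlock (Subgroup.centralizer (Q' : Set N))
        (Helper75.irrComp (centInEquiv N Q' R hRN hQR).symm '' f) (⟨x, hxN⟩ : N) := by
      rw [stabilizesBlock_centInEquiv N Q' R hRN hQR _ ⟨x, hxN⟩ hxQ, himg]
      exact hxf
    have h := hnil.2 Q' _ hpair ⟨x, hxN⟩ hxQ hst
      ((isPRegular_coe_iff p N ⟨x, hxN⟩).mpr hxreg)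
    exact (mem_centralizer_sub_iff N Q' R hRN hQR ⟨x, hxN⟩).mp h
  · intro hN
    unfold NilIn at hN
    refine ⟨hc, fun Q' e' hpair x hxQ hxe hxreg => ?_⟩
    obtain ⟨R, hR⟩ : ∃ R : Subgroup G, R = Q'.map N.subtype := ⟨_, rfl⟩
    have hRN : R ≤ N := by
      rw [hR]
      rintro _ ⟨y, -, rfl⟩
      exact y.2
    have hQR : ∀ n : N, n ∈ Q' ↔ (n : G) ∈ R := by
      intro n
      rw [hR]
      constructor
      · intro hn
        exact ⟨n, hn, rfl⟩
      · rintro ⟨y, hy, hyn⟩
        have : y = n := Subtype.ext hyn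
        rwa [← this]
    have hRp : IsPGroup p R := by rw [hR]; exact hpair.1.1.map _
    have hxR := (mem_normalizer_sub_iff N Q' R hRN hQR x).mp hxQ
    have hst := (stabilizesBlock_centInEquiv N Q' R hRN hQR e' x hxQ).mp hxe
    have h := hN R hRN hRp (Helper75.irrComp (centInEquiv N Q' R hRN hQR) '' e')
      (Helper75.isPBlock_image_irrComp _ hpair.1.2) (by
        rintro ψ ⟨ξ, hξ, rfl⟩
        have h1 := hpair.2.2 ξ hξ
        rw [← finsum_centInEquiv N c Q' R hRN hQR] at h1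
        have e : ∑ᶠ d : ↥(N ⊓ Subgroup.centralizer (R : Set G)),
            Cfsg.subgroupBlockCoeff N c (d : G) *
              (Helper75.irrComp (centInEquiv N Q' R hRN hQR) ξ :
                ↥(N ⊓ Subgroup.centralizer (R : Set G)) → ℂ) d /
              (Helper75.irrComp (centInEquiv N Q' R hRN hQR) ξ :
                ↥(N ⊓ Subgroup.centralizer (R : Set G)) → ℂ) 1
            = ∑ᶠ d : ↥(N ⊓ Subgroup.centralizer (R : Set G)),
              Cfsg.subgroupBlockCoeff N c (d : G) *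
                (ξ : ↥(Subgroup.centralizer (Q' : Set N)) → ℂ) (centInEquiv N Q' R hRN hQR d) /
                  (ξ : ↥(Subgroup.centralizer (Q' : Set N)) → ℂ) 1 := by
          refine finsum_congr fun d => ?_
          rw [Helper75.irrComp_apply, Helper75.irrComp_apply, map_one]
        rw [e]
        exact h1) (x : G) x.2 hxR hst ((isPRegular_coe_iff p N x).mp hxreg)
    exact (mem_centralizer_sub_iff N Q' R hRN hQR x).mpr h

end Cfsg.Agent.Helper77
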