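import Cfsg.Agent.Helper77.Cabanes2

/-!
# Blocks of a normal subgroup of `p`-power index: nilpotency goes up and down

`N ⊴ G` has `p`-power index, `c` is a `G`-stable block of `N` and `B` is the block of `G` with
the same idempotent.

* `nilIn_of_isNilpotentBlock`: if `B` is nilpotent then `c` is (in the form `NilIn`).
* `centralizes_of_prime_pow`, `isNilpotentBlock_of_nilIn`: if `c` is nilpotent then `B` is.
-/

set_option autoImplicit false
set_option linter.style.haveILetI false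
open Cfsg

namespace Cfsg.Agent.Helper77

universe u

variable {G : Type u} [Group G]

theorem image_conjIrr_mul (K : Subgroup G) (g h : Subgroup.normalizer (K : Set G))
    (f : Set (Cfsg.IrrCharacter K)) :
    conjIrr K (g * h) '' f = conjIrr K g '' (conjIrr K h '' f) := by
  rw [Set.image_image]
  exact Set.image_congr fun χ _ => conjIrr_mul K g h χ

theorem image_conjIrr_one (K : Subgroup G) (f : Set (Cfsg.IrrCharacter K)) :
    conjIrr K 1 '' f = f := by
  have : conjIrr K 1 = id := funext (conjIrr_one K)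
  rw [this, Set.image_id]

theorem stabilizesBlock_pow (K : Subgroup G) (f : Set (Cfsg.IrrCharacter K)) {g : G}
    (h : Cfsg.StabilizesBlock K f g) (n : ℕ) : Cfsg.StabilizesBlock K f (g ^ n) := by
  induction n with
  | zero =>
    rw [pow_zero]
    exact (stabilizesBlock_iff K f 1).mpr (fun χ hχ => by rw [conjIrr_one]; exact hχ)
  | succ n ih =>
    rw [pow_succ]
    exact (stabilizesBlock_iff K f (⟨g ^ n, ih.1⟩ * ⟨g, h.1⟩)).mpr (fun χ hχ => by
      rw [conjIrr_mul]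
      exact (stabilizesBlock_iff K f ⟨g ^ n, ih.1⟩).mp ih _
        ((stabilizesBlock_iff K f ⟨g, h.1⟩).mp h χ hχ))

/-- `p`-regular elements lie in a normal subgroup of `p`-power index. -/
theorem mem_of_pregular_of_index [Finite G] {p : ℕ} [Fact p.Prime] (N : Subgroup G) [N.Normal]
    (hN : ∃ k : ℕ, N.index = p ^ k) {g : G} (hg : ¬ p ∣ orderOf g) : g ∈ N := by
  obtain ⟨k, hk⟩ := hN
  have h1 : orderOf (QuotientGroup.mk' N g) ∣ orderOf g := orderOf_map_dvd _ g
  have h2 : orderOf (QuotientGroup.mk' N g) ∣ p ^ k := by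
    rw [← hk, Subgroup.index_eq_card]
    exact orderOf_dvd_natCard _
  obtain ⟨j, -, hj⟩ := (Nat.dvd_prime_pow (Fact.out)).mp h2
  have hj0 : j = 0 := by
    by_contra h
    apply hg
    have h3 : p ∣ orderOf (QuotientGroup.mk' N g) := by rw [hj]; exact dvd_pow_self p h
    exact h3.trans h1
  rw [hj0, pow_zero, orderOf_eq_one_iff] at hj
  exact (QuotientGroup.eq_one_iff g).mp hj

variable [Fintype G]

/-- **Going down.**  If `B` is nilpotent then so is `c`. -/
theorem nilIn_of_isNilpotentBlock {p : ℕ} [Fact p.Prime] {M : Ideal Cfsg.AlgInt}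
    (hM : Cfsg.IsPModular p M) (N : Subgroup G) [N.Normal] (hN : ∃ k : ℕ, N.index = p ^ k)
    (c : Set (Cfsg.IrrCharacter N)) (hc : Cfsg.IsPBlock M c)
    (hst : ∀ x : G, Cfsg.StabilizesBlock N c x) (B : Set (Cfsg.IrrCharacter G))
    (hBc : ∀ g : G, Cfsg.blockCoeff B g = Cfsg.subgroupBlockCoeff N c g)
    (hnil : Cfsg.IsNilpotentBlock p M B) : NilIn p M N (Cfsg.subgroupBlockCoeff N c) := by
  classical
  have hMm := hM.2.1
  haveI := hMm.isPrime
  unfold NilIn
  intro R hRN hRp f hf hfc x hxN hxR hxf hxreg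
  letI : Fintype ↥(Subgroup.centralizer (R : Set G)) := Fintype.ofFinite _
  letI : Fintype ↥(N ⊓ Subgroup.centralizer (R : Set G)) := Fintype.ofFinite _
  have hβinv : InvUnder ⊤ (Cfsg.subgroupBlockCoeff N c) :=
    invUnder_sbc_of_stabilizes N c (fun y _ => hst y)
  have hβS : ∀ g, Cfsg.MemLocalRing M (Cfsg.subgroupBlockCoeff N c g) :=
    sbc_memLocalRing hMm N hc
  have hDC : (N ⊓ Subgroup.centralizer (R : Set G)) ≤ (Subgroup.centralizer (R : Set G)) := inf_le_right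
  have hCD : (Subgroup.centralizer (R : Set G)) ≤ Subgroup.normalizer (((N ⊓ Subgroup.centralizer (R : Set G)) : Subgroup G) : Set G) := by
    intro y hy
    apply mem_normalizer_inf
    · rw [Subgroup.normalizer_eq_top]; exact Subgroup.mem_top y
    · exact Subgroup.le_normalizer hy
  have hreg : ∀ y ∈ (Subgroup.centralizer (R : Set G)), ¬ p ∣ orderOf y → y ∈ (N ⊓ Subgroup.centralizer (R : Set G)) := fun y hy hyp =>
    Subgroup.mem_inf.mpr ⟨mem_of_pregular_of_index N hN hyp, hy⟩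
  have hβD : ∀ y ∈ (Subgroup.centralizer (R : Set G)), y ∉ (N ⊓ Subgroup.centralizer (R : Set G)) → Cfsg.subgroupBlockCoeff N c y = 0 := fun y hy hyD =>
    sbc_of_not_mem N c (fun h => hyD (Subgroup.mem_inf.mpr ⟨h, hy⟩))
  have hβC : InvUnder (Subgroup.centralizer (R : Set G)) (Cfsg.subgroupBlockCoeff N c) := hβinv.mono le_top
  obtain ⟨ψ, hψ⟩ := Helper16.exists_mem_of_isPBlock hMm hf
  obtain ⟨ξ, hξ⟩ := exists_irr_over_sub hDC ψ
  have hpair : Cfsg.IsBrauerPairOf p M B R (Cfsg.blockOf M (ξ : ↥(Subgroup.centralizer (R : Set G)) → ℂ)) := by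
    refine ⟨⟨hRp, ⟨ξ, rfl⟩⟩, hnil.1, fun ξ' hξ' => ?_⟩
    rw [brauerOmega_eq_restrict]
    have e1 : (fun y : ↥(Subgroup.centralizer (R : Set G)) => Cfsg.blockCoeff B (y : G))
        = fun y : ↥(Subgroup.centralizer (R : Set G)) => Cfsg.subgroupBlockCoeff N c (y : G) := funext fun y => hBc y
    rw [e1]
    have h1 := Helper16.omega_sub_memLocalIdeal hMm ξ' ξ (Helper16.sameBlock_symm hξ')
      (isClassFunction_restrict hβC) (fun y => hβS y)
    have h2 := hfc ψ hψ
    rw [finsum_eq_omega, ← omega_eq_of_constituent hDC ξ ψ hβD hβC hξ] at h2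
    have h3 := memLocalIdeal_add hMm h1 h2
    rwa [sub_add_sub_cancel] at h3
  have hxC : x ∈ Subgroup.normalizer (((Subgroup.centralizer (R : Set G)) : Subgroup G) : Set G) :=
    Helper75.normalizer_le_normalizer_centralizer' R hxR
  have hxD : x ∈ Subgroup.normalizer (((N ⊓ Subgroup.centralizer (R : Set G)) : Subgroup G) : Set G) := hxf.1
  have hU1 : Helper81.omega (ξ : ↥(Subgroup.centralizer (R : Set G)) → ℂ) (fun y : ↥(Subgroup.centralizer (R : Set G)) =>
      Cfsg.subgroupBlockCoeff (N ⊓ Subgroup.centralizer (R : Set G)) (orbitUnion hCD f) (y : G)) = 1 := by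
    rw [omega_eq_of_constituent hDC ξ ψ (fun y _ hy => sbc_of_not_mem (N ⊓ Subgroup.centralizer (R : Set G)) _ hy)
      (invUnder_sbc_of_stabilizes (N ⊓ Subgroup.centralizer (R : Set G)) _ (fun y hy => stabilizesBlock_orbitUnion hCD f hy)) hξ,
      sbc_restrict]
    exact omega_blockCoeff_of_mem (subset_orbitUnion hCD f hψ)
  have hUe := sbc_blockOf_eq_sbc_orbitUnion hM hDC hCD hreg hf ξ hU1
  have hxW : conjIrr (N ⊓ Subgroup.centralizer (R : Set G)) ⟨x, hxD⟩ '' orbitUnion hCD f = orbitUnion hCD f := by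
    apply image_conjIrr_eq_of_stabilizes
    rintro ψ' ⟨y, hy⟩
    have hy' : x * (y : G) * x⁻¹ ∈ (Subgroup.centralizer (R : Set G)) := (Subgroup.mem_normalizer_iff.mp hxC (y : G)).mp y.2
    refine ⟨⟨x * (y : G) * x⁻¹, hy'⟩, ?_⟩
    have e2 : Subgroup.inclusion hCD ⟨x * (y : G) * x⁻¹, hy'⟩
          * (⟨x, hxD⟩ : Subgroup.normalizer (((N ⊓ Subgroup.centralizer (R : Set G)) : Subgroup G) : Set G))
        = ⟨x, hxD⟩ * Subgroup.inclusion hCD y := by
      apply Subtype.ext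
      show x * (y : G) * x⁻¹ * x = x * (y : G)
      group
    rw [← conjIrr_mul, e2, conjIrr_mul]
    exact (stabilizesBlock_iff (N ⊓ Subgroup.centralizer (R : Set G)) f ⟨x, hxD⟩).mp hxf _ hy
  have hste : Cfsg.StabilizesBlock (Subgroup.centralizer (R : Set G)) (Cfsg.blockOf M (ξ : ↥(Subgroup.centralizer (R : Set G)) → ℂ)) x := by
    rw [← image_conjIrr_eq_iff (Subgroup.centralizer (R : Set G)) _ ⟨x, hxC⟩]
    apply eq_of_blockCoeff_eq
    funext t'
    have ht : x⁻¹ * (t' : G) * x ∈ (Subgroup.centralizer (R : Set G)) :=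
      (Subgroup.mem_normalizer_iff.mp hxC (x⁻¹ * (t' : G) * x)).mpr (by
        rw [show x * (x⁻¹ * (t' : G) * x) * x⁻¹ = (t' : G) by group]; exact t'.2)
    have ht' : (t' : G) = x * (x⁻¹ * (t' : G) * x) * x⁻¹ := by group
    rw [blockCoeff_image_conjIrr (Subgroup.centralizer (R : Set G)) ⟨x, hxC⟩ _ ⟨x⁻¹ * (t' : G) * x, ht⟩ t' ht']
    have h6 : Cfsg.blockCoeff (Cfsg.blockOf M (ξ : ↥(Subgroup.centralizer (R : Set G)) → ℂ)) t'
        = Cfsg.subgroupBlockCoeff (Subgroup.centralizer (R : Set G)) (Cfsg.blockOf M (ξ : ↥(Subgroup.centralizer (R : Set G)) → ℂ)) (t' : G) :=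
      (sbc_of_mem (Subgroup.centralizer (R : Set G)) _ t'.2).symm
    rw [h6, ← sbc_of_mem (Subgroup.centralizer (R : Set G)) _ ht, hUe]
    have h5 := subgroupBlockCoeff_image_conjIrr (N ⊓ Subgroup.centralizer (R : Set G)) ⟨x, hxD⟩ (orbitUnion hCD f)
      (x⁻¹ * (t' : G) * x)
    rw [hxW] at h5
    rw [← h5]
    congr 1
    group
  exact hnil.2 R _ hpair x hxR hste hxreg

/-- **Going up, for elements of prime power order.** -/
theorem centralizes_of_prime_pow {p : ℕ} [Fact p.Prime] {M : Ideal Cfsg.AlgInt}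
    (hM : Cfsg.IsPModular p M) (N : Subgroup G) [N.Normal] (hN : ∃ k : ℕ, N.index = p ^ k)
    (c : Set (Cfsg.IrrCharacter N)) (hc : Cfsg.IsPBlock M c)
    (hst : ∀ x : G, Cfsg.StabilizesBlock N c x) (B : Set (Cfsg.IrrCharacter G))
    (hB : Cfsg.IsPBlock M B)
    (hBc : ∀ g : G, Cfsg.blockCoeff B g = Cfsg.subgroupBlockCoeff N c g)
    (hcn : NilIn p M N (Cfsg.subgroupBlockCoeff N c))
    (R : Subgroup G) (e : Set (Cfsg.IrrCharacter (Subgroup.centralizer (R : Set G))))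
    (hRe : Cfsg.IsBrauerPairOf p M B R e) (x : G) (hxR : x ∈ Subgroup.normalizer (R : Set G))
    (hxe : Cfsg.StabilizesBlock (Subgroup.centralizer (R : Set G)) e x)
    (q : ℕ) [Fact q.Prime] (hqp : q ≠ p) (m : ℕ) (hxq : x ^ q ^ m = 1) :
    x ∈ Subgroup.centralizer (R : Set G) := by
  classical
  have hMm := hM.2.1
  haveI := hMm.isPrime
  have hp : p.Prime := Fact.out
  have hq : q.Prime := Fact.out
  unfold NilIn at hcn
  letI : Fintype ↥(Subgroup.centralizer (R : Set G)) := Fintype.ofFinite _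
  letI : Fintype ↥(Subgroup.centralizer ((R ⊓ N : Subgroup G) : Set G)) := Fintype.ofFinite _
  letI : Fintype ↥(N ⊓ Subgroup.centralizer ((R ⊓ N : Subgroup G) : Set G)) := Fintype.ofFinite _
  have hRp : IsPGroup p R := hRe.1.1
  have hxreg : ¬ p ∣ orderOf x := by
    intro h
    have h1 : orderOf x ∣ q ^ m := orderOf_dvd_of_pow_eq_one hxq
    have h3 := hp.dvd_of_dvd_pow (h.trans h1)
    exact hqp ((Nat.prime_dvd_prime_iff_eq hp hq).mp h3).symm
  have hxN : x ∈ N := mem_of_pregular_of_index N hN hxreg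
  have hNn : ∀ y : G, y ∈ Subgroup.normalizer (N : Set G) := fun y => by
    rw [Subgroup.normalizer_eq_top]; exact Subgroup.mem_top y
  have hxR0 : x ∈ Subgroup.normalizer (((R ⊓ N) : Subgroup G) : Set G) :=
    mem_normalizer_inf hxR (hNn x)
  have hR0R : (R ⊓ N) ≤ R := inf_le_left
  have hRN0 : R ≤ Subgroup.normalizer (((R ⊓ N) : Subgroup G) : Set G) := fun r hr =>
    mem_normalizer_inf (Subgroup.le_normalizer hr) (hNn r)
  obtain ⟨e₀, he₀, huniq⟩ := existsUnique_isNormalSubpair hM R (R ⊓ N) e hRe.1 hR0R hRN0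
  have hpair0 : Cfsg.IsBrauerPairOf p M B (R ⊓ N) e₀ :=
    (isBrauerPairOf_iff_of_isNormalSubpair hM he₀ B hB).mp hRe
  have hxC : x ∈ Subgroup.normalizer (((Subgroup.centralizer (R : Set G)) : Subgroup G) : Set G) :=
    Helper75.normalizer_le_normalizer_centralizer' R hxR
  have hxC0 : x ∈ Subgroup.normalizer (((Subgroup.centralizer ((R ⊓ N : Subgroup G) : Set G)) : Subgroup G) : Set G) :=
    Helper75.normalizer_le_normalizer_centralizer' (R ⊓ N) hxR0
  have hxe0 : Cfsg.StabilizesBlock (Subgroup.centralizer ((R ⊓ N : Subgroup G) : Set G)) e₀ x := by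
    rw [← image_conjIrr_eq_iff (Subgroup.centralizer ((R ⊓ N : Subgroup G) : Set G)) e₀ ⟨x, hxC0⟩]
    apply huniq
    refine ⟨⟨he₀.1.1, isPBlock_image_conjIrr (Subgroup.centralizer ((R ⊓ N : Subgroup G) : Set G)) _ he₀.1.2⟩, he₀.2.1, hR0R, hRN0, ?_, ?_⟩
    · intro y hy
      have hy' : x⁻¹ * y * x ∈ R :=
        (Subgroup.mem_normalizer_iff.mp hxR (x⁻¹ * y * x)).mpr (by
          rw [show x * (x⁻¹ * y * x) * x⁻¹ = y by group]; exact hy)
      have hyC0 : y ∈ Subgroup.normalizer (((Subgroup.centralizer ((R ⊓ N : Subgroup G) : Set G)) : Subgroup G) : Set G) :=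
        Helper75.normalizer_le_normalizer_centralizer' (R ⊓ N) (hRN0 hy)
      have hy'C0 : x⁻¹ * y * x ∈ Subgroup.normalizer (((Subgroup.centralizer ((R ⊓ N : Subgroup G) : Set G)) : Subgroup G) : Set G) :=
        Helper75.normalizer_le_normalizer_centralizer' (R ⊓ N) (hRN0 hy')
      rw [← image_conjIrr_eq_iff (Subgroup.centralizer ((R ⊓ N : Subgroup G) : Set G)) _ ⟨y, hyC0⟩, ← image_conjIrr_mul]
      have h1 := (image_conjIrr_eq_iff (Subgroup.centralizer ((R ⊓ N : Subgroup G) : Set G)) e₀ ⟨x⁻¹ * y * x, hy'C0⟩).mpr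
        (he₀.2.2.2.2.1 _ hy')
      have e2 : (⟨y, hyC0⟩ : Subgroup.normalizer (((Subgroup.centralizer ((R ⊓ N : Subgroup G) : Set G)) : Subgroup G) : Set G)) * ⟨x, hxC0⟩
          = ⟨x, hxC0⟩ * ⟨x⁻¹ * y * x, hy'C0⟩ := by
        apply Subtype.ext
        show y * x = x * (x⁻¹ * y * x)
        group
      rw [e2, image_conjIrr_mul, h1]
    · intro ξ hξ
      have h1 := (image_conjIrr_eq_iff (Subgroup.centralizer (R : Set G)) e ⟨x, hxC⟩).mpr hxe
      rw [← h1] at hξ
      obtain ⟨ξ'', hξ'', rfl⟩ := hξ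
      rw [brauerOmega_eq_restrict]
      rw [omega_restrict_conjIrr (Subgroup.centralizer (R : Set G)) ⟨x, hxC⟩ (a := Cfsg.subgroupBlockCoeff (Subgroup.centralizer ((R ⊓ N : Subgroup G) : Set G)) e₀)
        (b := Cfsg.subgroupBlockCoeff (Subgroup.centralizer ((R ⊓ N : Subgroup G) : Set G)) (conjIrr (Subgroup.centralizer ((R ⊓ N : Subgroup G) : Set G)) ⟨x, hxC0⟩ '' e₀))
        (fun y => subgroupBlockCoeff_image_conjIrr (Subgroup.centralizer ((R ⊓ N : Subgroup G) : Set G)) ⟨x, hxC0⟩ e₀ y) ξ'']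
      have h2 := he₀.2.2.2.2.2 ξ'' hξ''
      rwa [brauerOmega_eq_restrict] at h2
  have hβinv : InvUnder ⊤ (Cfsg.subgroupBlockCoeff N c) :=
    invUnder_sbc_of_stabilizes N c (fun y _ => hst y)
  have hβS : ∀ g, Cfsg.MemLocalRing M (Cfsg.subgroupBlockCoeff N c g) :=
    sbc_memLocalRing hMm N hc
  have hDC0 : (N ⊓ Subgroup.centralizer ((R ⊓ N : Subgroup G) : Set G)) ≤ (Subgroup.centralizer ((R ⊓ N : Subgroup G) : Set G)) := inf_le_right
  have hCD0 : (Subgroup.centralizer ((R ⊓ N : Subgroup G) : Set G)) ≤ Subgroup.normalizer (((N ⊓ Subgroup.centralizer ((R ⊓ N : Subgroup G) : Set G)) : Subgroup G) : Set G) := fun y hy =>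
    mem_normalizer_inf (hNn y) (Subgroup.le_normalizer hy)
  have hreg0 : ∀ y ∈ (Subgroup.centralizer ((R ⊓ N : Subgroup G) : Set G)), ¬ p ∣ orderOf y → y ∈ (N ⊓ Subgroup.centralizer ((R ⊓ N : Subgroup G) : Set G)) := fun y hy hyp =>
    Subgroup.mem_inf.mpr ⟨mem_of_pregular_of_index N hN hyp, hy⟩
  obtain ⟨f₀, hf₀, hf₀c, hf₀U⟩ := exists_block_below hM hDC0 hCD0 hreg0 hpair0.1.2
    (β := Cfsg.subgroupBlockCoeff N c)
    (fun y hy hyD => sbc_of_not_mem N c (fun h => hyD (Subgroup.mem_inf.mpr ⟨h, hy⟩)))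
    (hβinv.mono le_top) hβS
    (fun ξ hξ => by
      have h1 := hpair0.2.2 ξ hξ
      have e1 : Cfsg.brauerOmega (R ⊓ N) (Cfsg.blockCoeff B) (ξ : ↥(Subgroup.centralizer ((R ⊓ N : Subgroup G) : Set G)) → ℂ)
          = ∑ᶠ y : ↥(Subgroup.centralizer ((R ⊓ N : Subgroup G) : Set G)), Cfsg.subgroupBlockCoeff N c (y : G) * (ξ : ↥(Subgroup.centralizer ((R ⊓ N : Subgroup G) : Set G)) → ℂ) y
            / (ξ : ↥(Subgroup.centralizer ((R ⊓ N : Subgroup G) : Set G)) → ℂ) 1 := by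
        unfold Cfsg.brauerOmega
        refine finsum_congr fun y => ?_
        rw [hBc]
      rwa [e1] at h1)
  have hxD0 : x ∈ Subgroup.normalizer (((N ⊓ Subgroup.centralizer ((R ⊓ N : Subgroup G) : Set G)) : Subgroup G) : Set G) :=
    mem_normalizer_inf (hNn x) hxC0
  have hxW : conjIrr (N ⊓ Subgroup.centralizer ((R ⊓ N : Subgroup G) : Set G)) ⟨x, hxD0⟩ '' orbitUnion hCD0 f₀ = orbitUnion hCD0 f₀ := by
    apply eq_of_blockCoeff_eq
    funext t'
    have ht : x⁻¹ * (t' : G) * x ∈ (N ⊓ Subgroup.centralizer ((R ⊓ N : Subgroup G) : Set G)) :=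
      (Subgroup.mem_normalizer_iff.mp hxD0 (x⁻¹ * (t' : G) * x)).mpr (by
        rw [show x * (x⁻¹ * (t' : G) * x) * x⁻¹ = (t' : G) by group]; exact t'.2)
    have ht' : (t' : G) = x * (x⁻¹ * (t' : G) * x) * x⁻¹ := by group
    rw [blockCoeff_image_conjIrr (N ⊓ Subgroup.centralizer ((R ⊓ N : Subgroup G) : Set G)) ⟨x, hxD0⟩ _ ⟨x⁻¹ * (t' : G) * x, ht⟩ t' ht']
    have h6 : Cfsg.blockCoeff (orbitUnion hCD0 f₀) t'
        = Cfsg.subgroupBlockCoeff (N ⊓ Subgroup.centralizer ((R ⊓ N : Subgroup G) : Set G)) (orbitUnion hCD0 f₀) (t' : G) :=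
      (sbc_of_mem (N ⊓ Subgroup.centralizer ((R ⊓ N : Subgroup G) : Set G)) _ t'.2).symm
    rw [h6, ← sbc_of_mem (N ⊓ Subgroup.centralizer ((R ⊓ N : Subgroup G) : Set G)) _ ht, ← hf₀U]
    have h7 := subgroupBlockCoeff_conj_of_stabilizes (Subgroup.centralizer ((R ⊓ N : Subgroup G) : Set G)) e₀ hxe0 (x⁻¹ * (t' : G) * x)
    rw [← h7]
    congr 1
    group
  have hxf0 : conjIrr (N ⊓ Subgroup.centralizer ((R ⊓ N : Subgroup G) : Set G)) ⟨x, hxD0⟩ '' f₀ ⊆ orbitUnion hCD0 f₀ := by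
    rw [← hxW]
    exact Set.image_mono (subset_orbitUnion hCD0 f₀)
  obtain ⟨g₀, hg₀⟩ := exists_conj_eq_of_subset_orbitUnion hMm hCD0 hf₀
    (isPBlock_image_conjIrr (N ⊓ Subgroup.centralizer ((R ⊓ N : Subgroup G) : Set G)) ⟨x, hxD0⟩ hf₀) hxf0
  have hxf₀ : conjIrr (N ⊓ Subgroup.centralizer ((R ⊓ N : Subgroup G) : Set G)) ⟨x, hxD0⟩ '' f₀
      = conjIrr (N ⊓ Subgroup.centralizer ((R ⊓ N : Subgroup G) : Set G)) (Subgroup.inclusion hCD0 g₀)⁻¹ '' f₀ := by
    conv_rhs => rw [← hg₀]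
    rw [← image_conjIrr_mul, inv_mul_cancel, image_conjIrr_one]
  letI := setAction hCD0
  have hΩ : ∀ f ∈ MulAction.orbit ↥(Subgroup.centralizer ((R ⊓ N : Subgroup G) : Set G)) f₀,
      conjIrr (N ⊓ Subgroup.centralizer ((R ⊓ N : Subgroup G) : Set G)) ⟨x, hxD0⟩ '' f ∈ MulAction.orbit ↥(Subgroup.centralizer ((R ⊓ N : Subgroup G) : Set G)) f₀ := by
    rintro _ ⟨g, rfl⟩
    have hg' : x * (g : G) * x⁻¹ ∈ (Subgroup.centralizer ((R ⊓ N : Subgroup G) : Set G)) := (Subgroup.mem_normalizer_iff.mp hxC0 _).mp g.2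
    refine ⟨⟨x * (g : G) * x⁻¹, hg'⟩ * g₀⁻¹, ?_⟩
    show conjIrr (N ⊓ Subgroup.centralizer ((R ⊓ N : Subgroup G) : Set G)) (Subgroup.inclusion hCD0 (⟨x * (g : G) * x⁻¹, hg'⟩ * g₀⁻¹)) '' f₀
      = conjIrr (N ⊓ Subgroup.centralizer ((R ⊓ N : Subgroup G) : Set G)) ⟨x, hxD0⟩ '' (conjIrr (N ⊓ Subgroup.centralizer ((R ⊓ N : Subgroup G) : Set G)) (Subgroup.inclusion hCD0 g) '' f₀)
    rw [map_mul, map_inv, image_conjIrr_mul, ← hxf₀, ← image_conjIrr_mul, ← image_conjIrr_mul]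
    congr 2
    apply Subtype.ext
    show x * (g : G) * x⁻¹ * x = x * (g : G)
    group
  have hcard : ∃ j : ℕ, Nat.card ↥(MulAction.orbit ↥(Subgroup.centralizer ((R ⊓ N : Subgroup G) : Set G)) f₀) = p ^ j := by
    obtain ⟨k, hk⟩ := hN
    have h1 : (MulAction.stabilizer ↥(Subgroup.centralizer ((R ⊓ N : Subgroup G) : Set G)) f₀).index = (MulAction.orbit ↥(Subgroup.centralizer ((R ⊓ N : Subgroup G) : Set G)) f₀).ncard :=
      MulAction.index_stabilizer _ f₀
    have h2 : (N ⊓ Subgroup.centralizer ((R ⊓ N : Subgroup G) : Set G)).subgroupOf (Subgroup.centralizer ((R ⊓ N : Subgroup G) : Set G)) ≤ MulAction.stabilizer ↥(Subgroup.centralizer ((R ⊓ N : Subgroup G) : Set G)) f₀ := by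
      intro d hd
      rw [MulAction.mem_stabilizer_iff]
      show conjIrr (N ⊓ Subgroup.centralizer ((R ⊓ N : Subgroup G) : Set G)) (Subgroup.inclusion hCD0 d) '' f₀ = f₀
      have h3 : ∀ χ : Cfsg.IrrCharacter ↥(N ⊓ Subgroup.centralizer ((R ⊓ N : Subgroup G) : Set G)), conjIrr (N ⊓ Subgroup.centralizer ((R ⊓ N : Subgroup G) : Set G)) (Subgroup.inclusion hCD0 d) χ = χ := by
        intro χ
        symm
        apply eq_conjIrr_of_isConjCharOf
        intro k k' hk
        have h4 : k' = ⟨(d : G), Subgroup.mem_subgroupOf.mp hd⟩ * k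
            * (⟨(d : G), Subgroup.mem_subgroupOf.mp hd⟩ : ↥(N ⊓ Subgroup.centralizer ((R ⊓ N : Subgroup G) : Set G)))⁻¹ := Subtype.ext hk
        rw [h4, Helper81.irr_conj]
      have h5 : conjIrr (N ⊓ Subgroup.centralizer ((R ⊓ N : Subgroup G) : Set G)) (Subgroup.inclusion hCD0 d) = id := funext h3
      rw [h5, Set.image_id]
    have h3 : (MulAction.stabilizer ↥(Subgroup.centralizer ((R ⊓ N : Subgroup G) : Set G)) f₀).index ∣ ((N ⊓ Subgroup.centralizer ((R ⊓ N : Subgroup G) : Set G)).subgroupOf (Subgroup.centralizer ((R ⊓ N : Subgroup G) : Set G))).index :=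
      Subgroup.index_dvd_of_le h2
    have h4 : ((N ⊓ Subgroup.centralizer ((R ⊓ N : Subgroup G) : Set G)).subgroupOf (Subgroup.centralizer ((R ⊓ N : Subgroup G) : Set G))).index ∣ p ^ k := by
      show (N ⊓ Subgroup.centralizer ((R ⊓ N : Subgroup G) : Set G)).relIndex (Subgroup.centralizer ((R ⊓ N : Subgroup G) : Set G)) ∣ p ^ k
      rw [Subgroup.inf_relIndex_right, ← hk]
      exact Subgroup.relIndex_dvd_index_of_normal N (Subgroup.centralizer ((R ⊓ N : Subgroup G) : Set G))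
    obtain ⟨j, -, hj⟩ := (Nat.dvd_prime_pow hp).mp (h3.trans h4)
    exact ⟨j, by rw [Nat.card_coe_set_eq, ← h1, hj]⟩
  -- the fixed point
  obtain ⟨F, hF⟩ : ∃ F : ↥(MulAction.orbit ↥(Subgroup.centralizer ((R ⊓ N : Subgroup G) : Set G)) f₀) → ↥(MulAction.orbit ↥(Subgroup.centralizer ((R ⊓ N : Subgroup G) : Set G)) f₀),
      ∀ f, (F f : Set (Cfsg.IrrCharacter ↥(N ⊓ Subgroup.centralizer ((R ⊓ N : Subgroup G) : Set G)))) = conjIrr (N ⊓ Subgroup.centralizer ((R ⊓ N : Subgroup G) : Set G)) ⟨x, hxD0⟩ '' (f : Set _) :=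
    ⟨fun f => ⟨conjIrr (N ⊓ Subgroup.centralizer ((R ⊓ N : Subgroup G) : Set G)) ⟨x, hxD0⟩ '' (f : Set _), hΩ f.1 f.2⟩, fun f => rfl⟩
  have hFn : ∀ (n : ℕ) (f : ↥(MulAction.orbit ↥(Subgroup.centralizer ((R ⊓ N : Subgroup G) : Set G)) f₀)),
      ((F^[n] f : ↥(MulAction.orbit ↥(Subgroup.centralizer ((R ⊓ N : Subgroup G) : Set G)) f₀)) : Set (Cfsg.IrrCharacter ↥(N ⊓ Subgroup.centralizer ((R ⊓ N : Subgroup G) : Set G))))
        = conjIrr (N ⊓ Subgroup.centralizer ((R ⊓ N : Subgroup G) : Set G)) ((⟨x, hxD0⟩ : Subgroup.normalizer (((N ⊓ Subgroup.centralizer ((R ⊓ N : Subgroup G) : Set G)) : Subgroup G) : Set G)) ^ n)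
          '' (f : Set _) := by
    intro n
    induction n with
    | zero => intro f; rw [pow_zero, image_conjIrr_one]; rfl
    | succ n ih =>
      intro f
      rw [Function.iterate_succ_apply', hF, ih f, ← image_conjIrr_mul, ← pow_succ']
  letI : Fintype ↥(MulAction.orbit ↥(Subgroup.centralizer ((R ⊓ N : Subgroup G) : Set G)) f₀) := Fintype.ofFinite _
  obtain ⟨F', hF'⟩ : ∃ F' : Function.End ↥(MulAction.orbit ↥(Subgroup.centralizer ((R ⊓ N : Subgroup G) : Set G)) f₀), F' = F := ⟨F, rfl⟩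
  have hFpow : F' ^ q ^ m = 1 := by
    have h1 := hom_coe_pow (fun g : Function.End ↥(MulAction.orbit ↥(Subgroup.centralizer ((R ⊓ N : Subgroup G) : Set G)) f₀) => g) rfl
      (fun _ _ => rfl) F' (q ^ m)
    funext f
    have h2 : (F' ^ q ^ m) f = F^[q ^ m] f := by
      rw [← hF']; exact congrFun h1 f
    rw [h2]
    apply Subtype.ext
    rw [hFn]
    have h3 : (⟨x, hxD0⟩ : Subgroup.normalizer (((N ⊓ Subgroup.centralizer ((R ⊓ N : Subgroup G) : Set G)) : Subgroup G) : Set G)) ^ q ^ m = 1 := by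
      apply Subtype.ext
      show x ^ q ^ m = 1
      exact hxq
    rw [h3, image_conjIrr_one]
    rfl
  have hmod := Equiv.Perm.card_fixedPoints_modEq (p := q) (n := m) hFpow
  obtain ⟨j, hj⟩ := hcard
  have hfix : ∃ a : ↥(MulAction.orbit ↥(Subgroup.centralizer ((R ⊓ N : Subgroup G) : Set G)) f₀), F a = a := by
    by_contra hno
    push Not at hno
    have hemp : IsEmpty ↥(Function.fixedPoints F') := by
      refine ⟨fun a => hno a.1 ?_⟩
      have ha2 : F' a.1 = a.1 := a.2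
      have ha3 : F' a.1 = F a.1 := congrFun hF' a.1
      exact ha3.symm.trans ha2
    have h0 : ∀ (inst : Fintype ↥(Function.fixedPoints F')),
        @Fintype.card ↥(Function.fixedPoints F') inst = 0 := fun inst =>
      @Fintype.card_eq_zero _ inst hemp
    have h1 : q ∣ Fintype.card ↥(MulAction.orbit ↥(Subgroup.centralizer ((R ⊓ N : Subgroup G) : Set G)) f₀) := by
      refine (Nat.modEq_zero_iff_dvd).mp (hmod.trans ?_)
      rw [h0]
    rw [← Nat.card_eq_fintype_card, hj] at h1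
    have h2 := hq.dvd_of_dvd_pow h1
    exact hqp ((Nat.prime_dvd_prime_iff_eq hq hp).mp h2)
  obtain ⟨a, ha⟩ := hfix
  obtain ⟨g₁, hg₁⟩ := a.2
  have hg₁' : conjIrr (N ⊓ Subgroup.centralizer ((R ⊓ N : Subgroup G) : Set G)) (Subgroup.inclusion hCD0 g₁) '' f₀ = (a : Set _) := hg₁
  have hafix : conjIrr (N ⊓ Subgroup.centralizer ((R ⊓ N : Subgroup G) : Set G)) ⟨x, hxD0⟩ '' (a : Set (Cfsg.IrrCharacter ↥(N ⊓ Subgroup.centralizer ((R ⊓ N : Subgroup G) : Set G)))) = (a : Set _) := by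
    rw [← hF a, ha]
  have hf₁ : Cfsg.IsPBlock M (a : Set (Cfsg.IrrCharacter ↥(N ⊓ Subgroup.centralizer ((R ⊓ N : Subgroup G) : Set G)))) := by
    rw [← hg₁']; exact isPBlock_image_conjIrr (N ⊓ Subgroup.centralizer ((R ⊓ N : Subgroup G) : Set G)) _ hf₀
  have hf₁c : ∀ ψ ∈ (a : Set (Cfsg.IrrCharacter ↥(N ⊓ Subgroup.centralizer ((R ⊓ N : Subgroup G) : Set G)))), Cfsg.MemLocalIdeal M
      (∑ᶠ d : ↥(N ⊓ Subgroup.centralizer ((R ⊓ N : Subgroup G) : Set G)), Cfsg.subgroupBlockCoeff N c d * (ψ : ↥(N ⊓ Subgroup.centralizer ((R ⊓ N : Subgroup G) : Set G)) → ℂ) d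
        / (ψ : ↥(N ⊓ Subgroup.centralizer ((R ⊓ N : Subgroup G) : Set G)) → ℂ) 1 - 1) := by
    intro ψ hψ
    rw [← hg₁'] at hψ
    obtain ⟨ψ', hψ', rfl⟩ := hψ
    rw [finsum_eq_omega, omega_restrict_conjIrr (N ⊓ Subgroup.centralizer ((R ⊓ N : Subgroup G) : Set G)) (Subgroup.inclusion hCD0 g₁)
      (a := Cfsg.subgroupBlockCoeff N c) (b := Cfsg.subgroupBlockCoeff N c)
      (fun y => hβinv _ (Subgroup.mem_top _) y) ψ', ← finsum_eq_omega]
    exact hf₀c ψ' hψ'
  have hst₁ : Cfsg.StabilizesBlock (N ⊓ Subgroup.centralizer ((R ⊓ N : Subgroup G) : Set G)) (a : Set (Cfsg.IrrCharacter ↥(N ⊓ Subgroup.centralizer ((R ⊓ N : Subgroup G) : Set G)))) x :=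
    (image_conjIrr_eq_iff (N ⊓ Subgroup.centralizer ((R ⊓ N : Subgroup G) : Set G)) _ ⟨x, hxD0⟩).mp hafix
  have hxcent0 : x ∈ (Subgroup.centralizer ((R ⊓ N : Subgroup G) : Set G)) :=
    hcn (R ⊓ N) inf_le_right (hRp.to_le inf_le_left) _ hf₁ hf₁c x hxN hxR0 hst₁ hxreg
  -- coprime action
  rw [Subgroup.mem_centralizer_iff]
  intro r hr
  obtain ⟨z, hz⟩ : ∃ z : G, z = r⁻¹ * (x * r * x⁻¹) := ⟨_, rfl⟩
  have hz1 : z ∈ R := by
    rw [hz]
    exact R.mul_mem (R.inv_mem hr) ((Subgroup.mem_normalizer_iff.mp hxR r).mp hr)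
  have hz2 : z ∈ N := by
    have h1 : r⁻¹ * x * r⁻¹⁻¹ ∈ N := (inferInstance : N.Normal).conj_mem x hxN r⁻¹
    have h2 := N.mul_mem h1 (N.inv_mem hxN)
    have e : r⁻¹ * x * r⁻¹⁻¹ * x⁻¹ = z := by rw [hz]; group
    rwa [e] at h2
  have hzc : z * x = x * z :=
    (Subgroup.mem_centralizer_iff.mp hxcent0) z (Subgroup.mem_inf.mpr ⟨hz1, hz2⟩)
  have hpow : ∀ n : ℕ, x ^ n * r * (x ^ n)⁻¹ = r * z ^ n := by
    intro n
    induction n with
    | zero => simp
    | succ n ih =>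
      have e1 : x ^ (n + 1) * r * (x ^ (n + 1))⁻¹ = x * (x ^ n * r * (x ^ n)⁻¹) * x⁻¹ := by
        rw [pow_succ']; group
      rw [e1, ih]
      have hc : Commute x z := hzc.symm
      have e2 : x * z ^ n * x⁻¹ = z ^ n := by
        rw [(hc.pow_right n).eq]; group
      calc x * (r * z ^ n) * x⁻¹ = (x * r * x⁻¹) * (x * z ^ n * x⁻¹) := by group
        _ = (r * z) * z ^ n := by rw [e2, hz]; group
        _ = r * z ^ (n + 1) := by rw [pow_succ']; group
  have hzq : z ^ q ^ m = 1 := by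
    have h1 := hpow (q ^ m)
    rw [hxq, one_mul, inv_one, mul_one] at h1
    exact (mul_eq_left (a := r)).mp h1.symm
  obtain ⟨j', hj'⟩ := hRp ⟨z, hz1⟩
  have hzp : z ^ p ^ j' = 1 := by
    have := congrArg Subtype.val hj'
    simpa using this
  have hz0 : z = 1 := by
    have h1 : orderOf z ∣ q ^ m := orderOf_dvd_of_pow_eq_one hzq
    have h2 : orderOf z ∣ p ^ j' := orderOf_dvd_of_pow_eq_one hzp
    have h3 : orderOf z ∣ Nat.gcd (q ^ m) (p ^ j') := Nat.dvd_gcd h1 h2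
    have h4 : Nat.gcd (q ^ m) (p ^ j') = 1 :=
      Nat.Coprime.pow _ _ ((Nat.coprime_primes hq hp).mpr hqp)
    rw [h4, Nat.dvd_one, orderOf_eq_one_iff] at h3
    exact h3
  have hxr : x * r * x⁻¹ = r := by
    have h1 : r * z = x * r * x⁻¹ := by rw [hz]; group
    rw [← h1, hz0, mul_one]
  calc r * x = (x * r * x⁻¹) * x := by rw [hxr]
    _ = x * r := by group

/-- **Going up.**  If `c` is nilpotent then so is `B`. -/
theorem isNilpotentBlock_of_nilIn {p : ℕ} [Fact p.Prime] {M : Ideal Cfsg.AlgInt}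
    (hM : Cfsg.IsPModular p M) (N : Subgroup G) [N.Normal] (hN : ∃ k : ℕ, N.index = p ^ k)
    (c : Set (Cfsg.IrrCharacter N)) (hc : Cfsg.IsPBlock M c)
    (hst : ∀ x : G, Cfsg.StabilizesBlock N c x) (B : Set (Cfsg.IrrCharacter G))
    (hB : Cfsg.IsPBlock M B)
    (hBc : ∀ g : G, Cfsg.blockCoeff B g = Cfsg.subgroupBlockCoeff N c g)
    (hcn : NilIn p M N (Cfsg.subgroupBlockCoeff N c)) : Cfsg.IsNilpotentBlock p M B := by
  refine ⟨hB, fun R e hRe x hxR hxe hxreg => ?_⟩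
  have key : ∀ n : ℕ, ∀ y : G, orderOf y = n → y ∈ Subgroup.normalizer (R : Set G) →
      Cfsg.StabilizesBlock (Subgroup.centralizer (R : Set G)) e y → ¬ p ∣ orderOf y →
      y ∈ Subgroup.centralizer (R : Set G) := by
    intro n
    induction n using Nat.strong_induction_on with
    | _ n ih =>
      intro y hyn hyR hye hyreg
      by_cases hn1 : n = 1
      · rw [hn1, orderOf_eq_one_iff] at hyn
        rw [hyn]; exact Subgroup.one_mem _
      · have hnpos : 0 < n := by rw [← hyn]; exact orderOf_pos y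
        have hq : (n.minFac).Prime := Nat.minFac_prime hn1
        haveI : Fact (n.minFac).Prime := ⟨hq⟩
        have hqn : n.minFac ∣ n := Nat.minFac_dvd n
        have hqp : n.minFac ≠ p := by
          intro h
          apply hyreg
          rw [hyn, ← h]; exact hqn
        have hdv := Nat.ordProj_dvd n n.minFac
        obtain ⟨b, hb'⟩ : ∃ b : ℕ, b = n / n.minFac ^ n.factorization n.minFac := ⟨_, rfl⟩
        have hb : n = n.minFac ^ n.factorization n.minFac * b := by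
          rw [hb']; exact (Nat.mul_div_cancel' hdv).symm
        have hνpos : 0 < n.factorization n.minFac :=
          hq.factorization_pos_of_dvd hnpos.ne' hqn
        have hcop : Nat.Coprime (n.minFac ^ n.factorization n.minFac) b := by
          rw [hb']
          exact (Nat.coprime_ordCompl hq hnpos.ne').pow_left _
        have h1 : (y ^ b) ^ n.minFac ^ n.factorization n.minFac = 1 := by
          rw [← pow_mul, mul_comm, ← hb, ← hyn]; exact pow_orderOf_eq_one y
        have hyb : y ^ b ∈ Subgroup.centralizer (R : Set G) :=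
          centralizes_of_prime_pow hM N hN c hc hst B hB hBc hcn R e hRe (y ^ b)
            (pow_mem hyR b) (stabilizesBlock_pow _ e hye b) n.minFac hqp _ h1
        have hord : orderOf (y ^ n.minFac ^ n.factorization n.minFac) = b := by
          rw [orderOf_pow, hyn, Nat.gcd_eq_right (Nat.ordProj_dvd n n.minFac), hb']
        have hblt : b < n := by
          have hbpos : 0 < b := by
            rcases Nat.eq_zero_or_pos b with h | h
            · rw [h, mul_zero] at hb; omega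
            · exact h
          have h2 : 2 ≤ n.minFac ^ n.factorization n.minFac := by
            calc 2 ≤ n.minFac := hq.two_le
              _ = n.minFac ^ 1 := (pow_one _).symm
              _ ≤ n.minFac ^ n.factorization n.minFac :=
                Nat.pow_le_pow_right hq.pos hνpos
          nlinarith
        have hya : y ^ n.minFac ^ n.factorization n.minFac ∈ Subgroup.centralizer (R : Set G) :=
          ih b hblt _ hord (pow_mem hyR _) (stabilizesBlock_pow _ e hye _)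
            (fun h => hyreg (h.trans (orderOf_pow_dvd _)))
        have hbez := Int.gcd_eq_gcd_ab ((n.minFac ^ n.factorization n.minFac : ℕ) : ℤ) (b : ℤ)
        have hg1 : Int.gcd ((n.minFac ^ n.factorization n.minFac : ℕ) : ℤ) (b : ℤ) = 1 := by
          rw [Int.gcd_natCast_natCast]; exact hcop
        rw [hg1] at hbez
        have hy1 : y = (y ^ n.minFac ^ n.factorization n.minFac) ^
              (Int.gcdA ((n.minFac ^ n.factorization n.minFac : ℕ) : ℤ) (b : ℤ))
            * (y ^ b) ^ (Int.gcdB ((n.minFac ^ n.factorization n.minFac : ℕ) : ℤ) (b : ℤ)) := by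
          rw [← zpow_natCast y (n.minFac ^ n.factorization n.minFac), ← zpow_natCast y b,
            ← zpow_mul, ← zpow_mul, ← zpow_add, ← hbez]
          simp
        rw [hy1]
        exact Subgroup.mul_mem _ (Subgroup.zpow_mem _ hya _) (Subgroup.zpow_mem _ hyb _)
  exact key (orderOf x) x rfl hxR hxe hxreg

end Cfsg.Agent.Helper77
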