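import Cfsg.Agent.Helper77.NormalSupport
import Cfsg.Agent.Helper48.ThompsonAB

/-!
# Block idempotents of chain normalizers

`blockCoeff_chain_normalizer`: for a chain `Q₀ < ⋯ < Q_m` of `p`-subgroups with `N = ⋂ N_G(Q_i)`,
block idempotents of `N` vanish outside `C_G(Q_m)` (Thompson `A × B` + normal `p`-subgroup support).
-/

set_option autoImplicit false
set_option linter.style.haveILetI false
open Cfsg

namespace Cfsg.Agent.Helper77

theorem blockCoeff_chain_normalizer {G : Type*} [Group G] [Fintype G] (p : ℕ) [Fact p.Prime] (M : Ideal Cfsg.AlgInt) (hM : Cfsg.IsPModular p M) (m : ℕ) (Q : Fin (m + 1) → Subgroup G) (hQ : StrictMono Q) (hQp : ∀ i, IsPGroup p (Q i)) (N : Subgroup G) (hN : ∀ g : G, g ∈ N ↔ ∀ i, g ∈ Subgroup.normalizer (Q i : Set G)) (E : Set (Cfsg.IrrCharacter N)) (hE : Cfsg.IsPBlock M E) (n : N) (hn : (n : G) ∉ Subgroup.centralizer (Q (Fin.last m) : Set G)) : Cfsg.blockCoeff E n = 0 := by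
  classical
  letI : Fintype N := Fintype.ofFinite N
  by_contra hne
  have hreg : ¬ p ∣ orderOf n := fun h => hne (blockCoeff_eq_zero_of_dvd_orderOf hM hE h)
  have hreg' : ¬ p ∣ orderOf (n : G) := by
    rwa [Subgroup.orderOf_coe]
  have hmono := hQ.monotone
  -- `n` commutes with `Q i ∩ N`
  have hR : ∀ i, ∀ q ∈ Q i, q ∈ N → q * (n : G) = (n : G) * q := by
    intro i q hq hqN
    haveI : ((Q i).subgroupOf N).Normal := by
      constructor
      intro a ha x
      rw [Subgroup.mem_subgroupOf] at ha ⊢
      have hx := (hN x).mp x.2 i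
      rw [Subgroup.mem_normalizer_iff] at hx
      have := (hx a).mp ha
      simpa using this
    have hP : IsPGroup p ((Q i).subgroupOf N) := (hQp i).comap_subtype
    have hmem : n ∈ Subgroup.centralizer (((Q i).subgroupOf N : Subgroup N) : Set N) := by
      by_contra hnot
      exact hne (blockCoeff_eq_zero_of_not_mem_centralizer p M hM _ hP E hE n hnot)
    rw [Subgroup.mem_centralizer_iff] at hmem
    have h1 := hmem ⟨q, hqN⟩ (by
      show (⟨q, hqN⟩ : N) ∈ (Q i).subgroupOf N
      rw [Subgroup.mem_subgroupOf]; exact hq)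
    have h2 := congrArg Subtype.val h1
    simpa using h2
  -- `Q i` normalizes `Q j` for `i ≤ j`
  have hB : ¬ p ∣ Nat.card (Subgroup.zpowers (n : G)) := by
    rw [Nat.card_zpowers]; exact hreg'
  have hnB : ∀ i, Subgroup.zpowers (n : G) ≤ Subgroup.normalizer (Q i : Set G) := by
    intro i
    rw [Subgroup.zpowers_le]
    exact (hN n).mp n.2 i
  have hcz : ∀ q : G, q * (n : G) = (n : G) * q →
      q ∈ Subgroup.centralizer ((Subgroup.zpowers (n : G) : Subgroup G) : Set G) := by
    intro q hq
    rw [Subgroup.mem_centralizer_iff]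
    intro z hz
    obtain ⟨k, rfl⟩ := Subgroup.mem_zpowers_iff.mp hz
    have : Commute q (n : G) := hq
    exact (this.zpow_right k).eq.symm
  have key : ∀ (i : ℕ) (hi : i < m + 1),
      Q ⟨i, hi⟩ ≤ Subgroup.centralizer ((Subgroup.zpowers (n : G) : Subgroup G) : Set G) := by
    intro i
    induction i with
    | zero =>
      intro hi q hq
      apply hcz
      apply hR ⟨0, hi⟩ q hq
      rw [hN]
      intro j
      have : Q ⟨0, hi⟩ ≤ Q j := hmono (Fin.mk_le_of_le_val (Nat.zero_le _))
      exact Subgroup.le_normalizer (this hq)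
    | succ i ih =>
      intro hi
      have hi' : i < m + 1 := by omega
      have ihi := ih hi'
      have hle : Q ⟨i, hi'⟩ ≤ Q ⟨i + 1, hi⟩ := hmono (by
        rw [Fin.mk_le_mk]; omega)
      apply Helper48.thompson_AxB (p := p) (Q ⟨i + 1, hi⟩) (Q ⟨i, hi'⟩)
        (Subgroup.zpowers (n : G)) (hQp _) (hQp _) hB
      · rw [Subgroup.commutator_eq_bot_iff_le_centralizer]
        exact ihi
      · exact hle.trans Subgroup.le_normalizer
      · exact hnB _
      · intro q hq
        rw [Subgroup.mem_inf] at hq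
        obtain ⟨hq1, hq2⟩ := hq
        apply hcz
        apply hR ⟨i + 1, hi⟩ q hq1
        rw [hN]
        intro j
        by_cases hj : (j : ℕ) ≤ i
        · -- `q` centralizes `Q j`
          have hjle : Q j ≤ Q ⟨i, hi'⟩ := hmono (by
            rw [Fin.le_def]; exact hj)
          have : q ∈ Subgroup.centralizer (Q j : Set G) := by
            rw [Subgroup.mem_centralizer_iff] at hq2 ⊢
            intro z hz
            exact hq2 z (hjle hz)
          exact Subgroup.centralizer_le_normalizer _ this
        · have hjle : Q ⟨i + 1, hi⟩ ≤ Q j := hmono (by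
            rw [Fin.le_def]; simp only; omega)
          exact Subgroup.le_normalizer (hjle hq1)
  apply hn
  have hlast := key m (Nat.lt_succ_self m)
  rw [Subgroup.mem_centralizer_iff]
  intro q hq
  have hq' : q ∈ Q ⟨m, Nat.lt_succ_self m⟩ := hq
  have h1 := hlast hq'
  rw [Subgroup.mem_centralizer_iff] at h1
  exact (h1 (n : G) (Subgroup.mem_zpowers _)).symm

end Cfsg.Agent.Helper77
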