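import Cfsg.Agent.Helper77.BlockIdem
import Cfsg.Agent.Helper75.Eigen

/-!
# Block idempotent coefficients lie in the `|G|_{p'}`-th cyclotomic field

`mem_adjoin_exp_of_pow_eq_one`, `character_mem_adjoin_exp`, `blockCoeff_mem_adjoin_exp`.
-/

set_option autoImplicit false
set_option linter.style.haveILetI false
open Cfsg

namespace Cfsg.Agent.Helper77

/-- A root of unity of order dividing `m` lies in `ℚ(exp(2πi/m))`. -/
theorem mem_adjoin_exp_of_pow_eq_one (m : ℕ) (hm : m ≠ 0) {z : ℂ} (hz : z ^ m = 1) :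
    z ∈ IntermediateField.adjoin ℚ ({Complex.exp (2 * Real.pi * Complex.I / (m : ℂ))} : Set ℂ) := by
  have hprim := Complex.isPrimitiveRoot_exp m hm
  haveI : NeZero m := ⟨hm⟩
  obtain ⟨i, -, hi⟩ := hprim.eq_pow_of_pow_eq_one hz
  rw [← hi]
  exact pow_mem (IntermediateField.subset_adjoin ℚ _ (Set.mem_singleton _)) i

/-- The value of a character at an element of order dividing `m` lies in `ℚ(exp(2πi/m))`. -/
theorem character_mem_adjoin_exp {G : Type*} [Group G] {V : Type*} [AddCommGroup V]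
    [Module ℂ V] [FiniteDimensional ℂ V] (ρ : Representation ℂ G V) (g : G) (m : ℕ) (hm : m ≠ 0)
    (hg : g ^ m = 1) :
    ρ.character g ∈ IntermediateField.adjoin ℚ
      ({Complex.exp (2 * Real.pi * Complex.I / (m : ℂ))} : Set ℂ) := by
  have hf : (ρ g) ^ m = 1 := by
    rw [← map_pow, hg, map_one]
  obtain ⟨s, hs1, -, hs3⟩ := Helper75.exists_eigen_multiset (ρ g) m hm hf
  have h1 := hs3 1
  simp only [pow_one, Multiset.map_id'] at h1
  unfold Representation.character
  rw [h1]
  exact multiset_sum_mem _ (fun μ hμ => mem_adjoin_exp_of_pow_eq_one m hm (hs1 μ hμ))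

theorem blockCoeff_mem_adjoin_exp {G : Type*} [Group G] [Fintype G] (p : ℕ) [Fact p.Prime] (M : Ideal Cfsg.AlgInt) (hM : Cfsg.IsPModular p M) (B : Set (Cfsg.IrrCharacter G)) (hB : Cfsg.IsPBlock M B) (g : G) : Cfsg.blockCoeff B g ∈ IntermediateField.adjoin ℚ ({Complex.exp (2 * Real.pi * Complex.I / ((Nat.card G / p ^ (Nat.card G).factorization p : ℕ) : ℂ))} : Set ℂ) := by
  classical
  have := Fintype.ofFinite (Cfsg.IrrCharacter G)
  by_cases hy : p ∣ orderOf g
  · rw [blockCoeff_eq_zero_of_dvd_orderOf hM hB hy]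
    exact zero_mem _
  set m := Nat.card G / p ^ (Nat.card G).factorization p with hm_def
  have hpp : p.Prime := Fact.out
  have hcard : Nat.card G ≠ 0 := Nat.card_pos.ne'
  have hm0 : m ≠ 0 := by
    have := Nat.ordCompl_pos p hcard
    omega
  have hgm : g ^ m = 1 := by
    apply orderOf_dvd_iff_pow_eq_one.mp
    have h1 : orderOf g ∣ p ^ (Nat.card G).factorization p * m := by
      rw [hm_def, Nat.ordProj_mul_ordCompl_eq_self]
      exact orderOf_dvd_natCard g
    have h2 : Nat.Coprime (orderOf g) (p ^ (Nat.card G).factorization p) :=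
      Nat.Coprime.pow_right _ ((Nat.Prime.coprime_iff_not_dvd hpp).mpr hy).symm
    exact h2.dvd_of_dvd_mul_left h1
  rw [blockCoeff_eq_sum]
  refine mul_mem (inv_mem (natCast_mem _ _)) (sum_mem fun χ _ => ?_)
  by_cases hχ : χ ∈ B
  · rw [if_pos hχ]
    refine mul_mem ?_ ?_
    · rw [Helper81.irr_one_eq_charDegree]
      exact natCast_mem _ _
    · obtain ⟨n, ρ, -, hρ⟩ := χ.2
      rw [← hρ]
      exact character_mem_adjoin_exp ρ g⁻¹ m hm0 (by rw [inv_pow, hgm, inv_one])
  · rw [if_neg hχ]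
    exact zero_mem _

end Cfsg.Agent.Helper77
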