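import Cfsg.Agent.Helper75.Contrib4

/-!
# Totally nonnegative algebraic numbers and a Galois AM–GM inequality

* `TotNonneg z`: every field automorphism of `ℂ` maps `z` to a nonnegative real number.
* `card_le_of_galois_nonneg`: nonzero totally nonnegative algebraic integers of a cyclotomic
  field whose conjugate sums are all `≤ N` are at most `N` in number.
* `totNonneg_pregInner`: the `p`-regular square of a function with cyclotomic values is totally
  nonnegative.
* `pregInner_sub_blockParts`: Bessel's identity for the parts of a class function in finitely many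
  distinct blocks.
-/

set_option autoImplicit false
open Cfsg
open scoped ComplexConjugate

namespace Cfsg.Agent.Helper77

universe u

/-- Every field automorphism of `ℂ` maps `z` to a nonnegative real number. -/
def TotNonneg (z : ℂ) : Prop := ∀ τ : ℂ ≃+* ℂ, 0 ≤ (τ z).re ∧ (τ z).im = 0

theorem totNonneg_zero : TotNonneg 0 := fun τ => by simp

theorem totNonneg_add {z w : ℂ} (hz : TotNonneg z) (hw : TotNonneg w) : TotNonneg (z + w) :=
  fun τ => by
    rw [map_add, Complex.add_re, Complex.add_im, (hz τ).2, (hw τ).2, add_zero]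
    exact ⟨add_nonneg (hz τ).1 (hw τ).1, rfl⟩

theorem totNonneg_sum {ι : Type*} (s : Finset ι) (f : ι → ℂ) (h : ∀ i ∈ s, TotNonneg (f i)) :
    TotNonneg (∑ i ∈ s, f i) := by
  classical
  induction s using Finset.induction_on with
  | empty => rw [Finset.sum_empty]; exact totNonneg_zero
  | insert a s ha ih =>
    rw [Finset.sum_insert ha]
    exact totNonneg_add (h a (Finset.mem_insert_self a s))
      (ih fun i hi => h i (Finset.mem_insert_of_mem hi))

theorem totNonneg_mul_conj (n : ℕ) (hn : n ≠ 0) {z : ℂ} (hz : z ∈ Helper75.cycField n) :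
    TotNonneg (z * conj z) := fun τ => by
  rw [map_mul, Helper75.ringEquiv_conj_comm τ n hn hz, Complex.mul_conj]
  exact ⟨by rw [Complex.ofReal_re]; exact Complex.normSq_nonneg _, Complex.ofReal_im _⟩

/-- Multiplying by a nonnegative rational number (given as a quotient of naturals). -/
theorem totNonneg_nat_div_mul (a b : ℕ) {z : ℂ} (hz : TotNonneg z) :
    TotNonneg ((a : ℂ) / (b : ℂ) * z) := fun τ => by
  have h1 : τ ((a : ℂ) / (b : ℂ) * z) = (((a : ℝ) / (b : ℝ) : ℝ) : ℂ) * τ z := by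
    rw [map_mul, map_div₀, map_natCast, map_natCast]
    push_cast
    rfl
  rw [h1, Complex.re_ofReal_mul, Complex.im_ofReal_mul, (hz τ).2, mul_zero]
  exact ⟨mul_nonneg (by positivity) (hz τ).1, rfl⟩

theorem TotNonneg.re_nonneg {z : ℂ} (hz : TotNonneg z) (τ : ℂ ≃+* ℂ) : 0 ≤ (τ z).re := (hz τ).1

/-- **Galois AM–GM for totally nonnegative numbers.** -/
theorem card_le_of_galois_nonneg (n : ℕ) (hn : n ≠ 0) {ι : Type*} (s : Finset ι) (m : ι → ℂ)
    (hmem : ∀ i ∈ s, m i ∈ Helper75.cycField n) (hint : ∀ i ∈ s, IsIntegral ℤ (m i))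
    (hne : ∀ i ∈ s, m i ≠ 0) (hpos : ∀ i ∈ s, TotNonneg (m i)) (N : ℝ)
    (hsum : ∀ τ : ℂ ≃+* ℂ, ∑ i ∈ s, (τ (m i)).re ≤ N) : (s.card : ℝ) ≤ N := by
  classical
  have : NeZero n := ⟨hn⟩
  choose σ hσ using fun u : (ZMod n)ˣ =>
    Helper75.exists_ringEquiv_pow n hn (u : ZMod n).val (ZMod.val_coe_unit_coprime u)
  have hnorm : ∀ i ∈ s, ∀ u : (ZMod n)ˣ, ‖σ u (m i)‖ = (σ u (m i)).re := by
    intro i hi u
    obtain ⟨h1, h2⟩ := hpos i hi (σ u)
    have h3 : σ u (m i) = (((σ u (m i)).re : ℝ) : ℂ) := by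
      apply Complex.ext
      · rw [Complex.ofReal_re]
      · rw [Complex.ofReal_im, h2]
    calc ‖σ u (m i)‖ = ‖(((σ u (m i)).re : ℝ) : ℂ)‖ := by rw [← h3]
      _ = (σ u (m i)).re := by rw [Complex.norm_real, Real.norm_of_nonneg h1]
  have hprod : 1 ≤ ∏ x ∈ s ×ˢ (Finset.univ : Finset (ZMod n)ˣ), (σ x.2 (m x.1)).re := by
    rw [Finset.prod_product]
    have h1 : ∀ i ∈ s, (1 : ℝ) ≤ ∏ u : (ZMod n)ˣ, (σ u (m i)).re := by
      intro i hi
      have h := Helper75.one_le_norm_prod_galois n σ hσ (m i) (hmem i hi) (hint i hi) (hne i hi)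
      rw [norm_prod] at h
      rwa [Finset.prod_congr rfl (fun u _ => hnorm i hi u)] at h
    calc (1 : ℝ) = ∏ i ∈ s, (1 : ℝ) := by simp
      _ ≤ ∏ i ∈ s, ∏ u : (ZMod n)ˣ, (σ u (m i)).re :=
        Finset.prod_le_prod (fun _ _ => zero_le_one) h1
  have key := Helper75.card_le_sum_of_one_le_prod (s ×ˢ (Finset.univ : Finset (ZMod n)ˣ))
    (fun x => (σ x.2 (m x.1)).re)
    (fun x hx => (hpos x.1 (Finset.mem_product.mp hx).1 (σ x.2)).1) hprod
  rw [Finset.sum_product, Finset.card_product, Finset.sum_comm] at key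
  have h2 : ∑ u : (ZMod n)ˣ, ∑ i ∈ s, (σ u (m i)).re ≤ ∑ _u : (ZMod n)ˣ, N :=
    Finset.sum_le_sum (fun u _ => hsum (σ u))
  rw [Finset.sum_const, Finset.card_univ, nsmul_eq_mul] at h2
  have hφ : (0 : ℝ) < Fintype.card (ZMod n)ˣ := by exact_mod_cast Fintype.card_pos
  push_cast at key
  have h3 : (Fintype.card (ZMod n)ˣ : ℝ) * s.card ≤ (Fintype.card (ZMod n)ˣ : ℝ) * N := by
    rw [mul_comm]
    exact key.trans h2
  exact le_of_mul_le_mul_left h3 hφ

section preg

variable {K : Type u} [Group K] [Fintype K]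

theorem totNonneg_pregInner (p n : ℕ) (hn : n ≠ 0) (F : K → ℂ)
    (hF : ∀ s, F s ∈ Helper75.cycField n) : TotNonneg (pregInner p F F) := by
  unfold pregInner
  apply totNonneg_sum
  intro s _
  split_ifs
  · exact totNonneg_zero
  · exact totNonneg_mul_conj n hn (hF s)

theorem pregInner_sub_left (p : ℕ) (f g h : K → ℂ) :
    pregInner p (fun x => f x - g x) h = pregInner p f h - pregInner p g h := by
  unfold pregInner
  rw [← Finset.sum_sub_distrib]
  refine Finset.sum_congr rfl fun x _ => ?_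
  split_ifs
  · ring
  · ring

theorem pregInner_sub_right (p : ℕ) (f g h : K → ℂ) :
    pregInner p f (fun x => g x - h x) = pregInner p f g - pregInner p f h := by
  unfold pregInner
  rw [← Finset.sum_sub_distrib]
  refine Finset.sum_congr rfl fun x _ => ?_
  split_ifs
  · ring
  · rw [map_sub]; ring

theorem pregInner_sum_left (p : ℕ) {ι : Type*} (s : Finset ι) (f : ι → K → ℂ) (h : K → ℂ) :
    pregInner p (fun x => ∑ i ∈ s, f i x) h = ∑ i ∈ s, pregInner p (f i) h := by
  unfold pregInner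
  rw [Finset.sum_comm]
  refine Finset.sum_congr rfl fun x _ => ?_
  split_ifs
  · rw [Finset.sum_const_zero]
  · rw [Finset.sum_mul]

theorem pregInner_sum_right (p : ℕ) {ι : Type*} (s : Finset ι) (f : K → ℂ) (h : ι → K → ℂ) :
    pregInner p f (fun x => ∑ i ∈ s, h i x) = ∑ i ∈ s, pregInner p f (h i) := by
  unfold pregInner
  rw [Finset.sum_comm]
  refine Finset.sum_congr rfl fun x _ => ?_
  split_ifs
  · rw [Finset.sum_const_zero]
  · rw [map_sum, Finset.mul_sum]

/-- The parts of a function in two distinct blocks are orthogonal on the `p`-regular elements. -/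
theorem pregInner_blockPart_blockPart_eq_zero {p : ℕ} {M : Ideal Cfsg.AlgInt}
    (hM : Cfsg.IsPModular p M) {b b' : Set (Cfsg.IrrCharacter K)} (hb : Cfsg.IsPBlock M b)
    (hb' : Cfsg.IsPBlock M b') (hne : b ≠ b') (F F' : K → ℂ) :
    pregInner p (Cfsg.blockPart b F) (Cfsg.blockPart b' F') = 0 := by
  classical
  have := Fintype.ofFinite (Cfsg.IrrCharacter K)
  have h1 : ∀ (c : Set (Cfsg.IrrCharacter K)) (φ : K → ℂ), Cfsg.blockPart c φ
      = fun x => ∑ θ ∈ Finset.univ.filter (fun θ : Cfsg.IrrCharacter K => θ ∈ c),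
          Cfsg.classInner φ (θ : K → ℂ) * (θ : K → ℂ) x := by
    intro c φ
    funext x
    exact Helper75.blockPart_filter_apply c _ x
  rw [h1 b F, h1 b' F', Helper75.pregInner_sum_sum']
  refine Finset.sum_eq_zero fun θ hθ => Finset.sum_eq_zero fun θ' hθ' => ?_
  rw [Finset.mem_filter] at hθ hθ'
  have hθ'b : θ' ∉ b := fun h => hne (block_eq_of_mem hM.2.1 hb hb' h hθ'.2)
  rw [← conj_pregInner, pregInner_eq_zero hM hb hθ'b hθ.2, map_zero, mul_zero]

/-- **Bessel's identity** for the parts of a class function in finitely many distinct blocks. -/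
theorem pregInner_sub_blockParts {p : ℕ} {M : Ideal Cfsg.AlgInt} (hM : Cfsg.IsPModular p M)
    (s : Finset (Set (Cfsg.IrrCharacter K))) (hb : ∀ b ∈ s, Cfsg.IsPBlock M b)
    (F : K → ℂ) (hF : Cfsg.IsClassFunction K F) :
    pregInner p (fun x => F x - ∑ b ∈ s, Cfsg.blockPart b F x)
        (fun x => F x - ∑ b ∈ s, Cfsg.blockPart b F x)
      = pregInner p F F - ∑ b ∈ s, pregInner p (Cfsg.blockPart b F) (Cfsg.blockPart b F) := by
  classical
  have h1 : ∀ b ∈ s, pregInner p (Cfsg.blockPart b F) F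
      = pregInner p (Cfsg.blockPart b F) (Cfsg.blockPart b F) := fun b hbs =>
    Helper75.pregInner_blockPart_right hM (hb b hbs) F hF
  have h2 : ∀ b ∈ s, pregInner p F (Cfsg.blockPart b F)
      = pregInner p (Cfsg.blockPart b F) (Cfsg.blockPart b F) := by
    intro b hbs
    rw [← conj_pregInner, h1 b hbs, conj_pregInner]
  have h3 : ∀ b ∈ s, pregInner p (fun x => ∑ b' ∈ s, Cfsg.blockPart b' F x) (Cfsg.blockPart b F)
      = pregInner p (Cfsg.blockPart b F) (Cfsg.blockPart b F) := by
    intro b hbs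
    rw [pregInner_sum_left, Finset.sum_eq_single b]
    · intro b' hb's hne
      exact pregInner_blockPart_blockPart_eq_zero hM (hb b' hb's) (hb b hbs) hne F F
    · intro h; exact absurd hbs h
  rw [pregInner_sub_left, pregInner_sub_right, pregInner_sub_right, pregInner_sum_right,
    pregInner_sum_right, pregInner_sum_left, Finset.sum_congr rfl h2, Finset.sum_congr rfl h3,
    Finset.sum_congr rfl h1]
  ring

end preg

end Cfsg.Agent.Helper77
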