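import Cfsg.Agent.Helper77.K2Final
import Cfsg.Agent.Helper55.KulEAux
import Cfsg.Agent.Helper73.KulC
import Cfsg.Agent.Helper14.KulB
import Cfsg.Agent.Helper88.KulG2
import Cfsg.Agent.Helper10.KulG
import Cfsg.Agent.Helper67.KulF
import Cfsg.Agent.Helper58.KulI
import Cfsg.Agent.Helper69.KulD
import Mathlib

/-!
# Blocks with one irreducible Brauer character and at most four irreducible characters

`kul_equal_degrees`: in a block `B` with `l(B) = 1` and `k(B) ≤ 4` all irreducible characters have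
the same degree (Külshammer).  The block algebra over the residue field is `M_n(C)` with `C` a
local symmetric algebra whose centre has dimension at most four, hence commutative; the block
algebra is then free of rank `n²` over its centre, which has dimension `k(B)`.
-/

set_option autoImplicit false
open Cfsg

namespace Cfsg.Agent.Helper77


universe u v

/-- The projection onto the corner of a central idempotent as an algebra homomorphism. -/
theorem exists_corner_proj {k : Type v} [Field k] {A : Type u} [Ring A] [Algebra k A]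
    {𝔅 : Type u} [Ring 𝔅] [Algebra k 𝔅] (e : A) (he : e * e = e) (hc : ∀ a, e * a = a * e)
    (φ : 𝔅 →ₗ[k] A) (hinj : Function.Injective φ) (hmul : ∀ x y, φ (x * y) = φ x * φ y)
    (h1 : φ 1 = e) (hrange : ∀ a, (∃ x, φ x = a) ↔ e * a = a) :
    ∃ ψ : A →ₐ[k] 𝔅, ∀ a, φ (ψ a) = e * a := by
  have hpre : ∀ a : A, ∃ y : 𝔅, φ y = e * a := fun a =>
    (hrange _).mpr (by rw [← mul_assoc, he])
  choose ψ0 hψ0 using hpre
  let ψl : A →ₗ[k] 𝔅 :=
    { toFun := ψ0
      map_add' := by
        intro a b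
        apply hinj
        rw [map_add, hψ0, hψ0, hψ0, mul_add]
      map_smul' := by
        intro r a
        apply hinj
        rw [RingHom.id_apply, map_smul, hψ0, hψ0, mul_smul_comm] }
  have hψl : ∀ a, ψl a = ψ0 a := fun a => rfl
  refine ⟨AlgHom.ofLinearMap ψl ?_ ?_, fun a => hψ0 a⟩
  · apply hinj
    rw [hψl, hψ0, mul_one, h1]
  · intro a b
    apply hinj
    rw [hmul, hψl, hψl, hψl, hψ0, hψ0, hψ0]
    calc e * (a * b) = (e * e) * (a * b) := by rw [he]
      _ = e * (e * a) * b := by simp only [mul_assoc]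
      _ = e * (a * e) * b := by rw [hc a]
      _ = e * a * (e * b) := by simp only [mul_assoc]

/-- A symmetric algebra with centre of dimension at most four and a unique simple module of
dimension `n` is generated over its centre by `n ^ 2` elements. -/
theorem kul_gen_center {k : Type v} [Field k] {A : Type u} [Ring A] [Algebra k A]
    [FiniteDimensional k A] (lam : A →ₗ[k] k)
    (hsym : ∀ x y, lam (x * y) = lam (y * x))
    (hnd : ∀ x, (∀ y, lam (x * y) = 0) → x = 0)
    (hZ : ∀ v : Fin 5 → A, (∀ i a, v i * a = a * v i) → ¬ LinearIndependent k v)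
    (n : ℕ) (hn : 0 < n) (g : A →ₐ[k] Matrix (Fin n) (Fin n) k)
    (N : ℕ) (hN : ∀ l : List A, l.length = N → (∀ x ∈ l, g x = 0) → l.prod = 0)
    (ε : A) (a b : Fin n → A) (hε : ε * ε = ε)
    (hgε : g ε = Matrix.single (⟨0, hn⟩ : Fin n) (⟨0, hn⟩ : Fin n) (1 : k))
    (hab : ∑ i, a i * ε * b i = 1) (x : A) :
    ∃ z : Fin n × Fin n → A, (∀ i y, z i * y = y * z i) ∧
      x = ∑ i : Fin n × Fin n, z i * (a i.1 * ε * b i.2) := by
  obtain ⟨C, instR, instA, instF, φ, hinj, hmul, hone, hrange⟩ :=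
    Helper73.kul_corner (k := k) ε hε
  have hcc := Helper55.kulE_corner_comm lam hsym hnd hZ n hn g N hN ε a b hε hgε hab C φ hinj
    hmul hone hrange
    (fun lam' h1 h2 π N' h3 h4 => Helper14.kul_local_comm lam' h1 h2 π N' h3 h4)
  exact Helper55.kulE_gen_of_comm ε a b hε hab hcc x

section kulmain

variable {G : Type u} [Group G] [Fintype G]

/-- `|G| e_B(1)` is the sum of the squares of the degrees. -/
theorem card_mul_blockCoeff_one [Fintype (Cfsg.IrrCharacter G)]
    (B : Set (Cfsg.IrrCharacter G)) [DecidablePred (· ∈ B)] :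
    (Nat.card G : ℂ) * Cfsg.blockCoeff B 1
      = ((∑ χ ∈ Finset.univ.filter (fun χ : Cfsg.IrrCharacter G => χ ∈ B),
          Cfsg.charDegree (χ : G → ℂ) ^ 2 : ℕ) : ℂ) := by
  classical
  have hG : (Nat.card G : ℂ) ≠ 0 := by exact_mod_cast Nat.card_pos.ne'
  rw [blockCoeff_eq_sum, ← mul_assoc, mul_inv_cancel₀ hG, one_mul, Finset.sum_filter]
  push_cast
  refine Finset.sum_congr rfl fun χ _ => ?_
  split_ifs with h
  · rw [inv_one, Helper81.irr_one_eq_charDegree]
    ring
  · rfl

/-- **Külshammer**: in a block with one irreducible Brauer character and at most four irreducible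
characters, all irreducible characters have the same degree. -/
theorem kul_equal_degrees (p : ℕ) [Fact p.Prime] {M : Ideal Cfsg.AlgInt}
    (hMp : Cfsg.IsPModular p M) {B : Set (Cfsg.IrrCharacter G)} (hB : Cfsg.IsPBlock M B)
    (hl : Cfsg.blockRank p B = 1) (hk : Nat.card B ≤ 4) :
    ∃ n : ℕ, ∀ χ ∈ B, Cfsg.charDegree (χ : G → ℂ) = n := by
  classical
  have hM : M.IsMaximal := hMp.2.1
  have := Fintype.ofFinite (Cfsg.IrrCharacter G)
  have : IsAlgClosed (ResField M hM) := Helper76.k2_resField_isAlgClosed M hM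
  have hee := redIdem_mul_self hM hB
  have hec := redIdem_central hM B
  obtain ⟨𝔅, instR, instA, instF, φ, hφinj, hφmul, hφ1, hφrange⟩ :=
    Helper51.k2_corner (k := ResField M hM) (A := ConvAlg (ResField M hM) G) (redIdem hM B) hee hec
  have hfix : ∀ x : 𝔅, redIdem hM B * φ x = φ x := fun x => (hφrange (φ x)).mp ⟨x, rfl⟩
  have hpre : ∀ a : ConvAlg (ResField M hM) G, ∃ y : 𝔅, φ y = redIdem hM B * a := by
    intro a
    apply (hφrange _).mpr
    rw [← mul_assoc, hee]
  have hmulA : ∀ (x : 𝔅) (a : ConvAlg (ResField M hM) G),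
      φ x * a = φ x * (redIdem hM B * a) := by
    intro x a
    rw [← mul_assoc, ← hec (φ x), hfix]
  have hφ0 : φ 0 = 0 := map_zero φ
  let lam : 𝔅 →ₗ[ResField M hM] ResField M hM := (ConvAlg.lamOne (ResField M hM) G) ∘ₗ φ
  have hlam : ∀ x, lam x = ConvAlg.lamOne (ResField M hM) G (φ x) := fun x => rfl
  have hsym : ∀ x y, lam (x * y) = lam (y * x) := by
    intro x y
    rw [hlam, hlam, hφmul, hφmul, ConvAlg.lamOne_mul_comm]
  have hnd : ∀ x, (∀ y, lam (x * y) = 0) → x = 0 := by
    intro x hx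
    apply hφinj
    rw [hφ0]
    apply ConvAlg.lamOne_nondegenerate
    intro a
    obtain ⟨y, hy⟩ := hpre a
    rw [hmulA, ← hy, ← hφmul, ← hlam]
    exact hx y
  have hcent : ∀ x : 𝔅, (∀ a, x * a = a * x) →
      ∀ a : ConvAlg (ResField M hM) G, φ x * a = a * φ x := by
    intro x hx a
    obtain ⟨y, hy⟩ := hpre a
    rw [hmulA, ← hy, ← hφmul, hx y, hφmul, hy, hec a, mul_assoc, hfix]
  -- the centre has dimension at most four
  have hZ : ∀ v : Fin 5 → 𝔅, (∀ i a, v i * a = a * v i) →
      ¬ LinearIndependent (ResField M hM) v := by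
    intro v hv hli
    have h5 : Nat.card B + 1 ≤ 5 := by omega
    apply Helper88.kul_center_le hM hB (fun i => φ (v (Fin.castLE h5 i)))
      (fun i => ⟨hcent _ (hv _), hfix _⟩)
    have h1 : LinearIndependent (ResField M hM) (fun i => φ (v i)) :=
      hli.map' φ (LinearMap.ker_eq_bot.mpr hφinj)
    exact h1.comp (Fin.castLE h5) (Fin.castLE_injective h5)
  -- the centre has dimension at least `k(B)`
  obtain ⟨w, hwc, hwfix, hwli⟩ := Helper10.kul_center_ge hM hB
  obtain ⟨χ₀, hχ₀⟩ := block_nonempty hM hB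
  have hBpos : 0 < Nat.card B := Nat.card_pos_iff.mpr ⟨⟨⟨χ₀, hχ₀⟩⟩, Set.toFinite B |>.to_subtype⟩
  have he0 : redIdem hM B ≠ 0 := by
    intro h0
    have h1 := hwfix ⟨0, hBpos⟩
    rw [h0, zero_mul] at h1
    exact hwli.ne_zero ⟨0, hBpos⟩ h1.symm
  have h1ne : (1 : 𝔅) ≠ 0 := by
    intro h
    apply he0
    rw [← hφ1, h, hφ0]
  -- the projection onto the block
  obtain ⟨ψ, hψ⟩ := exists_corner_proj (redIdem hM B) hee hec φ hφinj hφmul hφ1 hφrange
  have hψφ : ∀ x : 𝔅, ψ (φ x) = x := by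
    intro x
    apply hφinj
    rw [hψ, hfix]
  have hψe : ∀ a, ψ (redIdem hM B * a) = ψ a := by
    intro a
    apply hφinj
    rw [hψ, hψ, ← mul_assoc, hee]
  -- Wedderburn
  obtain ⟨m, d, f, hf, hd, N, hN⟩ := Helper51.k2_wedderburn (ResField M hM) 𝔅
  have hp : (p : Cfsg.AlgInt) ∈ M := hMp.2.2
  have hm0 : m ≠ 0 := by
    rintro rfl
    apply h1ne
    have h1 := hN (List.replicate N 1) (List.length_replicate ..) (by
      intro y _
      funext i
      exact i.elim0)
    rwa [List.prod_replicate, one_pow] at h1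
  have hm1 : m ≤ 1 := by
    by_contra hcon
    have h2 : 2 ≤ m := by omega
    let i : Fin m := ⟨0, by omega⟩
    let j : Fin m := ⟨1, by omega⟩
    have hij : i ≠ j := by
      intro h
      have := congrArg Fin.val h
      simp [i, j] at this
    let ρ : ∀ l : Fin m, ConvAlg (ResField M hM) G →ₐ[ResField M hM]
        Matrix (Fin (d l)) (Fin (d l)) (ResField M hM) := fun l =>
      (Pi.evalAlgHom (ResField M hM) (fun l : Fin m => Matrix (Fin (d l)) (Fin (d l)) (ResField M hM)) l).comp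
        (f.comp ψ)
    have hρ : ∀ l a, ρ l a = f (ψ a) l := fun l a => rfl
    obtain ⟨c₁, c₂, hc, hrel⟩ := Helper67.kul_bridge hM p hp hB hl (ρ i) (ρ j)
      (fun a => by rw [hρ, hρ, hψe]) (fun a => by rw [hρ, hρ, hψe])
    have key : ∀ l : Fin m, ∃ x : 𝔅, (∀ l', l' ≠ l → f x l' = 0) ∧ (f x l).trace = 1 := by
      intro l
      obtain ⟨x, hx⟩ := hf (Pi.single l (Matrix.single (⟨0, hd l⟩ : Fin (d l)) ⟨0, hd l⟩ 1))
      refine ⟨x, fun l' hl' => ?_, ?_⟩
      · rw [hx, Pi.single_eq_of_ne hl']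
      · rw [hx, Pi.single_eq_same, Matrix.trace_single_eq_same]
    obtain ⟨x, hx0, hx1⟩ := key i
    obtain ⟨y, hy0, hy1⟩ := key j
    have e1 := hrel (φ x)
    rw [hρ, hρ, hψφ, hx1, hx0 j hij.symm, Matrix.trace_zero, mul_one, mul_zero, add_zero] at e1
    have e2 := hrel (φ y)
    rw [hρ, hρ, hψφ, hy1, hy0 i hij, Matrix.trace_zero, mul_one, mul_zero, zero_add] at e2
    rcases hc with h | h
    · exact h e1
    · exact h e2
  obtain rfl : m = 1 := by omega
  -- the unique simple module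
  obtain ⟨n, hn⟩ : ∃ n, n = d 0 := ⟨_, rfl⟩
  let g : 𝔅 →ₐ[ResField M hM] Matrix (Fin (d 0)) (Fin (d 0)) (ResField M hM) :=
    (Pi.evalAlgHom (ResField M hM)
      (fun l : Fin 1 => Matrix (Fin (d l)) (Fin (d l)) (ResField M hM)) 0).comp f
  have hgf : ∀ x, g x = f x 0 := fun x => rfl
  have hg : Function.Surjective g := by
    intro X
    obtain ⟨x, hx⟩ := hf (Pi.single 0 X)
    exact ⟨x, by rw [hgf, hx, Pi.single_eq_same]⟩
  have hN' : ∀ l : List 𝔅, l.length = N → (∀ x ∈ l, g x = 0) → l.prod = 0 := by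
    intro l hl hx
    apply hN l hl
    intro x hxl
    funext i
    have hi : i = 0 := Subsingleton.elim _ _
    subst hi
    exact hx x hxl
  have hd0 : 0 < d 0 := hd 0
  obtain ⟨ε, a, b, hε, hgε, hab⟩ := Helper47.k2_exists_idem (d 0) hd0 g hg N hN'
  -- generation over the centre
  have hgen : ∀ x : ConvAlg (ResField M hM) G, redIdem hM B * x = x →
      ∃ z : Fin (d 0) × Fin (d 0) → ConvAlg (ResField M hM) G,
        (∀ i y, z i * y = y * z i) ∧ x = ∑ i, z i * φ (a i.1 * ε * b i.2) := by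
    intro x hx
    obtain ⟨x', rfl⟩ := (hφrange x).mpr hx
    obtain ⟨z, hz, hxz⟩ := kul_gen_center lam hsym hnd hZ (d 0) hd0 g N hN' ε a b hε hgε hab x'
    refine ⟨fun i => φ (z i), fun i y => hcent (z i) (hz i) y, ?_⟩
    conv_lhs => rw [hxz]
    rw [map_sum]
    exact Finset.sum_congr rfl fun i _ => hφmul _ _
  have hdeg : ∀ χ ∈ B, Cfsg.charDegree (χ : G → ℂ) ≤ d 0 := by
    intro χ hχ
    have h1 := Helper58.kul_degree_le hM hB (fun i : Fin (d 0) × Fin (d 0) => φ (a i.1 * ε * b i.2)) hgen χ hχ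
    rw [Fintype.card_prod, Fintype.card_fin, ← sq] at h1
    exact (Nat.pow_le_pow_iff_left two_ne_zero).mp h1
  -- the dimension
  have hw' : ∀ i, ∃ y : 𝔅, φ y = w i := fun i => (hφrange _).mpr (hwfix i)
  choose w' hw' using hw'
  have hw'c : ∀ i (x : 𝔅), w' i * x = x * w' i := by
    intro i x
    apply hφinj
    rw [hφmul, hφmul, hw', hwc]
  have hw'li : LinearIndependent (ResField M hM) w' := by
    have h1 : (fun i => φ (w' i)) = w := funext hw'
    have h2 : LinearIndependent (ResField M hM) (φ ∘ w') := by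
      rw [show φ ∘ w' = w from h1]
      exact hwli
    exact h2.of_comp φ
  have hfree := Helper69.kul_free (d 0) hd0 g N hN' ε a b hε hgε hab (Nat.card B) w' hw'c hw'li
  have hrange : LinearMap.range (LinearMap.mulLeft (ResField M hM) (redIdem hM B))
      = LinearMap.range φ := by
    ext a
    rw [LinearMap.mem_range, LinearMap.mem_range]
    constructor
    · rintro ⟨b, rfl⟩
      exact hpre b
    · rintro ⟨x, rfl⟩
      exact ⟨φ x, hfix x⟩
  have hfin : Module.finrank (ResField M hM) 𝔅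
      = ∑ χ ∈ Finset.univ.filter (fun χ : Cfsg.IrrCharacter G => χ ∈ B),
          Cfsg.charDegree (χ : G → ℂ) ^ 2 := by
    apply Nat.cast_injective (R := ℂ)
    rw [← card_mul_blockCoeff_one B, ← finrank_range_mulLeft_redIdem hM hB, hrange,
      LinearMap.finrank_range_of_inj hφinj]
  have hcardB : Nat.card B = (Finset.univ.filter (fun χ : Cfsg.IrrCharacter G => χ ∈ B)).card := by
    rw [← Fintype.card_subtype]
    exact Nat.card_eq_fintype_card
  refine ⟨d 0, fun χ hχ => ?_⟩
  by_contra hne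
  have hlt : Cfsg.charDegree (χ : G → ℂ) < d 0 := lt_of_le_of_ne (hdeg χ hχ) hne
  have hsum : ∑ χ ∈ Finset.univ.filter (fun χ : Cfsg.IrrCharacter G => χ ∈ B),
      Cfsg.charDegree (χ : G → ℂ) ^ 2
      < ∑ _χ ∈ Finset.univ.filter (fun χ : Cfsg.IrrCharacter G => χ ∈ B), (d 0) ^ 2 := by
    apply Finset.sum_lt_sum
    · intro ψ hψ
      exact Nat.pow_le_pow_left (hdeg ψ (Finset.mem_filter.mp hψ).2) 2
    · exact ⟨χ, Finset.mem_filter.mpr ⟨Finset.mem_univ _, hχ⟩, Nat.pow_lt_pow_left hlt two_ne_zero⟩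
  rw [Finset.sum_const, smul_eq_mul, ← hcardB, ← hfin] at hsum
  omega

end kulmain

end Cfsg.Agent.Helper77
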