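import Cfsg.Agent.Helper77.AbelNilRank2
import Cfsg.Agent.Helper16.BrauerCorr
import Cfsg.Agent.Helper16.BlockInd
import Mathlib

/-!
# Nilpotency of a block with `l(B) = 1` and `k(B) = |D| ≤ 4`

* `kul_orbit`: a `p`-regular element normalizing but not centralizing a `p`-group `Q` of order at
  most four permutes `Q ∖ {1}` transitively, and `|Q| ≥ 3`.
-/

set_option autoImplicit false
set_option linter.style.haveILetI false
open Cfsg
open scoped ComplexConjugate

namespace Cfsg.Agent.Helper77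

universe u

section orbit

variable {G : Type u} [Group G] [Fintype G]

/-- A `p`-regular element normalizing but not centralizing a `p`-group of order at most four
permutes its nontrivial elements transitively. -/
theorem kul_orbit {p : ℕ} [Fact p.Prime] (Q : Subgroup G) (hQ : IsPGroup p Q)
    (h4 : Nat.card Q ≤ 4) (x : G) (hxN : x ∈ Subgroup.normalizer (Q : Set G))
    (hreg : ¬ p ∣ orderOf x) (hxC : x ∉ Subgroup.centralizer (Q : Set G)) :
    3 ≤ Nat.card Q ∧
      ∀ a ∈ Q, a ≠ 1 → ∀ b ∈ Q, b ≠ 1 → ∃ h ∈ Subgroup.zpowers x, h * a * h⁻¹ = b := by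
  classical
  have hp : p.Prime := Fact.out
  have hcQ : ∀ a ∈ Q, x * a * x⁻¹ ∈ Q := fun a ha =>
    (Subgroup.mem_normalizer_iff.mp hxN a).mp ha
  have hinj : ∀ a b : G, x * a * x⁻¹ = x * b * x⁻¹ → a = b := by
    intro a b h
    have h2 : x⁻¹ * (x * a * x⁻¹) * x = x⁻¹ * (x * b * x⁻¹) * x := by rw [h]
    simpa [mul_assoc] using h2
  obtain ⟨u, huQ, hu⟩ : ∃ u ∈ Q, x * u * x⁻¹ ≠ u := by
    by_contra hcon
    push_neg at hcon
    apply hxC
    rw [Subgroup.mem_centralizer_iff]
    intro q hq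
    have h1 := hcon q hq
    calc q * x = (x * q * x⁻¹) * x := by rw [h1]
      _ = x * q := by group
  obtain ⟨v, hv⟩ : ∃ v, v = x * u * x⁻¹ := ⟨_, rfl⟩
  obtain ⟨w, hw⟩ : ∃ w, w = x * v * x⁻¹ := ⟨_, rfl⟩
  have hvQ : v ∈ Q := hv ▸ hcQ u huQ
  have hwQ : w ∈ Q := hw ▸ hcQ v hvQ
  have hvu : v ≠ u := hv ▸ hu
  have hu1 : u ≠ 1 := by
    rintro rfl
    apply hu
    group
  have hv1 : v ≠ 1 := by
    intro h
    apply hu1
    apply hinj
    rw [← hv, h]
    group
  have hw1 : w ≠ 1 := by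
    intro h
    apply hv1
    apply hinj
    rw [← hw, h]
    group
  have hwv : w ≠ v := by
    intro h
    apply hvu
    apply hinj
    rw [← hw, ← hv, h]
  obtain ⟨Qf, hQf⟩ : ∃ Qf : Finset G, Qf = Finset.univ.filter (fun g : G => g ∈ Q) := ⟨_, rfl⟩
  have hmemQf : ∀ g, g ∈ Qf ↔ g ∈ Q := by
    intro g
    rw [hQf]
    simp
  have hcard : Nat.card Q = Qf.card := by
    rw [hQf, ← Fintype.card_subtype]
    exact Nat.card_eq_fintype_card
  have h3sub : ({1, u, v} : Finset G) ⊆ Qf := by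
    intro g hg
    rw [Finset.mem_insert, Finset.mem_insert, Finset.mem_singleton] at hg
    rw [hmemQf]
    rcases hg with rfl | rfl | rfl
    · exact Q.one_mem
    · exact huQ
    · exact hvQ
  have h3card : ({1, u, v} : Finset G).card = 3 := by
    rw [Finset.card_insert_of_notMem, Finset.card_insert_of_notMem, Finset.card_singleton]
    · rw [Finset.mem_singleton]
      exact hvu.symm
    · rw [Finset.mem_insert, Finset.mem_singleton]
      push_neg
      exact ⟨hu1.symm, hv1.symm⟩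
  have h3 : 3 ≤ Nat.card Q := by
    rw [hcard, ← h3card]
    exact Finset.card_le_card h3sub
  refine ⟨h3, ?_⟩
  -- everything is in the orbit of `u`
  have horb : ∀ a ∈ Q, a ≠ 1 → ∃ h ∈ Subgroup.zpowers x, h * u * h⁻¹ = a := by
    by_cases hwu : w = u
    · -- `x` swaps `u` and `v`
      have hp2 : p ≠ 2 := by
        rintro rfl
        have hodd : ¬ 2 ∣ orderOf x := hreg
        have hpow : ∀ k : ℕ, x ^ (2 * k) * u * (x ^ (2 * k))⁻¹ = u := by
          intro k
          induction k with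
          | zero => simp
          | succ k ih =>
            have e1 : x ^ (2 * (k + 1)) = x * x * x ^ (2 * k) := by
              rw [mul_add, mul_one, pow_add, pow_two, mul_comm]
              group
            calc x ^ (2 * (k + 1)) * u * (x ^ (2 * (k + 1)))⁻¹
                = x * (x * (x ^ (2 * k) * u * (x ^ (2 * k))⁻¹) * x⁻¹) * x⁻¹ := by
                  rw [e1]; group
              _ = x * (x * u * x⁻¹) * x⁻¹ := by rw [ih]
              _ = u := by rw [← hv, ← hw, hwu]
        obtain ⟨k, hk⟩ : ∃ k, orderOf x = 2 * k + 1 := by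
          have := Nat.odd_iff.mpr (Nat.two_dvd_ne_zero.mp hodd)
          obtain ⟨k, hk⟩ := this
          exact ⟨k, hk⟩
        have h1 : x ^ (2 * k + 1) = 1 := by rw [← hk]; exact pow_orderOf_eq_one x
        have h2 : x ^ (2 * k + 1) * u * (x ^ (2 * k + 1))⁻¹ = v := by
          calc x ^ (2 * k + 1) * u * (x ^ (2 * k + 1))⁻¹
              = x * (x ^ (2 * k) * u * (x ^ (2 * k))⁻¹) * x⁻¹ := by
                rw [pow_succ']; group
            _ = v := by rw [hpow k, hv]
        rw [h1] at h2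
        apply hvu
        rw [← h2]
        group
      obtain ⟨n, hn⟩ := IsPGroup.iff_card.mp hQ
      have hQ3 : Nat.card Q = 3 := by
        have hp3 : 3 ≤ p := by
          have := hp.two_le
          omega
        rcases Nat.lt_or_ge n 2 with hn2 | hn2
        · interval_cases n
          · rw [pow_zero] at hn; omega
          · rw [pow_one] at hn
            have : p ≤ 4 := by omega
            interval_cases p
            · exact hn
            · exact absurd hp (by decide)
        · have : p ^ 2 ≤ p ^ n := Nat.pow_le_pow_right hp.pos hn2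
          have : 9 ≤ p ^ 2 := by nlinarith
          omega
      have hQeq : ({1, u, v} : Finset G) = Qf :=
        Finset.eq_of_subset_of_card_le h3sub (by rw [h3card, ← hcard, hQ3])
      intro a ha ha1
      have ha' : a ∈ ({1, u, v} : Finset G) := by rw [hQeq, hmemQf]; exact ha
      rw [Finset.mem_insert, Finset.mem_insert, Finset.mem_singleton] at ha'
      rcases ha' with rfl | rfl | rfl
      · exact absurd rfl ha1
      · exact ⟨1, Subgroup.one_mem _, by group⟩
      · exact ⟨x, Subgroup.mem_zpowers x, hv.symm⟩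
    · -- `x` permutes `u, v, w` cyclically
      have h4sub : ({1, u, v, w} : Finset G) ⊆ Qf := by
        intro g hg
        rw [Finset.mem_insert, Finset.mem_insert, Finset.mem_insert, Finset.mem_singleton] at hg
        rw [hmemQf]
        rcases hg with rfl | rfl | rfl | rfl
        · exact Q.one_mem
        · exact huQ
        · exact hvQ
        · exact hwQ
      have h4card : ({1, u, v, w} : Finset G).card = 4 := by
        rw [Finset.card_insert_of_notMem, Finset.card_insert_of_notMem,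
          Finset.card_insert_of_notMem, Finset.card_singleton]
        · rw [Finset.mem_singleton]
          exact hwv.symm
        · rw [Finset.mem_insert, Finset.mem_singleton]
          push_neg
          exact ⟨hvu.symm, fun h => hwu h.symm⟩
        · rw [Finset.mem_insert, Finset.mem_insert, Finset.mem_singleton]
          push_neg
          exact ⟨hu1.symm, hv1.symm, hw1.symm⟩
      have hQeq : ({1, u, v, w} : Finset G) = Qf :=
        Finset.eq_of_subset_of_card_le h4sub (by rw [h4card, ← hcard]; exact h4)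
      intro a ha ha1
      have ha' : a ∈ ({1, u, v, w} : Finset G) := by rw [hQeq, hmemQf]; exact ha
      rw [Finset.mem_insert, Finset.mem_insert, Finset.mem_insert, Finset.mem_singleton] at ha'
      rcases ha' with rfl | rfl | rfl | rfl
      · exact absurd rfl ha1
      · exact ⟨1, Subgroup.one_mem _, by group⟩
      · exact ⟨x, Subgroup.mem_zpowers x, hv.symm⟩
      · refine ⟨x * x, Subgroup.mul_mem _ (Subgroup.mem_zpowers x) (Subgroup.mem_zpowers x), ?_⟩
        rw [hw, hv]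
        group
  intro a ha ha1 b hb hb1
  obtain ⟨h₁, hh₁, e₁⟩ := horb a ha ha1
  obtain ⟨h₂, hh₂, e₂⟩ := horb b hb hb1
  refine ⟨h₂ * h₁⁻¹, Subgroup.mul_mem _ hh₂ (Subgroup.inv_mem _ hh₁), ?_⟩
  rw [← e₁, ← e₂]
  group

end orbit

section locnil

variable {G : Type u} [Group G] [Fintype G]

/-- A `p`-group of order at most four is abelian. -/
theorem comm_of_card_le_four {p : ℕ} [Fact p.Prime] (H : Subgroup G) (hH : IsPGroup p H)
    (h4 : Nat.card H ≤ 4) : ∀ a ∈ H, ∀ b ∈ H, a * b = b * a := by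
  have hp : p.Prime := Fact.out
  obtain ⟨n, hn⟩ := IsPGroup.iff_card.mp hH
  have key : ∀ a b : H, a * b = b * a := by
    rcases Nat.lt_or_ge n 2 with hn2 | hn2
    · interval_cases n
      · rw [pow_zero] at hn
        have : Subsingleton H := (Nat.card_eq_one_iff_unique.mp hn).1
        intro a b
        rw [Subsingleton.elim a b]
      · rw [pow_one] at hn
        have : IsCyclic H := isCyclic_of_prime_card hn
        intro a b
        exact (IsCyclic.commGroup (α := H)).mul_comm a b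
    · have h2 : n = 2 := by
        by_contra hne
        have h3 : 3 ≤ n := by omega
        have h5 : p ^ 3 ≤ p ^ n := Nat.pow_le_pow_right hp.pos h3
        have h6 : 2 ^ 3 ≤ p ^ 3 := Nat.pow_le_pow_left hp.two_le 3
        omega
      subst h2
      exact IsPGroup.commutative_of_card_eq_prime_sq hn
  intro a ha b hb
  exact congrArg Subtype.val (key ⟨a, ha⟩ ⟨b, hb⟩)

/-- `|Q| ≤ |D|` for a Brauer pair `(Q, f)` of a block with defect group `D`. -/
theorem card_le_of_isBrauerPairOf {p : ℕ} [Fact p.Prime] {M : Ideal Cfsg.AlgInt}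
    (hM : Cfsg.IsPModular p M) {B : Set (Cfsg.IrrCharacter G)} {Q : Subgroup G}
    {f : Set (Cfsg.IrrCharacter (Subgroup.centralizer (Q : Set G)))}
    (hQf : Cfsg.IsBrauerPairOf p M B Q f) {D : Subgroup G} (hD : Cfsg.IsDefectGroup p M B D) :
    Nat.card Q ≤ Nat.card D := by
  obtain ⟨P₀, e₀, hmax₀, hle₀⟩ := exists_isMaximalBrauerPair_ge hQf
  have h2 : Q ≤ P₀ := Helper75.subpairLE_fst_le hle₀
  have h3 := isDefectGroup_of_isMaximalBrauerPair hM B P₀ e₀ hmax₀
  have h4 := Helper16.isDefectGroup_card_eq hM hQf.2.1 h3 hD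
  rw [← h4]
  exact Subgroup.card_le_of_le h2

/-- Two powers of `p` between three and four are equal. -/
theorem card_eq_of_three_le {p : ℕ} [Fact p.Prime] {a b : ℕ} (ha : ∃ n, a = p ^ n)
    (hb : ∃ n, b = p ^ n) (h3 : 3 ≤ a) (hab : a ≤ b) (h4 : b ≤ 4) : a = b := by
  have hp : p.Prime := Fact.out
  obtain ⟨n, rfl⟩ := ha
  obtain ⟨m, rfl⟩ := hb
  by_contra hne
  have hlt : p ^ n < p ^ m := lt_of_le_of_ne hab hne
  have hnm : n < m := (Nat.pow_lt_pow_iff_right hp.one_lt).mp hlt
  have h5 : p ^ (n + 1) ≤ p ^ m := Nat.pow_le_pow_right hp.pos hnm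
  rw [pow_succ] at h5
  have := hp.two_le
  nlinarith

/-- A block with defect groups of order at most four of a group with a nontrivial central
`p`-element is nilpotent and has one irreducible Brauer character. -/
theorem kul_rank_one_of_central {p : ℕ} [Fact p.Prime] {M : Ideal Cfsg.AlgInt}
    (hM : Cfsg.IsPModular p M) {B : Set (Cfsg.IrrCharacter G)} (hB : Cfsg.IsPBlock M B)
    {D : Subgroup G} (hD : Cfsg.IsDefectGroup p M B D) (h4 : Nat.card D ≤ 4) (y : G)
    (hyZ : ∀ g : G, g * y = y * g) (hy1 : y ≠ 1) (hyp : ∃ k : ℕ, orderOf y = p ^ k) :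
    Cfsg.blockRank p B = 1 := by
  classical
  have hp : p.Prime := Fact.out
  obtain ⟨-, -, -, -, hDp⟩ := Helper16.isDefectGroup_exists_data hD
  have hDab := comm_of_card_le_four D hDp h4
  have hyN : (Subgroup.zpowers y).Normal := by
    refine ⟨fun n hn g => ?_⟩
    obtain ⟨i, rfl⟩ := Subgroup.mem_zpowers_iff.mp hn
    have h1 : g * y ^ i * g⁻¹ = y ^ i := by
      have h2 : Commute g y := hyZ g
      have h3 : g * y ^ i = y ^ i * g := (h2.zpow_right i)
      rw [h3]; group
    rw [h1]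
    exact Subgroup.zpow_mem _ (Subgroup.mem_zpowers y) i
  have hyP : IsPGroup p (Subgroup.zpowers y) := by
    obtain ⟨k, hk⟩ := hyp
    apply IsPGroup.iff_card.mpr
    exact ⟨k, by rw [Nat.card_zpowers, hk]⟩
  have hnil : Cfsg.IsNilpotentBlock p M B := by
    refine ⟨hB, fun Q e hpair x hxN hstab hreg => ?_⟩
    by_contra hxC
    have hle := card_le_of_isBrauerPairOf hM hpair hD
    obtain ⟨h3, horb⟩ := kul_orbit Q hpair.1.1 (le_trans hle h4) x hxN hreg hxC
    have hcard : Nat.card Q = Nat.card D :=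
      card_eq_of_three_le (IsPGroup.iff_card.mp hpair.1.1) (IsPGroup.iff_card.mp hDp) h3 hle h4
    have hmax := isMaximalBrauerPair_of_card_eq hM hpair hD hcard
    have hQD := isDefectGroup_of_isMaximalBrauerPair hM B Q e hmax
    have hyQ : y ∈ Q :=
      (Helper16.normal_pSubgroup_le_defectGroup hM (Subgroup.zpowers y) hyP hB hQD)
        (Subgroup.mem_zpowers y)
    obtain ⟨v, hvQ, hv1, hvy⟩ : ∃ v ∈ Q, v ≠ 1 ∧ v ≠ y := by
      by_contra hcon
      push_neg at hcon
      have hsub : ∀ q : Q, q = 1 ∨ q = ⟨y, hyQ⟩ := by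
        intro q
        by_cases hq : (q : G) = 1
        · left; exact Subtype.ext hq
        · right; exact Subtype.ext (hcon q q.2 hq)
      have hfin : Fintype Q := Fintype.ofFinite Q
      have hc : Fintype.card Q ≤ ({1, ⟨y, hyQ⟩} : Finset Q).card := by
        apply Finset.card_le_card_of_surjOn (fun q => q)
        intro q _
        refine ⟨q, ?_, rfl⟩
        rcases hsub q with h | h
        · rw [h]; simp
        · rw [h]; simp
      have hc2 : ({1, ⟨y, hyQ⟩} : Finset Q).card ≤ 2 := Finset.card_le_two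
      rw [Nat.card_eq_fintype_card] at h3
      omega
    obtain ⟨h, -, e1⟩ := horb y hyQ hy1 v hvQ hv1
    apply hvy
    rw [← e1, hyZ h]
    group
  have hDC : D ≤ Subgroup.centralizer (D : Set G) := le_centralizer_of_le_of_comm hDab le_rfl
  letI : Fintype ↥(Subgroup.centralizer (D : Set G)) := Fintype.ofFinite _
  obtain ⟨c, hc⟩ := Helper16.exists_isInducedBlock_of_conjLE hM D
    (Subgroup.centralizer (D : Set G)) hDp hDC le_rfl
    (Subgroup.centralizer_le_normalizer _) hB hD (Helper16.ConjLE.of_le le_rfl)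
  have hpair := isBrauerPairOf_of_isInducedBlock hM D hDp hDC c hc
  have hmax := isMaximalBrauerPair_of_card_eq hM hpair hD rfl
  exact blockRank_eq_one_of_nilpotent_abelian hM hnil hmax hDab

end locnil

section subsections

variable {G : Type u} [Group G] [Fintype G]

/-- **Brauer's formula** `k(B) = l(B) + Σ l(b)`, the sum over the subsections `(x, b)`, `x ≠ 1`. -/
theorem card_block_eq_rank_add [DecidableEq G] {p : ℕ} [Fact p.Prime] {M : Ideal Cfsg.AlgInt}
    (hM : Cfsg.IsPModular p M) {B : Set (Cfsg.IrrCharacter G)} (hB : Cfsg.IsPBlock M B)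
    (X : Finset G) (hX : ∀ x ∈ X, ∃ k : ℕ, orderOf x = p ^ k)
    (hXrep : ∀ g : G, (∃ k : ℕ, orderOf g = p ^ k) → ∃! x, x ∈ X ∧ IsConj g x)
    (h1 : (1 : G) ∈ X) :
    Nat.card B = Cfsg.blockRank p B
      + ∑ x ∈ X.erase 1, ∑ b ∈ indBlocks M B x, Cfsg.blockRank p b := by
  classical
  have hp : p.Prime := Fact.out
  have := Fintype.ofFinite (Cfsg.IrrCharacter G)
  rw [Helper82.card_block_eq_sum_ranks p M hM B hB X hX hXrep, ← Finset.add_sum_erase X _ h1]
  congr 1
  · -- the term of `x = 1`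
    apply Nat.cast_injective (R := ℂ)
    have hcard : (Nat.card G : ℂ) ≠ 0 := by
      have : 0 < Nat.card G := Nat.card_pos
      exact_mod_cast this.ne'
    rw [Helper82.section_rank hM 1 ⟨0, by simp⟩ hB, card_centralizer_one]
    have h3 : ∀ y : ↥(Subgroup.centralizer ({1} : Set G)),
        (if ¬ p ∣ orderOf y then (∑ᶠ ζ ∈ B, (ζ : G → ℂ) (1 * (y : G))
          * conj ((ζ : G → ℂ) (1 * (y : G)))) else 0)
        = (fun g : G => if ¬ p ∣ orderOf g then (∑ᶠ ζ ∈ B, (ζ : G → ℂ) (1 * g)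
          * conj ((ζ : G → ℂ) (1 * g))) else 0) (y : G) := by
      intro y
      simp only [Subgroup.orderOf_coe]
    rw [finsum_congr h3, finsum_centralizer_one (fun g : G => if ¬ p ∣ orderOf g then
      (∑ᶠ ζ ∈ B, (ζ : G → ℂ) (1 * g) * conj ((ζ : G → ℂ) (1 * g))) else 0)]
    have h4 := card_mul_blockRank (p := p) hM hB
    have h5 : (Cfsg.blockRank p B : ℂ) = (Nat.card G : ℂ)⁻¹ *
        ∑ χ ∈ Finset.univ.filter (fun ψ : Cfsg.IrrCharacter G => ψ ∈ B),
          pregInner p (χ : G → ℂ) (χ : G → ℂ) := by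
      rw [← h4, ← mul_assoc, inv_mul_cancel₀ hcard, one_mul]
    rw [h5]
    congr 1
    unfold pregInner
    rw [Finset.sum_comm]
    refine Finset.sum_congr rfl fun g _ => ?_
    by_cases hg : p ∣ orderOf g
    · simp only [hg, not_true, if_false, Finset.sum_const_zero]
    · simp only [hg, not_false_iff, if_true, one_mul]
      rw [finsum_mem_eq_finite_toFinset_sum _ (Set.toFinite B)]
      refine Finset.sum_congr ?_ (fun _ _ => rfl)
      ext ζ
      simp
  · refine Finset.sum_congr rfl fun x _ => ?_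
    rw [finsum_mem_eq_finite_toFinset_sum _ (Set.toFinite _)]
    rfl

/-- The blocks of the subsections `(x, b)`, `x ≠ 1`, of a block with defect groups of order at
most four have one irreducible Brauer character. -/
theorem kul_subsection_rank {p : ℕ} [Fact p.Prime] {M : Ideal Cfsg.AlgInt}
    (hM : Cfsg.IsPModular p M) {B : Set (Cfsg.IrrCharacter G)}
    {D : Subgroup G} (hD : Cfsg.IsDefectGroup p M B D) (h4 : Nat.card D ≤ 4) (x : G)
    (hx1 : x ≠ 1) (hxp : ∃ k : ℕ, orderOf x = p ^ k)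
    (b : Set (Cfsg.IrrCharacter ↥(Subgroup.centralizer ({x} : Set G))))
    (hb : Cfsg.IsInducedBlock M (Subgroup.centralizer ({x} : Set G)) b B) :
    Cfsg.blockRank p b = 1 := by
  classical
  letI : Fintype ↥(Subgroup.centralizer ({x} : Set G)) := Fintype.ofFinite _
  have hMm := hM.2.1
  obtain ⟨Db, hDb⟩ := Helper16.exists_isDefectGroup (p := p) hMm hb.1
  have h2 := Helper16.induced_defect_conjLE hM _ hb hDb hD
  have h3 : Nat.card Db ≤ 4 := by
    have h5 := h2.card_le
    rw [Subgroup.card_map_of_injective (Subgroup.subtype_injective _)] at h5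
    omega
  apply kul_rank_one_of_central hM hb.1 hDb h3 ⟨x, self_mem_centralizer_singleton x⟩
  · intro g
    apply Subtype.ext
    exact (centralizer_singleton_comm x g).symm
  · intro h
    apply hx1
    exact congrArg Subtype.val h
  · obtain ⟨k, hk⟩ := hxp
    exact ⟨k, by rw [← hk]; exact Subgroup.orderOf_mk x _⟩

omit [Fintype G] in
theorem castBlock_castBlock {H K : Subgroup G} (h : H = K) (h' : K = H)
    (b : Set (Cfsg.IrrCharacter ↥K)) : castBlock h (castBlock h' b) = b := by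
  subst h
  rfl

omit [Fintype G] in
theorem castBlock_congr (a a' : Cfsg.BrauerPairIdx G) (K : Subgroup G)
    (hc : Subgroup.centralizer ((a.1 : Subgroup G) : Set G) = K)
    (hc' : Subgroup.centralizer ((a'.1 : Subgroup G) : Set G) = K) (h : a = a') :
    castBlock hc a.2 = castBlock hc' a'.2 := by
  subst h
  rfl

/-- The subsection `σ` is the conjugate of the Brauer pair `a` on `⟨u⟩`, which lies below
`(P, e)`. -/
def SubsecAtt (p : ℕ) (M : Ideal Cfsg.AlgInt) (P : Subgroup G)
    (e : Set (Cfsg.IrrCharacter (Subgroup.centralizer (P : Set G)))) (u : G)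
    (a : Cfsg.BrauerPairIdx G)
    (σ : Σ x : G, Set (Cfsg.IrrCharacter ↥(Subgroup.centralizer ({x} : Set G)))) : Prop :=
  a.1 = Subgroup.zpowers u ∧
    Relation.ReflTransGen (Cfsg.NormalSubpairRel p M) a ⟨P, e⟩ ∧
    ∃ g : G, g * u * g⁻¹ = σ.1 ∧
      ∃ hc : Subgroup.centralizer (((conjPair g a).1 : Subgroup G) : Set G)
          = Subgroup.centralizer ({σ.1} : Set G),
        σ.2 = castBlock hc (conjPair g a).2

/-- Every subsection is attached to some nontrivial element of `P`. -/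
theorem exists_subsecAtt [DecidableEq G] {p : ℕ} [Fact p.Prime] {M : Ideal Cfsg.AlgInt}
    (hM : Cfsg.IsPModular p M) {B : Set (Cfsg.IrrCharacter G)} {P : Subgroup G}
    {e : Set (Cfsg.IrrCharacter (Subgroup.centralizer (P : Set G)))}
    (hmax : Cfsg.IsMaximalBrauerPair p M B P e)
    (X : Finset G) (hX : ∀ x ∈ X, ∃ k : ℕ, orderOf x = p ^ k)
    (σ : Σ x : G, Set (Cfsg.IrrCharacter ↥(Subgroup.centralizer ({x} : Set G))))
    (hσ : σ ∈ (X.erase 1).sigma (indBlocks M B)) :
    ∃ (u : G) (a : Cfsg.BrauerPairIdx G), u ∈ P ∧ u ≠ 1 ∧ SubsecAtt p M P e u a σ := by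
  classical
  obtain ⟨y, b⟩ := σ
  rw [Finset.mem_sigma] at hσ
  obtain ⟨hy, hb⟩ := hσ
  have hy1 : y ≠ 1 := (Finset.mem_erase.mp hy).1
  have hyX : y ∈ X := (Finset.mem_erase.mp hy).2
  have hb' : Cfsg.IsInducedBlock M (Subgroup.centralizer ({y} : Set G)) b B := mem_indBlocks.mp hb
  have hc₀ := centralizer_zpowers_eq y
  have hind : Cfsg.IsInducedBlock M
      (Subgroup.centralizer ((Subgroup.zpowers y : Subgroup G) : Set G))
      (castBlock hc₀.symm b) B := (isInducedBlock_castBlock hc₀.symm b B).mpr hb'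
  have hyP : IsPGroup p (Subgroup.zpowers y) := by
    obtain ⟨k, hk⟩ := hX y hyX
    apply IsPGroup.iff_card.mpr
    exact ⟨k, by rw [Nat.card_zpowers, hk]⟩
  have hPC : Subgroup.zpowers y
      ≤ Subgroup.centralizer ((Subgroup.zpowers y : Subgroup G) : Set G) := by
    rw [hc₀]
    exact Subgroup.zpowers_le.mpr (self_mem_centralizer_singleton y)
  have hpair := isBrauerPairOf_of_isInducedBlock hM (Subgroup.zpowers y) hyP hPC _ hind
  obtain ⟨x, hx⟩ := exists_subpairLE_conj_of_isMaximalBrauerPair hM B P (Subgroup.zpowers y) e _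
    hmax hpair
  obtain ⟨a₀, ha₀⟩ : ∃ a₀ : Cfsg.BrauerPairIdx G,
      a₀ = ⟨Subgroup.zpowers y, castBlock hc₀.symm b⟩ := ⟨_, rfl⟩
  have hle : Relation.ReflTransGen (Cfsg.NormalSubpairRel p M) (conjPair x a₀) ⟨P, e⟩ := by
    rw [ha₀]
    exact hx
  have ha1 : (conjPair x a₀).1 = Subgroup.zpowers (x * y * x⁻¹) := by
    rw [ha₀]
    exact map_conj_zpowers x y
  have huP : x * y * x⁻¹ ∈ P := by
    have h1 : (conjPair x a₀).1 ≤ P := Helper75.subpairLE_fst_le hle
    apply h1
    rw [ha1]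
    exact Subgroup.mem_zpowers _
  have hu1 : x * y * x⁻¹ ≠ 1 := by
    intro h
    apply hy1
    have h2 : y = x⁻¹ * (x * y * x⁻¹) * x := by group
    rw [h2, h]
    group
  refine ⟨x * y * x⁻¹, conjPair x a₀, huP, hu1, ha1, hle, x⁻¹, by group, ?_⟩
  rw [conjPair_inv_conjPair, ha₀]
  exact ⟨hc₀, (castBlock_castBlock hc₀ hc₀.symm b).symm⟩

/-- Transport of the attachment along an element stabilizing `(P, e)`. -/
theorem subsecAtt_conj {p : ℕ} [Fact p.Prime] {M : Ideal Cfsg.AlgInt}
    {P : Subgroup G} {e : Set (Cfsg.IrrCharacter (Subgroup.centralizer (P : Set G)))}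
    {u : G} {a : Cfsg.BrauerPairIdx G}
    {σ : Σ x : G, Set (Cfsg.IrrCharacter ↥(Subgroup.centralizer ({x} : Set G)))}
    (h : G) (hh : conjPair h ⟨P, e⟩ = ⟨P, e⟩) (hatt : SubsecAtt p M P e u a σ) :
    SubsecAtt p M P e (h * u * h⁻¹) (conjPair h a) σ := by
  obtain ⟨ha1, hle, g, hg, hc, hb⟩ := hatt
  refine ⟨?_, ?_, g * h⁻¹, ?_, ?_⟩
  · show a.1.map (MulAut.conj h).toMonoidHom = _
    rw [ha1, map_conj_zpowers]
  · have h1 := subpairLE_conjPair (p := p) (M := M) h hle
    rwa [hh] at h1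
  · rw [← hg]
    group
  · rw [conjPair_mul, conjPair_inv_conjPair]
    exact ⟨hc, hb⟩

/-- Two pairs below `(P, e)` on the same subgroup are equal. -/
theorem pair_eq_of_le {p : ℕ} [Fact p.Prime] {M : Ideal Cfsg.AlgInt}
    (hM : Cfsg.IsPModular p M) {P : Subgroup G}
    {e : Set (Cfsg.IrrCharacter (Subgroup.centralizer (P : Set G)))}
    (hPe : Cfsg.IsBrauerPair p M P e) {a a' : Cfsg.BrauerPairIdx G}
    (h : Relation.ReflTransGen (Cfsg.NormalSubpairRel p M) a ⟨P, e⟩)
    (h' : Relation.ReflTransGen (Cfsg.NormalSubpairRel p M) a' ⟨P, e⟩) (h1 : a.1 = a'.1) :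
    a = a' := by
  obtain ⟨Q, f⟩ := a
  obtain ⟨Q', f'⟩ := a'
  have h1' : Q = Q' := h1
  subst h1'
  have h2 : f = f' := subpairLE_unique hM (Nat.card P) P e rfl hPe Q f f' h h'
  rw [h2]

/-- A subsection attached to `(u, a)` is determined by `u` and `a`. -/
theorem subsecAtt_unique {p : ℕ} [Fact p.Prime] {M : Ideal Cfsg.AlgInt}
    {P : Subgroup G} {e : Set (Cfsg.IrrCharacter (Subgroup.centralizer (P : Set G)))}
    {u : G} (hu : ∃ k : ℕ, orderOf u = p ^ k) {a : Cfsg.BrauerPairIdx G}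
    (X : Finset G)
    (hXrep : ∀ g : G, (∃ k : ℕ, orderOf g = p ^ k) → ∃! x, x ∈ X ∧ IsConj g x)
    {σ σ' : Σ x : G, Set (Cfsg.IrrCharacter ↥(Subgroup.centralizer ({x} : Set G)))}
    (hσ : σ.1 ∈ X) (hσ' : σ'.1 ∈ X)
    (h : SubsecAtt p M P e u a σ) (h' : SubsecAtt p M P e u a σ') : σ = σ' := by
  obtain ⟨-, -, g, hg, hc, hb⟩ := h
  obtain ⟨-, -, g', hg', hc', hb'⟩ := h'
  obtain ⟨y, b⟩ := σ
  obtain ⟨y', b'⟩ := σ'
  have hyy : y = y' := by
    obtain ⟨x₀, -, huniq⟩ := hXrep u hu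
    have e1 := huniq y ⟨hσ, isConj_iff.mpr ⟨g, hg⟩⟩
    have e2 := huniq y' ⟨hσ', isConj_iff.mpr ⟨g', hg'⟩⟩
    rw [e1, e2]
  subst hyy
  have hg1 : g * u * g⁻¹ = y := hg
  have hg1' : g' * u * g'⁻¹ = y := hg'
  have hcy : g' * g⁻¹ ∈ Subgroup.centralizer ({y} : Set G) := by
    rw [Subgroup.mem_centralizer_iff]
    intro s hs
    rw [Set.mem_singleton_iff] at hs
    have key : y * (g' * g⁻¹) = g' * g⁻¹ * y := by
      calc y * (g' * g⁻¹) = (g' * u * g'⁻¹) * (g' * g⁻¹) := by rw [hg1']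
        _ = g' * g⁻¹ * (g * u * g⁻¹) := by group
        _ = g' * g⁻¹ * y := by rw [hg1]
    rw [hs]
    exact key
  have hpair : conjPair g' a = conjPair g a := by
    have e1 : g' = (g' * g⁻¹) * g := by group
    rw [e1, conjPair_mul]
    obtain ⟨Q₁, f₁, hQf⟩ : ∃ Q₁ f₁, conjPair g a = ⟨Q₁, f₁⟩ := ⟨_, _, rfl⟩
    have hc2 : Subgroup.centralizer (Q₁ : Set G) = Subgroup.centralizer ({y} : Set G) := by
      have h5 := hc
      rw [hQf] at h5
      exact h5
    rw [hQf]
    have hcQ : g' * g⁻¹ ∈ Subgroup.centralizer (Q₁ : Set G) := by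
      rw [hc2]
      exact hcy
    exact (conjPair_eq_self_iff Q₁ f₁ (g' * g⁻¹)).2
      ⟨Subgroup.centralizer_le_normalizer _ hcQ, stabilizesBlock_of_mem_centralizer Q₁ f₁ hcQ⟩
  have hbb : b = b' := by
    have hb1 : b = castBlock hc (conjPair g a).2 := hb
    have hb2 : b' = castBlock hc' (conjPair g' a).2 := hb'
    rw [hb1, hb2]
    exact castBlock_congr _ _ _ hc hc' hpair.symm
  rw [hbb]

/-- If the stabilizer of the maximal pair `(P, e)` permutes the nontrivial elements of `P`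
transitively, there is at most one subsection. -/
theorem kul_subsection_unique [DecidableEq G] {p : ℕ} [Fact p.Prime] {M : Ideal Cfsg.AlgInt}
    (hM : Cfsg.IsPModular p M) {B : Set (Cfsg.IrrCharacter G)} {P : Subgroup G}
    {e : Set (Cfsg.IrrCharacter (Subgroup.centralizer (P : Set G)))}
    (hmax : Cfsg.IsMaximalBrauerPair p M B P e)
    (htrans : ∀ a ∈ P, a ≠ 1 → ∀ b ∈ P, b ≠ 1 →
      ∃ h : G, conjPair h ⟨P, e⟩ = ⟨P, e⟩ ∧ h * a * h⁻¹ = b)
    (X : Finset G) (hX : ∀ x ∈ X, ∃ k : ℕ, orderOf x = p ^ k)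
    (hXrep : ∀ g : G, (∃ k : ℕ, orderOf g = p ^ k) → ∃! x, x ∈ X ∧ IsConj g x)
    (σ σ' : Σ x : G, Set (Cfsg.IrrCharacter ↥(Subgroup.centralizer ({x} : Set G))))
    (hσ : σ ∈ (X.erase 1).sigma (indBlocks M B))
    (hσ' : σ' ∈ (X.erase 1).sigma (indBlocks M B)) : σ = σ' := by
  classical
  obtain ⟨u, a, huP, hu1, hatt⟩ := exists_subsecAtt hM hmax X hX σ hσ
  obtain ⟨u', a', hu'P, hu'1, hatt'⟩ := exists_subsecAtt hM hmax X hX σ' hσ'
  obtain ⟨h, hh, hu⟩ := htrans u huP hu1 u' hu'P hu'1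
  have h1 := subsecAtt_conj h hh hatt
  rw [hu] at h1
  have h2 : conjPair h a = a' :=
    pair_eq_of_le hM hmax.1.1 h1.2.1 hatt'.2.1 (h1.1.trans hatt'.1.symm)
  rw [h2] at h1
  have hu'p : ∃ k : ℕ, orderOf u' = p ^ k := by
    rw [exists_orderOf_eq_prime_pow_iff]
    obtain ⟨k, hk⟩ := hmax.1.1.1 ⟨u', hu'P⟩
    exact ⟨k, by simpa using congrArg Subtype.val hk⟩
  have hσX : σ.1 ∈ X := (Finset.mem_erase.mp (Finset.mem_sigma.mp hσ).1).2
  have hσ'X : σ'.1 ∈ X := (Finset.mem_erase.mp (Finset.mem_sigma.mp hσ').1).2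
  exact subsecAtt_unique hu'p X hXrep hσX hσ'X h1 hatt'

/-- **Nilpotency.**  A block `B` with `l(B) = 1` and `k(B) = |D| ≤ 4` is nilpotent. -/
theorem kul_nilpotent (p : ℕ) [Fact p.Prime] {M : Ideal Cfsg.AlgInt}
    (hMp : Cfsg.IsPModular p M) {B : Set (Cfsg.IrrCharacter G)} (hB : Cfsg.IsPBlock M B)
    {D : Subgroup G} (hD : Cfsg.IsDefectGroup p M B D) (hl : Cfsg.blockRank p B = 1)
    (hcard : Nat.card D = Nat.card B) (hk : Nat.card B ≤ 4) :
    Cfsg.IsNilpotentBlock p M B := by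
  classical
  refine ⟨hB, fun Q e hpair x hxN hstab hreg => ?_⟩
  by_contra hxC
  have h4 : Nat.card D ≤ 4 := by rw [hcard]; exact hk
  obtain ⟨-, -, -, -, hDp⟩ := Helper16.isDefectGroup_exists_data hD
  have hle := card_le_of_isBrauerPairOf hMp hpair hD
  obtain ⟨h3, horb⟩ := kul_orbit Q hpair.1.1 (le_trans hle h4) x hxN hreg hxC
  have hQD : Nat.card Q = Nat.card D :=
    card_eq_of_three_le (IsPGroup.iff_card.mp hpair.1.1) (IsPGroup.iff_card.mp hDp) h3 hle h4
  have hmax := isMaximalBrauerPair_of_card_eq hMp hpair hD hQD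
  have htrans : ∀ a ∈ Q, a ≠ 1 → ∀ b ∈ Q, b ≠ 1 →
      ∃ h : G, conjPair h ⟨Q, e⟩ = ⟨Q, e⟩ ∧ h * a * h⁻¹ = b := by
    intro a ha ha1 b hb hb1
    obtain ⟨h, hh, e1⟩ := horb a ha ha1 b hb hb1
    refine ⟨h, ?_, e1⟩
    have hx' : x ∈ Subgroup.normalizer (Q : Set G)
        ⊓ stabSubgroup (Subgroup.centralizer (Q : Set G)) e :=
      ⟨hxN, (mem_stabSubgroup _ e x).mpr hstab⟩
    have hh' := (Subgroup.zpowers_le.mpr hx') hh
    exact (conjPair_eq_self_iff Q e h).2 ⟨hh'.1, (mem_stabSubgroup _ e h).mp hh'.2⟩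
  obtain ⟨X, h1X, hX, hXrep⟩ := Helper82.exists_pElement_reps (G := G) p 1 ⟨0, by simp⟩
  have hformula := card_block_eq_rank_add hMp hB X hX hXrep h1X
  have hsum : ∑ x ∈ X.erase 1, ∑ b ∈ indBlocks M B x, Cfsg.blockRank p b ≤ 1 := by
    rw [← Finset.sum_sigma (X.erase 1) (indBlocks M B)
      (fun σ => Cfsg.blockRank p σ.2)]
    have hone : ∀ σ ∈ (X.erase 1).sigma (indBlocks M B), Cfsg.blockRank p σ.2 = 1 := by
      intro σ hσ
      rw [Finset.mem_sigma] at hσ
      have hx1 := (Finset.mem_erase.mp hσ.1).1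
      have hxX := (Finset.mem_erase.mp hσ.1).2
      exact kul_subsection_rank hMp hD h4 σ.1 hx1 (hX σ.1 hxX) σ.2 (mem_indBlocks.mp hσ.2)
    rw [Finset.sum_congr rfl hone, Finset.sum_const, smul_eq_mul, mul_one]
    exact Finset.card_le_one.mpr (fun σ hσ σ' hσ' =>
      kul_subsection_unique hMp hmax htrans X hX hXrep σ σ' hσ hσ')
  omega

end subsections

end Cfsg.Agent.Helper77
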