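import Cfsg.Agent.Helper77.NilFusion2

/-!
# Nilpotent blocks: the blocks of centralizers (S4688)

* `centCompat_sup_map`: for `R' ≤ C_G(Q)`, `C_{C_G(Q)}(R') = C_G(Q R')`.
* `nilpotent_centralizer_block`: if `B` is nilpotent and `(Q, f)` is a Brauer pair of `B` then
  `f` is a nilpotent block of `C_G(Q)`.
* `isDefectGroup_centralizer_of_nilpotent`: if moreover `(Q, f) ≤ (P, e)` with `(P, e)` maximal,
  then `C_P(Q)` is a defect group of `f`.
-/

set_option autoImplicit false
set_option linter.style.haveILetI false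
open Cfsg

namespace Cfsg.Agent.Helper77

universe u

variable {G : Type u} [Group G]

/-- For `R' ≤ C_G(Q)`: `C_{C_G(Q)}(R') = C_G(Q R')`. -/
theorem centCompat_sup_map (Q : Subgroup G) (R' : Subgroup (Subgroup.centralizer (Q : Set G))) :
    CentCompat (Subgroup.centralizer (Q : Set G)) R' (Q ⊔ R'.map (Subgroup.centralizer (Q : Set G)).subtype) := by
  intro g
  constructor
  · intro hg
    have hgC : g ∈ (Subgroup.centralizer (Q : Set G)) :=
      Subgroup.centralizer_le (by exact_mod_cast (le_sup_left : Q ≤ (Q ⊔ R'.map (Subgroup.centralizer (Q : Set G)).subtype))) hg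
    refine ⟨hgC, ?_⟩
    rw [Subgroup.mem_centralizer_iff]
    intro r hr
    apply Subtype.ext
    exact Subgroup.mem_centralizer_iff.mp hg r
      ((le_sup_right : R'.map (Subgroup.centralizer (Q : Set G)).subtype ≤ (Q ⊔ R'.map (Subgroup.centralizer (Q : Set G)).subtype)) ⟨r, hr, rfl⟩)
  · rintro ⟨hgC, hc⟩
    have h1 : (Q ⊔ R'.map (Subgroup.centralizer (Q : Set G)).subtype) ≤ Subgroup.centralizer ({g} : Set G) := by
      refine sup_le ?_ ?_
      · intro q hq
        rw [Subgroup.mem_centralizer_singleton_iff]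
        exact Subgroup.mem_centralizer_iff.mp hgC q hq
      · rintro _ ⟨r, hr, rfl⟩
        rw [Subgroup.mem_centralizer_singleton_iff]
        exact congrArg Subtype.val (Subgroup.mem_centralizer_iff.mp hc r hr)
    rw [Subgroup.mem_centralizer_iff]
    intro w hw
    exact Subgroup.mem_centralizer_singleton_iff.mp (h1 hw)

variable [Fintype G]

/-- If `B` is nilpotent and `(Q, f)` is a Brauer pair of `B`, then `f` is a nilpotent block of
`C_G(Q)`. -/
theorem nilpotent_centralizer_block {p : ℕ} [Fact p.Prime] {M : Ideal Cfsg.AlgInt}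
    (hM : Cfsg.IsPModular p M) {B : Set (Cfsg.IrrCharacter G)}
    (hnil : Cfsg.IsNilpotentBlock p M B) {Q : Subgroup G}
    {f : Set (Cfsg.IrrCharacter (Subgroup.centralizer (Q : Set G)))} (hQf : Cfsg.IsBrauerPairOf p M B Q f) :
    Cfsg.IsNilpotentBlock p M f := by
  classical
  have hB := hnil.1
  have hf := hQf.1.2
  refine ⟨hf, fun R' g' hR'g' x' hx'N hx'st hreg => ?_⟩
  have cc := centCompat_sup_map Q R'
  have hg'eq : g' = subBlock cc (Helper75.irrComp (centEquiv cc).symm '' g') := by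
    rw [subBlock, Helper75.image_irrComp_image_symm]
  have hβ : ∀ x : (Subgroup.centralizer (Q : Set G)), Cfsg.blockCoeff f x = Cfsg.subgroupBlockCoeff (Subgroup.centralizer (Q : Set G)) f (x : G) :=
    fun x => (sbc_of_mem _ f x.2).symm
  rw [hg'eq] at hR'g' hx'st
  obtain ⟨⟨hR'p, hgb⟩, -, hω⟩ := (isBrauerPairOf_subBlock_iff cc hβ _).1 hR'g'
  have hmapC : R'.map (Subgroup.centralizer (Q : Set G)).subtype ≤ (Subgroup.centralizer (Q : Set G)) := by
    rintro _ ⟨r, -, rfl⟩
    exact r.2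
  have hRp : IsPGroup p ((Q ⊔ R'.map (Subgroup.centralizer (Q : Set G)).subtype) : Subgroup G) :=
    IsPGroup.to_sup_of_normal_left' hQf.1.1 (hR'p.map _)
      (hmapC.trans (Subgroup.centralizer_le_normalizer _))
  have hns : Cfsg.IsNormalSubpair p M Q f (Q ⊔ R'.map (Subgroup.centralizer (Q : Set G)).subtype)
      (Helper75.irrComp (centEquiv cc).symm '' g') := by
    refine ⟨hQf.1, ⟨hRp, hgb⟩, le_sup_left,
      sup_le Subgroup.le_normalizer (hmapC.trans (Subgroup.centralizer_le_normalizer _)), ?_, hω⟩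
    have h1 : (Q ⊔ R'.map (Subgroup.centralizer (Q : Set G)).subtype) ≤ stabSubgroup (Subgroup.centralizer (Q : Set G)) f :=
      sup_le (fun q hq => stabilizesBlock_of_mem Q f hq)
        (hmapC.trans (fun c hc => stabilizesBlock_of_mem_centralizer Q f hc))
    exact fun x hx => h1 hx
  have hRpair := (isBrauerPairOf_iff_of_isNormalSubpair hM hns B hB).2 hQf
  have hxN : (x' : G) ∈ Subgroup.normalizer (((Q ⊔ R'.map (Subgroup.centralizer (Q : Set G)).subtype) : Subgroup G) : Set G) := by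
    rw [← map_conj_eq_self_iff, Subgroup.map_sup]
    congr 1
    · exact (map_conj_eq_self_iff Q _).2 (Subgroup.centralizer_le_normalizer _ x'.2)
    · ext w
      rw [mem_map_conj_iff]
      have hn := Subgroup.mem_normalizer_iff.mp hx'N
      constructor
      · rintro ⟨r, hr, hrw⟩
        refine ⟨x' * r * x'⁻¹, (hn r).1 hr, ?_⟩
        show (x' : G) * (r : G) * (x' : G)⁻¹ = w
        have h2 : (r : G) = (x' : G)⁻¹ * w * (x' : G) := hrw
        rw [h2]
        group
      · rintro ⟨r, hr, rfl⟩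
        refine ⟨x'⁻¹ * r * x', ?_, rfl⟩
        exact (hn (x'⁻¹ * r * x')).2 (by rwa [show x' * (x'⁻¹ * r * x') * x'⁻¹ = r by group])
  have hxst := (stabilizesBlock_subBlock_iff cc _ x').1 hx'st
  have hxreg : Cfsg.IsPRegular p (x' : G) := by
    unfold Cfsg.IsPRegular
    rw [Subgroup.orderOf_coe]
    exact hreg
  have hxC := hnil.2 _ _ hRpair (x' : G) hxN hxst hxreg
  exact ((cc (x' : G)).1 hxC).2

/-- In a nilpotent block with maximal Brauer pair `(P, e)`: for `(Q, f) ≤ (P, e)`, `C_P(Q)` is a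
defect group of `f`. -/
theorem isDefectGroup_centralizer_of_nilpotent {p : ℕ} [Fact p.Prime] {M : Ideal Cfsg.AlgInt}
    (hM : Cfsg.IsPModular p M) {B : Set (Cfsg.IrrCharacter G)}
    (hnil : Cfsg.IsNilpotentBlock p M B) {P : Subgroup G}
    {e : Set (Cfsg.IrrCharacter (Subgroup.centralizer (P : Set G)))} (hmax : Cfsg.IsMaximalBrauerPair p M B P e)
    {Q : Subgroup G} {f : Set (Cfsg.IrrCharacter (Subgroup.centralizer (Q : Set G)))} (hle : Cfsg.SubpairLE p M Q f P e) :
    Cfsg.IsDefectGroup p M f ((P ⊓ (Subgroup.centralizer (Q : Set G))).subgroupOf (Subgroup.centralizer (Q : Set G))) := by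
  classical
  letI : Fintype (Subgroup.centralizer (Q : Set G)) := Fintype.ofFinite _
  obtain ⟨x, hle', hDx⟩ := exists_conj_isDefectGroup_centralizer hM B P Q e f hmax hle
  obtain ⟨u, hu, huq⟩ := nil_fusion hM hnil hmax hle hle'
  have hD' := isDefectGroup_of_conjBlock Q x hDx
  have hz : u⁻¹ * x ∈ (Subgroup.centralizer (Q : Set G)) := by
    rw [Subgroup.mem_centralizer_iff]
    intro q hq
    have h1 := huq q hq
    have h2 : x * q = u * q * u⁻¹ * x := by
      rw [← h1]
      group
    calc q * (u⁻¹ * x) = u⁻¹ * (u * q * u⁻¹ * x) := by group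
      _ = u⁻¹ * (x * q) := by rw [h2]
      _ = u⁻¹ * x * q := by group
  have hD'' := Helper16.isDefectGroup_conj hD' (⟨u⁻¹ * x, hz⟩ : (Subgroup.centralizer (Q : Set G)))
  have heq : ((P ⊓ (Subgroup.centralizer (Q : Set G))).subgroupOf (Subgroup.centralizer (Q : Set G))) = Subgroup.map
      (MulAut.conj (⟨u⁻¹ * x, hz⟩ : (Subgroup.centralizer (Q : Set G)))).toMonoidHom
      (Subgroup.comap (Helper75.centralizerConjEquiv Q x).symm.toMonoidHom
        ((P ⊓ Subgroup.centralizer ((Q.map (MulAut.conj x).toMonoidHom : Subgroup G) : Set G)).subgroupOf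
          (Subgroup.centralizer ((Q.map (MulAut.conj x).toMonoidHom : Subgroup G) : Set G)))) := by
    ext w
    rw [mem_map_conj_iff, Subgroup.mem_comap, Subgroup.mem_subgroupOf, Subgroup.mem_subgroupOf]
    have key : ((((Helper75.centralizerConjEquiv Q x).symm.toMonoidHom
        ((⟨u⁻¹ * x, hz⟩ : (Subgroup.centralizer (Q : Set G)))⁻¹ * w * ⟨u⁻¹ * x, hz⟩)) :
        Subgroup.centralizer ((Q.map (MulAut.conj x).toMonoidHom : Subgroup G) : Set G)) : G)
        = u * (w : G) * u⁻¹ := by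
      show (((Helper75.centralizerConjEquiv Q x).symm
        ((⟨u⁻¹ * x, hz⟩ : (Subgroup.centralizer (Q : Set G)))⁻¹ * w * ⟨u⁻¹ * x, hz⟩)) : G) = _
      rw [Helper75.centralizerConjEquiv_symm_apply]
      show x * ((u⁻¹ * x)⁻¹ * (w : G) * (u⁻¹ * x)) * x⁻¹ = _
      group
    rw [key]
    constructor
    · rintro ⟨hwP, -⟩
      refine ⟨P.mul_mem (P.mul_mem hu hwP) (P.inv_mem hu), ?_⟩
      rw [← key]
      exact Subtype.coe_prop _
    · rintro ⟨hwP, -⟩
      refine ⟨?_, w.2⟩
      have h3 := P.mul_mem (P.mul_mem (P.inv_mem hu) hwP) hu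
      rwa [show u⁻¹ * (u * (w : G) * u⁻¹) * u = (w : G) by group] at h3
  rw [heq]
  exact hD''

end Cfsg.Agent.Helper77
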