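import Cfsg.Agent.Helper77.PairCorr

/-!
# Nilpotent blocks: maximal Brauer pairs above a given pair are conjugate under its centralizer

* `nil_conj_aux`: for a nilpotent block `B`, any two maximal Brauer pairs of `B` above `(Q, f)`
  are conjugate under `C_G(Q)`.
* `nil_fusion`: for a nilpotent block, every `g` carrying `(Q, f) ≤ (P, e)` to a pair below
  `(P, e)` acts on `Q` as an element of `P`.
-/

set_option autoImplicit false
set_option linter.style.haveILetI false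
open Cfsg

namespace Cfsg.Agent.Helper77

universe u

variable {G : Type u} [Group G] [Fintype G]

theorem nil_conj_aux {p : ℕ} [Fact p.Prime] {M : Ideal Cfsg.AlgInt}
    (hM : Cfsg.IsPModular p M) {B : Set (Cfsg.IrrCharacter G)}
    (hnil : Cfsg.IsNilpotentBlock p M B) :
    ∀ n : ℕ, ∀ a m₁ m₂ : Cfsg.BrauerPairIdx G, Nat.card G - Nat.card a.1 = n →
      Cfsg.IsMaximalBrauerPair p M B m₁.1 m₁.2 → Cfsg.IsMaximalBrauerPair p M B m₂.1 m₂.2 →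
      Relation.ReflTransGen (Cfsg.NormalSubpairRel p M) a m₁ →
      Relation.ReflTransGen (Cfsg.NormalSubpairRel p M) a m₂ →
      ∃ z ∈ Subgroup.centralizer (a.1 : Set G), conjPair z m₂ = m₁ := by
  classical
  intro n
  induction n using Nat.strong_induction_on with
  | _ n ih =>
  rintro ⟨Q, f⟩ ⟨P₁, e₁⟩ ⟨P₂, e₂⟩ hn hmax₁ hmax₂ hle₁ hle₂
  dsimp only at hn hmax₁ hmax₂ ⊢
  have hB := hnil.1
  have hQ₁ : Q ≤ P₁ := Helper75.subpairLE_fst_le (a := ⟨Q, f⟩) (b := ⟨P₁, e₁⟩) hle₁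
  have hQ₂ : Q ≤ P₂ := Helper75.subpairLE_fst_le (a := ⟨Q, f⟩) (b := ⟨P₂, e₂⟩) hle₂
  have hQf : Cfsg.IsBrauerPairOf p M B Q f :=
    (isBrauerPairOf_iff_of_reflTransGen hM (a := ⟨Q, f⟩) (b := ⟨P₁, e₁⟩) hle₁ B hB).mp hmax₁.1
  have hD₁ := isDefectGroup_of_isMaximalBrauerPair hM B P₁ e₁ hmax₁
  have hD₂ := isDefectGroup_of_isMaximalBrauerPair hM B P₂ e₂ hmax₂
  have hcard := Helper16.isDefectGroup_card_eq hM hB hD₁ hD₂
  by_cases hQP : Q = P₁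
  · have h1 : (⟨Q, f⟩ : Cfsg.BrauerPairIdx G) = ⟨P₁, e₁⟩ :=
      eq_of_subpairLE_of_card_eq hM hmax₁.1.1 hle₁ (by rw [hQP])
    have h2 : (⟨Q, f⟩ : Cfsg.BrauerPairIdx G) = ⟨P₂, e₂⟩ :=
      eq_of_subpairLE_of_card_eq hM hmax₂.1.1 hle₂ (by rw [hQP, hcard])
    refine ⟨1, Subgroup.one_mem _, ?_⟩
    rw [conjPair_one, ← h2, h1]
  · have hlt₁ : Q < P₁ := lt_of_le_of_ne hQ₁ hQP
    have hlt₂ : Q < P₂ := by
      refine lt_of_le_of_ne hQ₂ (fun h => hQP ?_)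
      exact Subgroup.eq_of_le_of_card_ge hQ₁ (by rw [hcard, ← h])
    obtain ⟨u₁, hu₁P, hu₁N, hu₁Q⟩ := Helper75.exists_normalizer_not_mem P₁ Q hmax₁.1.1.1 hlt₁
    obtain ⟨u₂, hu₂P, hu₂N, hu₂Q⟩ := Helper75.exists_normalizer_not_mem P₂ Q hmax₂.1.1.1 hlt₂
    have hQN₁ : Q ≤ (P₁ ⊓ Subgroup.normalizer (Q : Set G)) := le_inf hQ₁ Subgroup.le_normalizer
    have hQN₂ : Q ≤ (P₂ ⊓ Subgroup.normalizer (Q : Set G)) := le_inf hQ₂ Subgroup.le_normalizer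
    have hcN₁ : Nat.card Q < Nat.card ↥(P₁ ⊓ Subgroup.normalizer (Q : Set G)) := by
      refine lt_of_le_of_ne (Subgroup.card_le_of_le hQN₁) (fun h => hu₁Q ?_)
      have := Subgroup.eq_of_le_of_card_ge hQN₁ h.ge
      rw [this]
      exact ⟨hu₁P, hu₁N⟩
    have hcN₂ : Nat.card Q < Nat.card ↥(P₂ ⊓ Subgroup.normalizer (Q : Set G)) := by
      refine lt_of_le_of_ne (Subgroup.card_le_of_le hQN₂) (fun h => hu₂Q ?_)
      have := Subgroup.eq_of_le_of_card_ge hQN₂ h.ge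
      rw [this]
      exact ⟨hu₂P, hu₂N⟩
    obtain ⟨ε₁, hns₁, hle₁'⟩ := isNormalSubpair_of_subpairLE_of_le hM hmax₁.1.1 hle₁ hQN₁
      inf_le_left inf_le_right
    obtain ⟨ε₂, hns₂, hle₂'⟩ := isNormalSubpair_of_subpairLE_of_le hM hmax₂.1.1 hle₂ hQN₂
      inf_le_left inf_le_right
    have hT : ∀ y : G, y ∈ (Subgroup.normalizer (Q : Set G) ⊓ stabSubgroup (Subgroup.centralizer (Q : Set G)) f) ↔ y ∈ (Subgroup.normalizer (Q : Set G)) ∧ Cfsg.StabilizesBlock (Subgroup.centralizer (Q : Set G)) f y := fun y => Iff.rfl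
    obtain ⟨F, hF, hFc⟩ := exists_block_of_isStabilizer hM hQf.1 _ hT
    have hCT : (Subgroup.centralizer (Q : Set G)) ≤ (Subgroup.normalizer (Q : Set G) ⊓ stabSubgroup (Subgroup.centralizer (Q : Set G)) f) := fun c hc =>
      (hT c).2 ⟨Subgroup.centralizer_le_normalizer _ hc,
        stabilizesBlock_of_mem_centralizer Q f hc⟩
    have hN₁T : (P₁ ⊓ Subgroup.normalizer (Q : Set G)) ≤ (Subgroup.normalizer (Q : Set G) ⊓ stabSubgroup (Subgroup.centralizer (Q : Set G)) f) := fun y hy => (hT y).2 ⟨hy.2, hns₁.2.2.2.2.1 y hy⟩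
    have hN₂T : (P₂ ⊓ Subgroup.normalizer (Q : Set G)) ≤ (Subgroup.normalizer (Q : Set G) ⊓ stabSubgroup (Subgroup.centralizer (Q : Set G)) f) := fun y hy => (hT y).2 ⟨hy.2, hns₂.2.2.2.2.1 y hy⟩
    have hCN₁ : Subgroup.centralizer (((P₁ ⊓ Subgroup.normalizer (Q : Set G)) : Subgroup G) : Set G) ≤ (Subgroup.normalizer (Q : Set G) ⊓ stabSubgroup (Subgroup.centralizer (Q : Set G)) f) :=
      (Subgroup.centralizer_le (by exact_mod_cast hQN₁)).trans hCT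
    have hCN₂ : Subgroup.centralizer (((P₂ ⊓ Subgroup.normalizer (Q : Set G)) : Subgroup G) : Set G) ≤ (Subgroup.normalizer (Q : Set G) ⊓ stabSubgroup (Subgroup.centralizer (Q : Set G)) f) :=
      (Subgroup.centralizer_le (by exact_mod_cast hQN₂)).trans hCT
    letI : Fintype ↥(Subgroup.normalizer (Q : Set G) ⊓ stabSubgroup (Subgroup.centralizer (Q : Set G)) f) := Fintype.ofFinite _
    have hcorr₁ := pairCorr_of_subgroupOf (Subgroup.normalizer (Q : Set G) ⊓ stabSubgroup (Subgroup.centralizer (Q : Set G)) f) (P₁ ⊓ Subgroup.normalizer (Q : Set G)) hN₁T hCN₁ ε₁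
    have hcorr₂ := pairCorr_of_subgroupOf (Subgroup.normalizer (Q : Set G) ⊓ stabSubgroup (Subgroup.centralizer (Q : Set G)) f) (P₂ ⊓ Subgroup.normalizer (Q : Set G)) hN₂T hCN₂ ε₂
    have hp₁ : Cfsg.IsBrauerPairOf p M F ((P₁ ⊓ Subgroup.normalizer (Q : Set G)).subgroupOf (Subgroup.normalizer (Q : Set G) ⊓ stabSubgroup (Subgroup.centralizer (Q : Set G)) f))
        (subBlock (centCompat_subgroupOf (Subgroup.normalizer (Q : Set G) ⊓ stabSubgroup (Subgroup.centralizer (Q : Set G)) f) (P₁ ⊓ Subgroup.normalizer (Q : Set G)) hN₁T hCN₁) ε₁) :=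
      (isBrauerPairOf_subBlock_iff _ hFc ε₁).2
        ⟨⟨hns₁.2.1.1.comap_subtype, hns₁.2.1.2⟩, hF, hns₁.2.2.2.2.2⟩
    have hp₂ : Cfsg.IsBrauerPairOf p M F ((P₂ ⊓ Subgroup.normalizer (Q : Set G)).subgroupOf (Subgroup.normalizer (Q : Set G) ⊓ stabSubgroup (Subgroup.centralizer (Q : Set G)) f))
        (subBlock (centCompat_subgroupOf (Subgroup.normalizer (Q : Set G) ⊓ stabSubgroup (Subgroup.centralizer (Q : Set G)) f) (P₂ ⊓ Subgroup.normalizer (Q : Set G)) hN₂T hCN₂) ε₂) :=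
      (isBrauerPairOf_subBlock_iff _ hFc ε₂).2
        ⟨⟨hns₂.2.1.1.comap_subtype, hns₂.2.1.2⟩, hF, hns₂.2.2.2.2.2⟩
    obtain ⟨D₁, δ₁, hmaxT₁, hleT₁⟩ := exists_isMaximalBrauerPair_ge hp₁
    obtain ⟨D₂, δ₂, hmaxT₂, hleT₂⟩ := exists_isMaximalBrauerPair_ge hp₂
    have hDT₁ := isDefectGroup_of_isMaximalBrauerPair hM F D₁ δ₁ hmaxT₁
    have hDT₂ := isDefectGroup_of_isMaximalBrauerPair hM F D₂ δ₂ hmaxT₂
    obtain ⟨t, ht⟩ := exists_conjPair_eq hM hDT₁ hDT₂ hmaxT₁.1 hmaxT₂.1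
    have hnil' : ∀ x ∈ (Subgroup.normalizer (Q : Set G) ⊓ stabSubgroup (Subgroup.centralizer (Q : Set G)) f), Cfsg.IsPRegular p x → x ∈ (Subgroup.centralizer (Q : Set G)) := fun x hx hreg =>
      hnil.2 Q f hQf x ((hT x).1 hx).1 ((hT x).1 hx).2 hreg
    obtain ⟨c, hc, d, hd, htcd⟩ := stabilizer_eq_centralizer_mul_defect hM hQf.1.2 _ hT hnil'
      hF hFc hDT₂ t
    have hc2 : conjPair c (⟨D₂, δ₂⟩ : Cfsg.BrauerPairIdx ↥(Subgroup.normalizer (Q : Set G) ⊓ stabSubgroup (Subgroup.centralizer (Q : Set G)) f)) = ⟨D₁, δ₁⟩ := by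
      have h1 : conjPair t (⟨D₂, δ₂⟩ : Cfsg.BrauerPairIdx ↥(Subgroup.normalizer (Q : Set G) ⊓ stabSubgroup (Subgroup.centralizer (Q : Set G)) f)) = ⟨D₁, δ₁⟩ := ht
      rw [htcd, conjPair_mul, conjPair_of_mem D₂ δ₂ hd] at h1
      exact h1
    have hleT₂' := subpairLE_conjPair c hleT₂
    rw [hc2] at hleT₂'
    obtain ⟨b₁, hb₁, hab₁⟩ := exists_pairCorr_of_subpairLE hleT₁ ⟨(P₁ ⊓ Subgroup.normalizer (Q : Set G)), ε₁⟩ hcorr₁ hCN₁
    have hcorr₂' := pairCorr_conjPair hcorr₂ c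
    have hQcN₂ : Q ≤ (P₂ ⊓ Subgroup.normalizer (Q : Set G)).map (MulAut.conj (c : G)).toMonoidHom := by
      intro q hq
      rw [mem_map_conj_iff]
      have hcq := Subgroup.mem_centralizer_iff.mp hc q hq
      have e : (c : G)⁻¹ * q * (c : G) = q := by
        rw [mul_assoc, hcq]
        group
      rw [e]
      exact hQN₂ hq
    have hCcN₂ : Subgroup.centralizer
        (((conjPair (c : G) (⟨(P₂ ⊓ Subgroup.normalizer (Q : Set G)), ε₂⟩ : Cfsg.BrauerPairIdx G)).1 : Subgroup G) : Set G)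
        ≤ (Subgroup.normalizer (Q : Set G) ⊓ stabSubgroup (Subgroup.centralizer (Q : Set G)) f) :=
      (Subgroup.centralizer_le (by exact_mod_cast hQcN₂)).trans hCT
    obtain ⟨b₂, hb₂, hab₂⟩ := exists_pairCorr_of_subpairLE hleT₂'
      (conjPair (c : G) (⟨(P₂ ⊓ Subgroup.normalizer (Q : Set G)), ε₂⟩ : Cfsg.BrauerPairIdx G)) hcorr₂' hCcN₂
    have hbb : b₂ = b₁ := pairCorr_unique hb₂ hb₁
    rw [hbb] at hab₂
    have hN₁pair : Cfsg.IsBrauerPairOf p M B (P₁ ⊓ Subgroup.normalizer (Q : Set G)) ε₁ :=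
      (isBrauerPairOf_iff_of_reflTransGen hM (a := ⟨(P₁ ⊓ Subgroup.normalizer (Q : Set G)), ε₁⟩) (b := ⟨P₁, e₁⟩) hle₁' B hB).mp
        hmax₁.1
    have hbpair : Cfsg.IsBrauerPairOf p M B b₁.1 b₁.2 :=
      (isBrauerPairOf_iff_of_reflTransGen hM hab₁ B hB).mpr hN₁pair
    obtain ⟨P₃, e₃, hmax₃, hle₃⟩ := exists_isMaximalBrauerPair_ge hbpair
    have hGc : Nat.card ↥(P₁ ⊓ Subgroup.normalizer (Q : Set G)) ≤ Nat.card G := Subgroup.card_le_card_group _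
    have hGc₂ : Nat.card ↥(P₂ ⊓ Subgroup.normalizer (Q : Set G)) ≤ Nat.card G := Subgroup.card_le_card_group _
    obtain ⟨z₁, hz₁, hzz₁⟩ := ih (Nat.card G - Nat.card ↥(P₁ ⊓ Subgroup.normalizer (Q : Set G))) (by omega)
      ⟨(P₁ ⊓ Subgroup.normalizer (Q : Set G)), ε₁⟩ ⟨P₁, e₁⟩ ⟨P₃, e₃⟩ rfl hmax₁ hmax₃ hle₁' (hab₁.trans hle₃)
    obtain ⟨z₂, hz₂, hzz₂⟩ := ih
      (Nat.card G - Nat.card ↥((P₂ ⊓ Subgroup.normalizer (Q : Set G)).map (MulAut.conj (c : G)).toMonoidHom))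
      (by rw [card_map_conj]; omega)
      (conjPair (c : G) (⟨(P₂ ⊓ Subgroup.normalizer (Q : Set G)), ε₂⟩ : Cfsg.BrauerPairIdx G)) ⟨P₃, e₃⟩
      (conjPair (c : G) (⟨P₂, e₂⟩ : Cfsg.BrauerPairIdx G)) rfl hmax₃
      (isMaximalBrauerPair_conj hM hmax₂ (c : G)) (hab₂.trans hle₃)
      (subpairLE_conjPair (c : G) hle₂')
    refine ⟨z₁ * z₂ * (c : G), ?_, ?_⟩
    · exact Subgroup.mul_mem _ (Subgroup.mul_mem _
        (Subgroup.centralizer_le (by exact_mod_cast hQN₁) hz₁)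
        (Subgroup.centralizer_le (by exact_mod_cast hQcN₂) hz₂)) hc
    · rw [conjPair_mul, conjPair_mul, hzz₂, hzz₁]

end Cfsg.Agent.Helper77
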