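import Mathlib
import Cfsg.Agent.Helper15.B42Defs
import Cfsg.Agent.Helper76.CentralChar
import Cfsg.Agent.Helper81.CharBasic
import Cfsg.Agent.Helper3.Frobenius
import Cfsg.Agent.Helper92.B42PSING

/-!
# S4504, sub-CALL S4504S (helper15): piece ONLY (`s4504s_only`) (helper77)

Among the irreducible characters with the central character of `χ`, only `χ, χ₂` are not
constant on `⟨x⟩ \ 1`: `ξ` agrees on the `p`-singular elements with `Θ = A χ + B χ₂`, and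
`0 = ⟨ξ, χ - χ₂⟩ = ⟨Θ, χ - χ₂⟩ = A - B`.
-/

universe u
set_option autoImplicit false
open Cfsg Cfsg.Agent.Helper77 Cfsg.Agent.Helper15
open scoped ComplexConjugate

namespace Cfsg.Agent.Helper77

variable {G : Type u} [Group G] [Finite G]

omit [Finite G] in
theorem s4504only_ci_sub_right [Fintype G] (φ f f' : G → ℂ) :
    Cfsg.classInner φ (fun g => f g - f' g) = Cfsg.classInner φ f - Cfsg.classInner φ f' := by
  unfold Cfsg.classInner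
  rw [← mul_sub, ← Finset.sum_sub_distrib]
  congr 1
  refine Finset.sum_congr rfl (fun g _ => ?_)
  rw [map_sub]; ring

omit [Finite G] in
theorem s4504only_ci_lin_left [Fintype G] (A B : ℂ) (f f' ψ : G → ℂ) :
    Cfsg.classInner (fun g => A * f g + B * f' g) ψ
      = A * Cfsg.classInner f ψ + B * Cfsg.classInner f' ψ := by
  unfold Cfsg.classInner
  have h1 : ∑ g : G, (A * f g + B * f' g) * conj (ψ g)
      = A * ∑ g : G, f g * conj (ψ g) + B * ∑ g : G, f' g * conj (ψ g) := by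
    rw [Finset.mul_sum, Finset.mul_sum, ← Finset.sum_add_distrib]
    exact Finset.sum_congr rfl (fun g _ => by ring)
  rw [h1]; ring

/-- ONLY: among the irreducible characters with the central character of `χ`, only `χ, χ₂` are
not constant on `⟨x⟩ \ 1`. -/
theorem s4504s_only (p : ℕ) [Fact p.Prime] [Fintype G] (x : G) (K : Subgroup G)
    (h : D1Hyp p x K) (hKc : ∀ k ∈ K, k ∈ Subgroup.center G) (v : (ZMod p)ˣ)
    (hcls : ∀ b : ℕ, ¬ p ∣ b → (∃ n : G, n * x * n⁻¹ = x ^ b) ∨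
        (∃ n : G, n * x ^ (v : ZMod p).val * n⁻¹ = x ^ b))
    (χ χ₂ : Cfsg.IrrCharacter G) (hne : χ ≠ χ₂)
    (hreg : ∀ g : G, ¬ p ∣ orderOf g → (χ₂ : G → ℂ) g = (χ : G → ℂ) g)
    (hsum : (χ : G → ℂ) x + (χ₂ : G → ℂ) x = -1)
    (hvx : (χ : G → ℂ) (x ^ (v : ZMod p).val) = (χ₂ : G → ℂ) x)
    (hvx₂ : (χ₂ : G → ℂ) (x ^ (v : ZMod p).val) = (χ : G → ℂ) x)
    (hxne : (χ : G → ℂ) x ≠ (χ₂ : G → ℂ) x)
    (ξ : Cfsg.IrrCharacter G)
    (hcc : ∀ z ∈ Subgroup.center G,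
      (ξ : G → ℂ) z * (χ : G → ℂ) 1 = (χ : G → ℂ) z * (ξ : G → ℂ) 1)
    (h1 : ξ ≠ χ) (h2 : ξ ≠ χ₂) :
    ∀ b : ℕ, ¬ p ∣ b → (ξ : G → ℂ) (x ^ b) = (ξ : G → ℂ) x := by
  classical
  have hpr : p.Prime := Fact.out
  have hξ1 : (ξ : G → ℂ) 1 ≠ 0 := Helper81.irr_one_ne_zero ξ
  have hχ1 : (χ : G → ℂ) 1 ≠ 0 := Helper81.irr_one_ne_zero χ
  have hχ₂1 : (χ₂ : G → ℂ) 1 = (χ : G → ℂ) 1 :=
    hreg 1 (by rw [orderOf_one]; exact fun hd => hpr.one_lt.ne' (Nat.dvd_one.mp hd))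
  have hKreg : ∀ k ∈ K, ¬ p ∣ orderOf k := by
    intro k hk hd
    exact h.hK (hd.trans (Subgroup.orderOf_dvd_natCard K hk))
  -- central scalars
  obtain ⟨cξ, hcξ⟩ := Helper76.exists_central_scalar (Subgroup.center G).subtype
    (fun z => z.2) ξ
  obtain ⟨cχ, hcχ⟩ := Helper76.exists_central_scalar (Subgroup.center G).subtype
    (fun z => z.2) χ
  obtain ⟨cχ₂, hcχ₂⟩ := Helper76.exists_central_scalar (Subgroup.center G).subtype
    (fun z => z.2) χ₂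
  have hsc : ∀ k ∈ K, ∀ g : G,
      (ξ : G → ℂ) (g * k) = ((χ : G → ℂ) k / (χ : G → ℂ) 1) * (ξ : G → ℂ) g ∧
      (χ : G → ℂ) (g * k) = ((χ : G → ℂ) k / (χ : G → ℂ) 1) * (χ : G → ℂ) g ∧
      (χ₂ : G → ℂ) (g * k) = ((χ : G → ℂ) k / (χ : G → ℂ) 1) * (χ₂ : G → ℂ) g := by
    intro k hk g
    have hz : (Subgroup.center G).subtype ⟨k, hKc k hk⟩ = k := rfl
    have e1 := hcξ ⟨k, hKc k hk⟩ 1
    have e2 := hcχ ⟨k, hKc k hk⟩ 1
    have e3 := hcχ₂ ⟨k, hKc k hk⟩ 1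
    rw [hz, one_mul] at e1 e2 e3
    rw [hreg k (hKreg k hk), hχ₂1] at e3
    have e4 := hcc k (hKc k hk)
    have c1 : cξ ⟨k, hKc k hk⟩ = (χ : G → ℂ) k / (χ : G → ℂ) 1 := by
      rw [eq_div_iff hχ1]
      have e5 : cξ ⟨k, hKc k hk⟩ * (χ : G → ℂ) 1 * (ξ : G → ℂ) 1
          = (χ : G → ℂ) k * (ξ : G → ℂ) 1 := by
        rw [← e4, e1]; ring
      exact mul_right_cancel₀ hξ1 e5
    have c2 : cχ ⟨k, hKc k hk⟩ = (χ : G → ℂ) k / (χ : G → ℂ) 1 := by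
      rw [eq_div_iff hχ1, ← e2]
    have c3 : cχ₂ ⟨k, hKc k hk⟩ = (χ : G → ℂ) k / (χ : G → ℂ) 1 := by
      rw [eq_div_iff hχ1, ← e3]
    have f1 := hcξ ⟨k, hKc k hk⟩ g
    have f2 := hcχ ⟨k, hKc k hk⟩ g
    have f3 := hcχ₂ ⟨k, hKc k hk⟩ g
    rw [hz] at f1 f2 f3
    rw [c1] at f1
    rw [c2] at f2
    rw [c3] at f3
    exact ⟨f1, f2, f3⟩
  -- the coefficients
  obtain ⟨a, ha⟩ : ∃ a : ℂ, a = (χ : G → ℂ) x := ⟨_, rfl⟩
  obtain ⟨a', ha'⟩ : ∃ a' : ℂ, a' = (χ₂ : G → ℂ) x := ⟨_, rfl⟩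
  obtain ⟨u, hu⟩ : ∃ u : ℂ, u = (ξ : G → ℂ) x := ⟨_, rfl⟩
  obtain ⟨u', hu'⟩ : ∃ u' : ℂ, u' = (ξ : G → ℂ) (x ^ (v : ZMod p).val) := ⟨_, rfl⟩
  rw [← ha, ← ha'] at hsum hxne
  rw [← ha'] at hvx
  rw [← ha] at hvx₂
  have hdet : a * a - a' * a' ≠ 0 := by
    have h3 : a * a - a' * a' = -(a - a') := by linear_combination (a - a') * hsum
    rw [h3]
    exact neg_ne_zero.mpr (sub_ne_zero.mpr hxne)
  obtain ⟨A, hA⟩ : ∃ A : ℂ, A = (u * a - u' * a') / (a * a - a' * a') := ⟨_, rfl⟩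
  obtain ⟨B, hB⟩ : ∃ B : ℂ, B = (u' * a - u * a') / (a * a - a' * a') := ⟨_, rfl⟩
  have hAB1 : A * a + B * a' = u := by
    rw [hA, hB, div_mul_eq_mul_div, div_mul_eq_mul_div, ← add_div, div_eq_iff hdet]; ring
  have hAB2 : A * a' + B * a = u' := by
    rw [hA, hB, div_mul_eq_mul_div, div_mul_eq_mul_div, ← add_div, div_eq_iff hdet]; ring
  -- agreement on the `p`-singular elements
  have hag : ∀ g : G, p ∣ orderOf g →
      (ξ : G → ℂ) g = A * (χ : G → ℂ) g + B * (χ₂ : G → ℂ) g := by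
    intro g hg
    obtain ⟨y, b, k, hb, hk, hyg⟩ := Helper92.b42_psing p x K h g hg
    rw [← Helper81.irr_conj ξ g y, ← Helper81.irr_conj χ g y, ← Helper81.irr_conj χ₂ g y, hyg]
    obtain ⟨s1, s2, s3⟩ := hsc k hk (x ^ b)
    rw [s1, s2, s3]
    have hkey : (ξ : G → ℂ) (x ^ b) = A * (χ : G → ℂ) (x ^ b) + B * (χ₂ : G → ℂ) (x ^ b) := by
      rcases hcls b hb with ⟨n, hn⟩ | ⟨n, hn⟩
      · rw [← hn, Helper81.irr_conj ξ x n, Helper81.irr_conj χ x n, Helper81.irr_conj χ₂ x n,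
          ← hu, ← ha, ← ha', hAB1]
      · rw [← hn, Helper81.irr_conj ξ _ n, Helper81.irr_conj χ _ n, Helper81.irr_conj χ₂ _ n,
          ← hu', hvx, hvx₂, hAB2]
    rw [hkey]; ring
  -- inner products with `Δ = χ - χ₂`
  have hξΔ : Cfsg.classInner (ξ : G → ℂ) (fun g => (χ : G → ℂ) g - (χ₂ : G → ℂ) g) = 0 := by
    rw [s4504only_ci_sub_right, Helper3.classInner_irr, Helper3.classInner_irr, if_neg h1,
      if_neg h2, sub_zero]
  have hΘΔ : Cfsg.classInner (fun g => A * (χ : G → ℂ) g + B * (χ₂ : G → ℂ) g)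
      (fun g => (χ : G → ℂ) g - (χ₂ : G → ℂ) g) = A - B := by
    rw [s4504only_ci_sub_right, s4504only_ci_lin_left, s4504only_ci_lin_left,
      Helper3.classInner_irr χ χ, Helper3.classInner_irr χ₂ χ, Helper3.classInner_irr χ χ₂,
      Helper3.classInner_irr χ₂ χ₂, if_pos rfl, if_neg hne.symm, if_neg hne, if_pos rfl]
    ring
  have heq : Cfsg.classInner (ξ : G → ℂ) (fun g => (χ : G → ℂ) g - (χ₂ : G → ℂ) g)
      = Cfsg.classInner (fun g => A * (χ : G → ℂ) g + B * (χ₂ : G → ℂ) g)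
        (fun g => (χ : G → ℂ) g - (χ₂ : G → ℂ) g) := by
    unfold Cfsg.classInner
    congr 1
    refine Finset.sum_congr rfl (fun g _ => ?_)
    beta_reduce
    by_cases hg : p ∣ orderOf g
    · rw [hag g hg]
    · rw [hreg g hg, sub_self, map_zero, mul_zero, mul_zero]
  have hAeqB : A = B := by
    rw [hξΔ, hΘΔ] at heq
    exact sub_eq_zero.mp heq.symm
  have huu : u' = u := by
    rw [← hAB1, ← hAB2, hAeqB]; ring
  intro b hb
  rcases hcls b hb with ⟨n, hn⟩ | ⟨n, hn⟩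
  · rw [← hn, Helper81.irr_conj ξ x n]
  · rw [← hn, Helper81.irr_conj ξ _ n, ← hu', ← hu, huu]

end Cfsg.Agent.Helper77
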