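import Cfsg.Agent.Helper67.S77Defs

set_option autoImplicit false
set_option linter.unusedSectionVars false
set_option linter.unusedVariables false

namespace Cfsg.Agent.Helper77.S77F17b

open Finset
open Cfsg.Agent.Helper67.S77

variable {V : Type*} [Fintype V] [DecidableEq V] {G : SimpleGraph V} [DecidableRel G.Adj]

theorem p_F17b (hG : G.IsSRGWith 77 16 0 4) (h10 : F10 G) (h11 : F11 G) (h13 : F13 G)
    (h14 : F14 G) : F17b G := by
  intro K hK x hxK hxadj
  have hNA : ∀ v ∈ K, NA G x v := fun v hv => ⟨fun h => hxK (h ▸ hv), hxadj v hv⟩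
  have hline : ∀ v ∈ K, IsLine G (lineOf G x v) := fun v hv => h10 x v (hNA v hv)
  have hxL : ∀ v, x ∈ lineOf G x v := fun v => by rw [mem_lineOf]; exact Or.inl rfl
  have hvL : ∀ v, v ∈ lineOf G x v := fun v => by rw [mem_lineOf]; exact Or.inr (Or.inl rfl)
  have hkey : ∀ v ∈ K, ∀ w ∈ K, v ≠ w → w ∉ lineOf G x v := by
    intro v hv w hw hvw hwL
    have h1 : lineOf G x v = lineOf G v w := h11 _ (hline v hv) v (hvL v) w hwL hvw
    have h2 : K = lineOf G v w := h11 K hK v hv w hw hvw
    apply hxK
    rw [h2, ← h1]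
    exact hxL v
  have hmeet : ∀ v ∈ K, ∀ w ∈ K, v ≠ w → ∀ u, u ∈ lineOf G x v → u ∈ lineOf G x w → u = x := by
    intro v hv w hw hvw u huv huw
    by_contra hux
    have h1 : lineOf G x v = lineOf G x u := h11 _ (hline v hv) x (hxL v) u huv (Ne.symm hux)
    have h2 : lineOf G x w = lineOf G x u := h11 _ (hline w hw) x (hxL w) u huw (Ne.symm hux)
    apply hkey v hv w hw hvw
    rw [h1, ← h2]
    exact hvL w
  refine ⟨?_, ?_⟩
  · have hne : K.Nonempty := by
      rw [← Finset.card_pos, hK.1]; norm_num
    have heq : K.biUnion (fun v => lineOf G x v)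
        = insert x (K.biUnion (fun v => (lineOf G x v).erase x)) := by
      ext u
      simp only [Finset.mem_biUnion, Finset.mem_insert, Finset.mem_erase]
      constructor
      · rintro ⟨v, hv, hu⟩
        by_cases hux : u = x
        · exact Or.inl hux
        · exact Or.inr ⟨v, hv, hux, hu⟩
      · rintro (rfl | ⟨v, hv, -, hu⟩)
        · obtain ⟨v, hv⟩ := hne
          exact ⟨v, hv, hxL v⟩
        · exact ⟨v, hv, hu⟩
    rw [heq, Finset.card_insert_of_notMem, Finset.card_biUnion]
    · have h4 : ∀ v ∈ K, ((lineOf G x v).erase x).card = 4 := by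
        intro v hv
        rw [Finset.card_erase_of_mem (hxL v), (hline v hv).1]
      rw [Finset.sum_congr rfl h4, Finset.sum_const, hK.1]
      rfl
    · intro v hv w hw hvw
      show Disjoint ((lineOf G x v).erase x) ((lineOf G x w).erase x)
      rw [Finset.disjoint_left]
      intro u hu hu'
      rw [Finset.mem_erase] at hu hu'
      exact hu.1 (hmeet v hv w hw hvw u hu.2 hu'.2)
    · simp
  · intro a ha b hb
    rw [Finset.mem_biUnion] at ha hb
    obtain ⟨v, hv, hav⟩ := ha
    obtain ⟨w, hw, hbw⟩ := hb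
    by_cases hvw : v = w
    · subst hvw
      exact (hline v hv).2.1 a hav b hbw
    · have ht : t3 G x v w = 1 := h13 K hK x hxK hxadj v hv w hw hvw
      have hLne : lineOf G x v ≠ lineOf G x w := by
        intro h
        apply hkey v hv w hw hvw
        rw [h]; exact hvL w
      exact h14 _ _ (hline v hv) (hline w hw) hLne x (hxL v) (hxL w) v (hvL v) w (hvL w)
        (hNA v hv).1.symm (hNA w hw).1.symm ht a hav b hbw

end Cfsg.Agent.Helper77.S77F17b
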