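import Cfsg.Agent.Helper67.S77Defs

set_option autoImplicit false
set_option linter.unusedSectionVars false
set_option linter.unusedVariables false

namespace Cfsg.Agent.Helper77.S77F7

open Finset
open Cfsg.Agent.Helper67.S77

variable {V : Type*} [Fintype V] [DecidableEq V] {G : SimpleGraph V} [DecidableRel G.Adj]

theorem p_F7 (hG : G.IsSRGWith 77 16 0 4) (h4 : F4 G) : F7 G := by
  intro x y hxy z hz w hzw hxw hyw
  rw [mem_Par] at hz
  obtain ⟨hzR, hz0⟩ := hz
  rw [mem_Rs] at hzR
  obtain ⟨hzx, hzy, hxz, hyz⟩ := hzR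
  have hzx4 : (G.neighborFinset z ∩ G.neighborFinset x).card = 4 :=
    card_common hG ⟨hzx, fun h => hxz h.symm⟩
  have hzy4 : (G.neighborFinset z ∩ G.neighborFinset y).card = 4 :=
    card_common hG ⟨hzy, fun h => hyz h.symm⟩
  have hz16 := card_nbr hG z
  have hMcard : (G.neighborFinset x ∩ G.neighborFinset y).card = 4 := card_common hG hxy
  have hnoM : ∀ a, G.Adj x a → G.Adj y a → ¬ G.Adj z a := by
    intro a hxa hya hza
    unfold t3 at hz0
    rw [Finset.card_eq_zero] at hz0
    have : a ∈ G.neighborFinset x ∩ G.neighborFinset y ∩ G.neighborFinset z := by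
      simp [hxa, hya, hza]
    rw [hz0] at this
    simp at this
  have hZcard : (G.neighborFinset z \ (G.neighborFinset x ∪ G.neighborFinset y)).card = 8 := by
    have h1 := Finset.card_sdiff_add_card_inter (G.neighborFinset z)
      (G.neighborFinset x ∪ G.neighborFinset y)
    have h2 : (G.neighborFinset z ∩ (G.neighborFinset x ∪ G.neighborFinset y)).card = 8 := by
      rw [Finset.inter_union_distrib_left, Finset.card_union_of_disjoint, hzx4, hzy4]
      rw [Finset.disjoint_left]
      intro a ha hb
      simp only [Finset.mem_inter, SimpleGraph.mem_neighborFinset] at ha hb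
      exact hnoM a ha.2 hb.2 ha.1
    omega
  have hZR : ∀ v ∈ G.neighborFinset z \ (G.neighborFinset x ∪ G.neighborFinset y),
      v ∈ Rs G x y := by
    intro v hv
    simp only [Finset.mem_sdiff, Finset.mem_union, SimpleGraph.mem_neighborFinset, not_or] at hv
    rw [mem_Rs]
    refine ⟨?_, ?_, hv.2.1, hv.2.2⟩
    · rintro rfl; exact hxz hv.1.symm
    · rintro rfl; exact hyz hv.1.symm
  have hsum : ∑ v ∈ G.neighborFinset z \ (G.neighborFinset x ∪ G.neighborFinset y),
      t3 G x y v = 16 := by
    have ht : ∀ v, t3 G x y v =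
        ∑ a ∈ G.neighborFinset x ∩ G.neighborFinset y, if G.Adj v a then 1 else 0 := by
      intro v
      unfold t3
      rw [← Finset.card_filter]
      congr 1
      ext a
      simp [and_assoc]
    simp_rw [ht]
    rw [Finset.sum_comm]
    have h4' : ∀ a ∈ G.neighborFinset x ∩ G.neighborFinset y,
        ∑ v ∈ G.neighborFinset z \ (G.neighborFinset x ∪ G.neighborFinset y),
          (if G.Adj v a then 1 else 0) = 4 := by
      intro a ha
      simp only [Finset.mem_inter, SimpleGraph.mem_neighborFinset] at ha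
      rw [← Finset.card_filter]
      have hza : NA G z a := ⟨by rintro rfl; exact hxz ha.1, hnoM a ha.1 ha.2⟩
      rw [← card_common hG hza]
      congr 1
      ext v
      simp only [Finset.mem_filter, Finset.mem_sdiff, Finset.mem_union, Finset.mem_inter,
        SimpleGraph.mem_neighborFinset, not_or]
      constructor
      · rintro ⟨⟨h1, -, -⟩, h2⟩; exact ⟨h1, h2.symm⟩
      · rintro ⟨h1, h2⟩
        refine ⟨⟨h1, ?_, ?_⟩, h2.symm⟩
        · exact fun hxv => tri_free hG h2 ha.1.symm hxv.symm
        · exact fun hyv => tri_free hG h2 ha.2.symm hyv.symm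
    rw [Finset.sum_congr rfl h4', Finset.sum_const, hMcard]
    rfl
  have hwZ : w ∈ G.neighborFinset z \ (G.neighborFinset x ∪ G.neighborFinset y) := by
    simp [hzw, hxw, hyw]
  have hle : t3 G x y w ≤ 2 := h4 x y hxy w (hZR w hwZ)
  by_contra hne
  have hlt : t3 G x y w < 2 := lt_of_le_of_ne hle hne
  have hcon : ∑ v ∈ G.neighborFinset z \ (G.neighborFinset x ∪ G.neighborFinset y), t3 G x y v
      < ∑ v ∈ G.neighborFinset z \ (G.neighborFinset x ∪ G.neighborFinset y), 2 :=
    Finset.sum_lt_sum (fun v hv => h4 x y hxy v (hZR v hv)) ⟨w, hwZ, hlt⟩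
  rw [hsum, Finset.sum_const, hZcard] at hcon
  simp at hcon

end Cfsg.Agent.Helper77.S77F7
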